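import Cfsg.Agent.H874.TenSlot

/-!
# Square-zero elements `x` with `1 + x ∈ M`
-/

set_option autoImplicit false
set_option linter.unusedSimpArgs false
set_option linter.unusedVariables false
set_option linter.unusedSectionVars false

namespace Cfsg.Agent.H874

section Abstract

variable {F R : Type*} [Field F] [Ring R] [Algebra F R] {M : Subgroup Rˣ}

/-- `1 + x ∈ M`. -/
def In (M : Subgroup Rˣ) (x : R) : Prop := ∃ g ∈ M, (g : R) = 1 + x

theorem In.zero : In M (0 : R) := ⟨1, M.one_mem, by rw [Units.val_one, add_zero]⟩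

theorem In.add {x y : R} (hx : In M x) (hy : In M y) (h : x * y = 0) : In M (x + y) := by
  obtain ⟨g, hg, hgx⟩ := hx
  obtain ⟨g', hg', hgy⟩ := hy
  refine ⟨g * g', M.mul_mem hg hg', ?_⟩
  have e : (1 + x) * (1 + y) = 1 + (x + y) + x * y := by noncomm_ring
  rw [Units.val_mul, hgx, hgy, e, h, add_zero]

theorem inv_of_sq {g : Rˣ} {x : R} (hg : (g : R) = 1 + x) (h : x * x = 0) : ((g⁻¹ : Rˣ) : R) = 1 - x := by
  have e : (1 + x) * (1 - x) = 1 - x * x := by noncomm_ring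
  have h1 : (g : R) * (1 - x) = 1 := by rw [hg, e, h, sub_zero]
  calc ((g⁻¹ : Rˣ) : R) = ((g⁻¹ : Rˣ) : R) * ((g : R) * (1 - x)) := by rw [h1, mul_one]
    _ = 1 - x := by rw [← mul_assoc, Units.inv_mul, one_mul]

theorem In.neg {x : R} (hx : In M x) (h : x * x = 0) : In M (-x) := by
  obtain ⟨g, hg, hgx⟩ := hx
  exact ⟨g⁻¹, M.inv_mem hg, by rw [inv_of_sq hgx h, sub_eq_add_neg]⟩

theorem In.conj {g : Rˣ} (hg : g ∈ M) {x : R} (hx : In M x) : In M ((g : R) * x * ((g⁻¹ : Rˣ) : R)) := by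
  obtain ⟨h, hh, hhx⟩ := hx
  refine ⟨g * h * g⁻¹, M.mul_mem (M.mul_mem hg hh) (M.inv_mem hg), ?_⟩
  rw [Units.val_mul, Units.val_mul, hhx, mul_add, add_mul, mul_one, Units.mul_inv]

theorem In.conj' {g : Rˣ} (hg : g ∈ M) {x : R} (hx : In M x) : In M (((g⁻¹ : Rˣ) : R) * x * (g : R)) := by
  have h := hx.conj (M.inv_mem hg)
  rwa [inv_inv] at h

theorem In.nsmul {x : R} (hx : In M x) (h : x * x = 0) (n : ℕ) : In M (n • x) := by
  induction n with
  | zero => rw [zero_smul]; exact In.zero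
  | succ n ih =>
    rw [succ_nsmul]
    exact ih.add hx (by rw [smul_mul_assoc, h, smul_zero])

theorem In.half {p : ℕ} [CharP F p] (hp : Odd p) {x : R} (hx : In M x) (h : x * x = 0) : In M ((2⁻¹ : F) • x) := by
  have h1 := hx.nsmul h ((p + 1) / 2)
  have h2 : (((p + 1) / 2 : ℕ) : F) = 2⁻¹ := by
    have h3 : (2 : F) * (((p + 1) / 2 : ℕ) : F) = 1 := by
      obtain ⟨m, hm⟩ := hp
      have h4 : (p + 1) / 2 = m + 1 := by omega
      have h5 : ((2 * m + 1 : ℕ) : F) = 0 := by rw [← hm]; exact CharP.cast_eq_zero F p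
      rw [h4]
      push_cast at h5 ⊢
      linear_combination h5
    exact eq_inv_of_mul_eq_one_right h3
  rw [← h2, Nat.cast_smul_eq_nsmul]
  exact h1

/-- The commutator of `1 + x` and `1 + y`. -/
theorem In.comm {x y : R} (hx : In M x) (hy : In M y) (hxx : x * x = 0) (hyy : y * y = 0) (hxyx : x * y * x = 0)
    (hyxy : y * x * y = 0) : In M (x * y - y * x) := by
  obtain ⟨g, hg, hgx⟩ := hx
  obtain ⟨g', hg', hgy⟩ := hy
  refine ⟨g * g' * g⁻¹ * g'⁻¹, M.mul_mem (M.mul_mem (M.mul_mem hg hg') (M.inv_mem hg)) (M.inv_mem hg'), ?_⟩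
  rw [Units.val_mul, Units.val_mul, Units.val_mul, hgx, hgy, inv_of_sq hgx hxx, inv_of_sq hgy hyy]
  have e1 : (1 + x) * (1 + y) * (1 - x) * (1 - y)
      = 1 + (x * y - y * x) - x * x - y * y + x * x * y - y * x * x * 0 - x * y * x + y * x * y - x * y * y + x * y * x * y
        := by noncomm_ring
  rw [e1, hxx, hyy, hxyx, hyxy, mul_assoc x y y, hyy]
  simp

/-- `x = T y` with `y` commuting with `T`. -/
def Nul (T x : R) : Prop := ∃ y, x = T * y ∧ T * y = y * T

theorem Nul.mul {T x x' : R} (hT : T * T = 0) (hx : Nul T x) (hx' : Nul T x') : x * x' = 0 := by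
  obtain ⟨y, rfl, hy⟩ := hx
  obtain ⟨y', rfl, hy'⟩ := hx'
  rw [hy, mul_assoc, ← mul_assoc T T, hT, zero_mul, mul_zero]

theorem Nul.add {T x x' : R} (hx : Nul T x) (hx' : Nul T x') : Nul T (x + x') := by
  obtain ⟨y, rfl, hy⟩ := hx
  obtain ⟨y', rfl, hy'⟩ := hx'
  exact ⟨y + y', by rw [mul_add], by rw [mul_add, add_mul, hy, hy']⟩

theorem Nul.neg {T x : R} (hx : Nul T x) : Nul T (-x) := by
  obtain ⟨y, rfl, hy⟩ := hx
  exact ⟨-y, by rw [mul_neg], by rw [mul_neg, neg_mul, hy]⟩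

theorem Nul.smul {T x : R} (c : F) (hx : Nul T x) : Nul T (c • x) := by
  obtain ⟨y, rfl, hy⟩ := hx
  exact ⟨c • y, by rw [mul_smul_comm], by rw [mul_smul_comm, smul_mul_assoc, hy]⟩

theorem Nul.mid {T x a b : R} (ha : T * a = a * T) (hb : T * b = b * T) (hx : Nul T x) : Nul T (a * x * b) := by
  obtain ⟨y, rfl, hy⟩ := hx
  refine ⟨a * y * b, ?_, ?_⟩
  · rw [← mul_assoc a T, ← ha]
    simp only [mul_assoc]
  · rw [← mul_assoc, ← mul_assoc, ha, mul_assoc a T y, hy, ← mul_assoc a y T, mul_assoc (a * y) T b, hb]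
    simp only [mul_assoc]

/-- `x ↦ D x D` and `x ↦ D x - x D`. -/
theorem dop {p : ℕ} [CharP F p] (hp : Odd p) {T D x : R} (hT : T * T = 0) (hTD : T * D = D * T) (hDD : D * D = 0)
    (hD : In M D) (hx : In M x) (hN : Nul T x) : In M (D * x * D) ∧ In M (D * x - x * D) := by
  have h2 : (2 : F) ≠ 0 := by
    intro h
    have h3 : ((2 : ℕ) : F) = 0 := by exact_mod_cast h
    rw [CharP.cast_eq_zero_iff F p] at h3
    obtain ⟨m, hm⟩ := hp
    have h4 := Nat.le_of_dvd (by norm_num) h3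
    have h5 : p ≠ 1 := CharP.char_ne_one F p
    omega
  obtain ⟨d, hd, hdD⟩ := hD
  have hdi := inv_of_sq hdD hDD
  have h1 := hx.conj hd
  have h3 := hx.conj' hd
  rw [hdD, hdi] at h1 h3
  have e1 : (1 + D) * x * (1 - D) = x + (D * x - x * D) - D * x * D := by noncomm_ring
  have e2 : (1 - D) * x * (1 + D) = x - (D * x - x * D) - D * x * D := by noncomm_ring
  rw [e1] at h1
  rw [e2] at h3
  have n1 : Nul T (D * x * D) := hN.mid hTD hTD
  have n2 : Nul T (D * x - x * D) := by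
    rw [sub_eq_add_neg]
    have ha : Nul T (D * x) := by
      have := hN.mid (b := 1) hTD (by rw [mul_one, one_mul])
      rwa [mul_one] at this
    have hb : Nul T (x * D) := by
      have := hN.mid (a := 1) (by rw [mul_one, one_mul]) hTD
      rwa [one_mul] at this
    exact ha.add hb.neg
  have n3 : Nul T (x + (D * x - x * D) - D * x * D) := by
    rw [sub_eq_add_neg]; exact (hN.add n2).add n1.neg
  have n4 : Nul T (x - (D * x - x * D) - D * x * D) := by
    rw [sub_eq_add_neg, sub_eq_add_neg]; exact (hN.add n2.neg).add n1.neg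
  have hxn : In M (-x) := hx.neg (hN.mul hT hN)
  constructor
  · have h5 := ((h1.add h3 (n3.mul hT n4)).add hxn ((n3.add n4).mul hT hN.neg)).add hxn
      (((n3.add n4).add hN.neg).mul hT hN.neg)
    have e3 : x + (D * x - x * D) - D * x * D + (x - (D * x - x * D) - D * x * D) + -x + -x
        = -((2 : F) • (D * x * D)) := by rw [two_smul]; abel
    rw [e3] at h5
    have n5 : Nul T (-((2 : F) • (D * x * D))) := (n1.smul 2).neg
    have h6 := (h5.neg (n5.mul hT n5)).half (F := F) hp ((n5.neg).mul hT n5.neg)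
    rwa [neg_neg, smul_smul, inv_mul_cancel₀ h2, one_smul] at h6
  · have h4 := h3.neg (n4.mul hT n4)
    have h5 := h1.add h4 (n3.mul hT n4.neg)
    have e3 : x + (D * x - x * D) - D * x * D + -(x - (D * x - x * D) - D * x * D) = (2 : F) • (D * x - x * D) := by
      rw [two_smul]; abel
    rw [e3] at h5
    have n5 := n2.smul (2 : F)
    have h6 := h5.half (F := F) hp (n5.mul hT n5)
    rwa [smul_smul, inv_mul_cancel₀ h2, one_smul] at h6

end Abstract

namespace Slot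

variable {F W W' V : Type*} [Field F] [AddCommGroup W] [Module F W] [AddCommGroup W'] [Module F W']
    [AddCommGroup V] [Module F V] {S : Slot F W W' V}

theorem IsCo.c {X : Module.End F V} {Z : Module.End F W'} (hZ : ∀ w y, X (S.i w y) = S.i w (Z y)) (v : W) (x : V) :
    S.c v (X x) = Z (S.c v x) := by
  have h : S.c v ∘ₗ X = Z ∘ₗ S.c v := by
    refine S.ext_i fun w y => ?_
    rw [LinearMap.comp_apply, LinearMap.comp_apply, hZ, S.ci, S.ci, map_smul]
  exact LinearMap.congr_fun h x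

/-- The one-slot analysis. -/
theorem one_slot (hex : ∀ u v : W, u ≠ 0 → v ≠ 0 → ∃ x, S.ω u x ≠ 0 ∧ S.ω v x ≠ 0) (P : Module.End F V → Prop)
    (hneg : ∀ x, P x → P (-x)) (hD : ∀ x v, P x → P (S.Δ v * x * S.Δ v))
    (hB : ∀ x v, P x → P (S.Δ v * x - x * S.Δ v)) {x : Module.End F V} (hx : P x) :
    (∃ v, S.c v ∘ₗ x ∘ₗ S.i v ≠ 0 ∧ P (S.i v ∘ₗ (S.c v ∘ₗ x ∘ₗ S.i v) ∘ₗ S.c v)) ∨
    (∃ u v, S.ω u v = 0 ∧ (∀ a : F, v ≠ a • u) ∧ u ≠ 0 ∧ S.c u ∘ₗ x ∘ₗ S.i v ≠ 0 ∧
      P (S.i u ∘ₗ (S.c u ∘ₗ x ∘ₗ S.i v) ∘ₗ S.c v - S.i v ∘ₗ (S.c u ∘ₗ x ∘ₗ S.i v) ∘ₗ S.c u)) ∨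
    S.IsCo x := by
  by_cases h1 : ∃ v, S.c v ∘ₗ x ∘ₗ S.i v ≠ 0
  · obtain ⟨v, hv⟩ := h1
    exact Or.inl ⟨v, hv, hD x v hx⟩
  push Not at h1
  have h1' : ∀ v y, S.c v (x (S.i v y)) = 0 := fun v y => LinearMap.congr_fun (h1 v) y
  have h3 : ∀ u v y, S.c u (x (S.i v y)) = - S.c v (x (S.i u y)) := by
    intro u v y
    have h4 := h1' (u + v) y
    simp only [map_add, LinearMap.add_apply, h1'] at h4
    rw [zero_add, add_zero] at h4
    exact eq_neg_of_add_eq_zero_left (by rw [add_comm]; exact h4)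
  by_cases h2 : ∃ u v, S.ω u v = 0 ∧ S.c u ∘ₗ x ∘ₗ S.i v ≠ 0
  · obtain ⟨u, v, huv, hz⟩ := h2
    refine Or.inr (Or.inl ⟨u, v, huv, ?_, ?_, hz, ?_⟩)
    · rintro a rfl
      apply hz
      ext y
      rw [LinearMap.comp_apply, LinearMap.comp_apply, map_smul, LinearMap.smul_apply, map_smul, map_smul, h1',
        smul_zero, LinearMap.zero_apply]
    · rintro rfl
      apply hz
      rw [map_zero, LinearMap.zero_comp]
    · have h5 := hneg _ (hB _ u (hB x v hx))
      have h6 : -(S.Δ u * (S.Δ v * x - x * S.Δ v) - (S.Δ v * x - x * S.Δ v) * S.Δ u)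
          = S.i u ∘ₗ (S.c u ∘ₗ x ∘ₗ S.i v) ∘ₗ S.c v - S.i v ∘ₗ (S.c u ∘ₗ x ∘ₗ S.i v) ∘ₗ S.c u := by
        have hvu := S.perp_comm huv
        refine LinearMap.ext fun y => ?_
        simp only [LinearMap.neg_apply, LinearMap.sub_apply, Module.End.mul_apply, S.Δ_apply, map_sub,
          LinearMap.comp_apply]
        have e1 : S.c u (S.i v (S.c v (x y))) = 0 := by rw [S.ci, huv, zero_smul]
        have e2 : S.c v (S.i u (S.c u y)) = 0 := by rw [S.ci, hvu, zero_smul]
        rw [e1, e2, h3 v u (S.c u y)]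
        simp only [map_zero, map_neg]
        abel
      rwa [h6] at h5
  · right; right
    push Not at h2
    have h2' : ∀ u v, S.ω u v = 0 → ∀ y, S.c u (x (S.i v y)) = 0 := fun u v h y => LinearMap.congr_fun (h2 u v h) y
    by_cases hW : ∀ w : W, w = 0
    · refine ⟨0, fun w y => ?_⟩
      rw [hW w, map_zero, LinearMap.zero_apply, LinearMap.zero_apply, map_zero]
    push Not at hW
    obtain ⟨w, hw⟩ := hW
    obtain ⟨u0, hu0⟩ := S.exists_pair hw
    -- `b(u, v) = ω(u, v) b(u, v')` for `ω(u, v') = 1`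
    have k1 : ∀ u v' : W, S.ω u v' = 1 → ∀ v y, S.c u (x (S.i v y)) = S.ω u v • S.c u (x (S.i v' y)) := by
      intro u v' h v y
      have h4 := h2' u (v - S.ω u v • v') (by rw [map_sub, map_smul, h, smul_eq_mul, mul_one, sub_self]) y
      rw [map_sub, map_smul, LinearMap.sub_apply, LinearMap.smul_apply, map_sub, map_smul, map_sub, map_smul,
        sub_eq_zero] at h4
      exact h4
    -- `c u x i v = ω u v • Z`
    let Z : Module.End F W' := S.c w ∘ₗ x ∘ₗ S.i u0
    have hZ : ∀ u v y, S.c u (x (S.i v y)) = S.ω u v • Z y := by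
      intro u v y
      by_cases hu : u = 0
      · rw [hu, map_zero, map_zero, LinearMap.zero_apply, LinearMap.zero_apply, zero_smul]
      obtain ⟨v1, hv1⟩ := S.exists_pair hu
      obtain ⟨z, hz1, hz2⟩ := hex u w hu hw
      -- `z` with both
      have e1 := k1 w u0 hu0 z y
      have e2 := k1 u v1 hv1 z y
      have e3 := k1 u v1 hv1 v y
      -- `b(u, z) = - b(z, u)`, `b(w, z) = - b(z, w)`
      obtain ⟨z', hz'⟩ : ∃ z', S.ω z z' = 1 := by
        refine S.exists_pair ?_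
        rintro rfl
        rw [map_zero] at hz1
        exact hz1 rfl
      have e4 := k1 z z' hz' u y
      have e5 := k1 z z' hz' w y
      rw [h3 z u, neg_eq_iff_eq_neg] at e4
      rw [h3 z w, neg_eq_iff_eq_neg] at e5
      rw [e4, S.skew z u, neg_smul, neg_neg] at e2
      rw [e5, S.skew z w, neg_smul, neg_neg] at e1
      have e6 := smul_right_injective W' hz1 e2
      have e7 := smul_right_injective W' hz2 e1
      rw [e3, ← e6, e7]
      rfl
    refine ⟨Z, fun v y => S.ext_c fun u => ?_⟩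
    rw [hZ, S.ci]

end Slot

end Cfsg.Agent.H874
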