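import Cfsg.Agent.H874.LevelA

/-!
# Purification: square-zero elements of `M` in tensor powers can be made pure
-/

set_option autoImplicit false
set_option linter.unusedSimpArgs false
set_option linter.unusedVariables false
set_option linter.unusedSectionVars false

namespace Cfsg.Agent.H874

open Matrix Cfsg.Agent.H889

variable {F : Type*} [Field F] {k t : ℕ}

/-- `1 ⊗ z`. -/
def coj (j : Fin t) (z : Module.End F (({i : Fin t // i ≠ j} → Fin k) → F)) :
    Module.End F ((Fin t → Fin k) → F) where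
  toFun x a := z (fun b => x (ins j (a j) b)) (res j a)
  map_add' x y := by
    funext a
    have h : (fun b => (x + y) (ins j (a j) b)) = (fun b => x (ins j (a j) b)) + fun b => y (ins j (a j) b) := rfl
    rw [h, map_add]
    rfl
  map_smul' c x := by
    funext a
    have h : (fun b => (c • x) (ins j (a j) b)) = c • (fun b => x (ins j (a j) b)) := rfl
    rw [h, map_smul]
    rfl

section Slots

variable (ω : (Fin k → F) →ₗ[F] (Fin k → F) →ₗ[F] F) (hω : ∀ w, ω w w = 0)
    (hn : ∀ w, (∀ x, ω w x = 0) → w = 0)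

theorem coj_i (j : Fin t) (z : Module.End F (({i : Fin t // i ≠ j} → Fin k) → F)) (w : Fin k → F)
    (y : ({i : Fin t // i ≠ j} → Fin k) → F) :
    coj j z ((tslot ω hω hn j).i w y) = (tslot ω hω hn j).i w (z y) := by
  funext a
  show z (fun b => (tslot ω hω hn j).i w y (ins j (a j) b)) (res j a) = w (a j) * z y (res j a)
  have h : (fun b => (tslot ω hω hn j).i w y (ins j (a j) b)) = w (a j) • y := by
    funext b
    rw [tslot_i_apply, ins_self, res_ins, Pi.smul_apply, smul_eq_mul]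
  rw [h, map_smul, Pi.smul_apply, smul_eq_mul]

theorem sl_mul_coj (j : Fin t) (a b : Fin k → F) (z : Module.End F (({i : Fin t // i ≠ j} → Fin k) → F)) :
    sl j (eM ω a b) * coj j z = (tslot ω hω hn j).i a ∘ₗ z ∘ₗ (tslot ω hω hn j).c b := by
  refine (tslot ω hω hn j).ext_i fun w y => ?_
  rw [Module.End.mul_apply, coj_i, ← E_eq_sl ω hω hn, Slot.E_apply, Slot.ci, LinearMap.comp_apply, LinearMap.comp_apply,
    Slot.ci, map_smul, map_smul, map_smul]

include ω hω hn in
theorem coj_comm_self (j : Fin t) (B : Matrix (Fin k) (Fin k) F)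
    (z : Module.End F (({i : Fin t // i ≠ j} → Fin k) → F)) : coj j z * sl j B = sl j B * coj j z :=
  (Slot.IsOp.comm (isOp_sl ω hω hn j B) ⟨z, coj_i ω hω hn j z⟩).symm

theorem coj_comm_of {i j : Fin t} (hij : i ≠ j) (B : Matrix (Fin k) (Fin k) F) {x : Module.End F ((Fin t → Fin k) → F)}
    (hx : x * sl i B = sl i B * x) (u v : Fin k → F) :
    coj j ((tslot ω hω hn j).c u ∘ₗ x ∘ₗ (tslot ω hω hn j).i v) * sl i B
      = sl i B * coj j ((tslot ω hω hn j).c u ∘ₗ x ∘ₗ (tslot ω hω hn j).i v) := by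
  obtain ⟨Z, hZ⟩ := isCo_sl ω hω hn hij B
  refine (tslot ω hω hn j).ext_i fun w y => ?_
  rw [Module.End.mul_apply, Module.End.mul_apply, hZ, coj_i, coj_i, hZ]
  congr 1
  rw [LinearMap.comp_apply, LinearMap.comp_apply, LinearMap.comp_apply, LinearMap.comp_apply, ← hZ,
    ← Module.End.mul_apply, hx, Module.End.mul_apply, Slot.IsCo.c hZ]

theorem coj_ne_zero [NeZero k] {j : Fin t} {z : Module.End F (({i : Fin t // i ≠ j} → Fin k) → F)} (hz : z ≠ 0) :
    coj j z ≠ 0 := by
  intro h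
  apply hz
  refine LinearMap.ext fun y => ?_
  funext b
  have h1 := congrFun (LinearMap.congr_fun h (fun a => (Pi.single (0 : Fin k) (1 : F) : Fin k → F) (a j) * y (res j a)))
    (ins j 0 b)
  have h2 : (fun b' => (Pi.single (0 : Fin k) (1 : F) : Fin k → F) ((ins j (ins j 0 b j) b') j) *
      y (res j (ins j (ins j 0 b j) b'))) = y := by
    funext b'
    rw [ins_self, ins_self, res_ins, Pi.single_eq_same, one_mul]
  have h3 : coj j z (fun a => (Pi.single (0 : Fin k) (1 : F) : Fin k → F) (a j) * y (res j a)) (ins j 0 b) = z y b := by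
    show z (fun b' => (Pi.single (0 : Fin k) (1 : F) : Fin k → F) ((ins j (ins j 0 b j) b') j) *
      y (res j (ins j (ins j 0 b j) b'))) (res j (ins j 0 b)) = z y b
    rw [h2, res_ins]
  rw [← h3, h1]
  rfl

/-- The three types of slot components. -/
def Typ (X : Matrix (Fin k) (Fin k) F) : Prop :=
  (∃ v, v ≠ 0 ∧ X = eM ω v v) ∨
  (∃ u v, ω u v = 0 ∧ (∀ a : F, v ≠ a • u) ∧ u ≠ 0 ∧ X = eM ω u v - eM ω v u) ∨ X = 1

/-- `A` on `s`, `1` elsewhere. -/
def onS (s : Finset (Fin t)) (A : Fin t → Matrix (Fin k) (Fin k) F) : Fin t → Matrix (Fin k) (Fin k) F :=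
  fun i => if i ∈ s then A i else 1

theorem PM_zero {A : Fin t → Matrix (Fin k) (Fin k) F} (j : Fin t) (h : A j = 0) : PM A = 0 := by
  have h1 : pm A = 0 := by
    ext a b
    rw [pm_apply, Finset.prod_eq_zero (Finset.mem_univ j)]
    · rfl
    · rw [h]; rfl
  rw [PM, h1, map_zero]

theorem onS_insert {s : Finset (Fin t)} {j : Fin t} (hj : j ∉ s) (A : Fin t → Matrix (Fin k) (Fin k) F)
    (B : Matrix (Fin k) (Fin k) F) :
    PM (onS (insert j s) (Function.update A j B)) = PM (onS s A) * sl j B := by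
  rw [sl, PM_mul]
  congr 1
  funext i
  by_cases hi : i = j
  · subst hi
    simp only [onS, Finset.mem_insert_self, if_true, Function.update_self, if_neg hj, one_mul]
  · simp only [onS, Finset.mem_insert, hi, false_or, Function.update_of_ne hi, mul_one]

theorem sl_comm_onS {s : Finset (Fin t)} {j : Fin t} (hj : j ∉ s) (A : Fin t → Matrix (Fin k) (Fin k) F)
    (B : Matrix (Fin k) (Fin k) F) : PM (onS s A) * sl j B = sl j B * PM (onS s A) := by
  rw [sl, PM_mul, PM_mul]
  congr 1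
  funext i
  by_cases hi : i = j
  · subst hi
    simp only [onS, if_neg hj, one_mul, mul_one]
  · rw [Function.update_of_ne hi, one_mul, mul_one]

theorem comm_onS {s : Finset (Fin t)} {y : Module.End F ((Fin t → Fin k) → F)}
    (hy : ∀ i ∈ s, ∀ B, y * sl i B = sl i B * y) (A : Fin t → Matrix (Fin k) (Fin k) F) :
    y * PM (onS s A) = PM (onS s A) * y := by
  classical
  have key : ∀ r ⊆ s, y * PM (onS r A) = PM (onS r A) * y := by
    intro r
    induction r using Finset.induction_on with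
    | empty =>
      intro _
      have : onS (∅ : Finset (Fin t)) A = fun _ => 1 := by funext i; simp [onS]
      rw [this, PM_one, mul_one, one_mul]
    | insert j r hj ih =>
      intro hr
      have h1 := onS_insert hj A (A j)
      rw [Function.update_eq_self] at h1
      rw [h1, ← mul_assoc, ih fun i hi => hr (Finset.mem_insert_of_mem hi), mul_assoc,
        hy j (hr (Finset.mem_insert_self _ _)), mul_assoc]
  exact key s (Finset.Subset.refl s)

theorem eM_sq {v : Fin k → F} (h : ω v v = 0) : eM ω v v * eM ω v v = 0 := by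
  rw [eM_mul, h, zero_smul]

theorem sq_ne_one [NeZero k] {X : Matrix (Fin k) (Fin k) F} (h : X * X = 0) : X ≠ 1 := by
  rintro rfl
  rw [mul_one] at h
  have h1 := congrFun (congrFun h 0) 0
  rw [Matrix.one_apply_eq] at h1
  exact one_ne_zero h1

theorem eL_sq {u v : Fin k → F} (hω : ∀ w, ω w w = 0) (h : ω u v = 0) (h' : ω v u = 0) :
    (eM ω u v - eM ω v u) * (eM ω u v - eM ω v u) = 0 := by
  rw [sub_mul, mul_sub, mul_sub, eM_mul, eM_mul, eM_mul, eM_mul, h, h', hω, hω]
  simp

variable {ω} (M : Subgroup (Module.End F ((Fin t → Fin k) → F))ˣ)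

/-- One step of the purification. -/
theorem purify_step [NeZero k] {p : ℕ} [CharP F p] (hp : Odd p)
    (hex : ∀ u v : Fin k → F, u ≠ 0 → v ≠ 0 → ∃ x, ω u x ≠ 0 ∧ ω v x ≠ 0)
    (hω : ∀ w, ω w w = 0) (hn : ∀ w, (∀ x, ω w x = 0) → w = 0)
    (hroot : ∀ j v, In M (sl j (eM ω v v))) (s : Finset (Fin t)) (j : Fin t) (hj : j ∉ s)
    (A : Fin t → Matrix (Fin k) (Fin k) F) (j0 : Fin t) (hj0 : j0 ∈ s) (hA : A j0 * A j0 = 0)
    (y : Module.End F ((Fin t → Fin k) → F)) (hy0 : y ≠ 0) (hy : ∀ i ∈ s, ∀ B, y * sl i B = sl i B * y)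
    (hIn : In M (PM (onS s A) * y)) :
    (∃ X y', Typ ω X ∧ X * X = 0 ∧ y' ≠ 0 ∧ (∀ i ∈ insert j s, ∀ B, y' * sl i B = sl i B * y') ∧
      In M (PM (onS (insert j s) (Function.update A j X)) * y')) ∨
    ((∀ i ∈ insert j s, ∀ B, y * sl i B = sl i B * y) ∧
      In M (PM (onS (insert j s) (Function.update A j 1)) * y)) := by
  classical
  have hTT : PM (onS s A) * PM (onS s A) = 0 := by
    rw [PM_mul]
    refine PM_zero j0 ?_
    simp only [onS, if_pos hj0, hA]
  obtain ⟨T, hT⟩ : ∃ T, T = PM (onS s A) := ⟨_, rfl⟩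
  have hTs : ∀ B, T * sl j B = sl j B * T := fun B => by rw [hT]; exact sl_comm_onS hj A B
  have hTc : ∀ y, (∀ i ∈ s, ∀ B, y * sl i B = sl i B * y) → T * y = y * T := fun y hy => by
    rw [hT]; exact (comm_onS hy A).symm
  rw [← hT] at hTT hIn
  let S := tslot ω hω hn j
  let P : Module.End F ((Fin t → Fin k) → F) → Prop := fun y =>
    (∀ i ∈ s, ∀ B, y * sl i B = sl i B * y) ∧ In M (T * y)
  have hij : ∀ i ∈ s, i ≠ j := fun i hi h => hj (h ▸ hi)
  have hnul : ∀ y, (∀ i ∈ s, ∀ B, y * sl i B = sl i B * y) → Nul T (T * y) := fun y hy => ⟨y, rfl, hTc y hy⟩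
  have hDD : ∀ v, sl j (eM ω v v) * sl j (eM ω v v) = 0 := fun v => by
    rw [sl_mul, eM_sq ω (hω v), sl_zero]
  have hPneg : ∀ x, P x → P (-x) := by
    rintro x ⟨h1, h2⟩
    have e1 : ∀ a b : Module.End F ((Fin t → Fin k) → F), a * -b = -(a * b) := fun a b => LinearMap.comp_neg b a
    have e2 : ∀ a b : Module.End F ((Fin t → Fin k) → F), -a * b = -(a * b) := fun a b => LinearMap.neg_comp b a
    refine ⟨fun i hi B => by rw [e1, e2, h1 i hi], ?_⟩
    rw [e1]
    exact h2.neg ((hnul x h1).mul hTT (hnul x h1))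
  have hPD : ∀ x v, P x → P (S.Δ v * x * S.Δ v) := by
    rintro x v ⟨h1, h2⟩
    have hΔ : S.Δ v = sl j (eM ω v v) := Δ_eq_sl ω hω hn j v
    rw [hΔ]
    refine ⟨fun i hi B => ?_, ?_⟩
    · rw [mul_assoc, sl_comm (hij i hi).symm, ← mul_assoc, mul_assoc _ x, h1 i hi, ← mul_assoc, sl_comm (hij i hi).symm]
      simp only [mul_assoc]
    · have h3 := (dop (F := F) hp hTT (hTs _) (hDD v) (hroot j v) h2 (hnul x h1)).1
      rw [← mul_assoc, ← mul_assoc, hTs]
      rwa [← mul_assoc] at h3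
  have hPB : ∀ x v, P x → P (S.Δ v * x - x * S.Δ v) := by
    rintro x v ⟨h1, h2⟩
    have hΔ : S.Δ v = sl j (eM ω v v) := Δ_eq_sl ω hω hn j v
    rw [hΔ]
    refine ⟨fun i hi B => ?_, ?_⟩
    · rw [sub_mul, mul_sub, mul_assoc, h1 i hi, ← mul_assoc, sl_comm (hij i hi).symm, mul_assoc, mul_assoc,
        sl_comm (hij i hi).symm, ← mul_assoc x, h1 i hi]
      simp only [mul_assoc]
    · have h3 := (dop (F := F) hp hTT (hTs _) (hDD v) (hroot j v) h2 (hnul x h1)).2
      rw [mul_sub, ← mul_assoc, ← mul_assoc, hTs]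
      rwa [← mul_assoc] at h3
  rcases S.one_slot hex P hPneg hPD hPB (x := y) ⟨hy, hIn⟩ with ⟨v, hz, hv1, hv2⟩ | ⟨u, v, huv, hlin, hu0, hz, h1, h2⟩ | hco
  · left
    have hv0 : v ≠ 0 := by
      rintro rfl
      exact hz (by rw [map_zero, LinearMap.zero_comp])
    refine ⟨eM ω v v, coj j (S.c v ∘ₗ y ∘ₗ S.i v), Or.inl ⟨v, hv0, rfl⟩, eM_sq ω (hω v), coj_ne_zero hz, ?_, ?_⟩
    · intro i hi B
      rcases Finset.mem_insert.1 hi with rfl | hi
      · exact coj_comm_self ω hω hn _ B _
      · exact coj_comm_of ω hω hn (hij i hi) B (hy i hi B) v v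
    · rw [onS_insert hj, mul_assoc, sl_mul_coj ω hω hn, ← hT]
      exact hv2
  · left
    have huv' : ω v u = 0 := S.perp_comm huv
    refine ⟨eM ω u v - eM ω v u, coj j (S.c u ∘ₗ y ∘ₗ S.i v), Or.inr (Or.inl ⟨u, v, huv, hlin, hu0, rfl⟩),
      eL_sq ω hω huv huv', coj_ne_zero hz, ?_, ?_⟩
    · intro i hi B
      rcases Finset.mem_insert.1 hi with rfl | hi
      · exact coj_comm_self ω hω hn _ B _
      · exact coj_comm_of ω hω hn (hij i hi) B (hy i hi B) u v
    · have h3 : sl j (eM ω u v - eM ω v u) = sl j (eM ω u v) - sl j (eM ω v u) := by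
        have h4 : eM ω u v - eM ω v u = eM ω u v + (-1 : F) • eM ω v u := by
          rw [neg_one_smul, sub_eq_add_neg]
        rw [h4, sl_add, sl_smul]
        refine LinearMap.ext fun x => ?_
        simp only [LinearMap.add_apply, LinearMap.smul_apply, LinearMap.sub_apply, neg_smul, one_smul,
          LinearMap.neg_apply, sub_eq_add_neg]
      rw [onS_insert hj, mul_assoc, h3, sub_mul, sl_mul_coj ω hω hn, sl_mul_coj ω hω hn, ← hT]
      exact h2
  · right
    refine ⟨?_, ?_⟩
    · intro i hi B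
      rcases Finset.mem_insert.1 hi with rfl | hi
      · exact (Slot.IsOp.comm (isOp_sl ω hω hn _ B) hco).symm
      · exact hy i hi B
    · rw [onS_insert hj, sl_one, mul_one, ← hT]
      exact hIn

theorem purify [NeZero k] {p : ℕ} [CharP F p] (hp : Odd p)
    (hex : ∀ u v : Fin k → F, u ≠ 0 → v ≠ 0 → ∃ x, ω u x ≠ 0 ∧ ω v x ≠ 0)
    (hω : ∀ w, ω w w = 0) (hn : ∀ w, (∀ x, ω w x = 0) → w = 0)
    (hroot : ∀ j v, In M (sl j (eM ω v v))) (n : ℕ) : ∀ (s : Finset (Fin t)), (Finset.univ \ s).card = n →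
    ∀ (A : Fin t → Matrix (Fin k) (Fin k) F), ∀ j0 ∈ s, A j0 * A j0 = 0 → (∀ i ∈ s, Typ ω (A i)) →
    ∀ y : Module.End F ((Fin t → Fin k) → F), y ≠ 0 → (∀ i ∈ s, ∀ B, y * sl i B = sl i B * y) →
    In M (PM (onS s A) * y) →
    ∃ (A' : Fin t → Matrix (Fin k) (Fin k) F) (c : F), c ≠ 0 ∧ (∀ i ∈ s, A' i = A i) ∧ (∀ i, Typ ω (A' i)) ∧
      In M (c • PM A') := by
  classical
  induction n with
  | zero =>
    intro s hs A j0 hj0 hA hT y hy0 hy hIn
    have hs' : s = Finset.univ := by
      rw [Finset.card_eq_zero, Finset.sdiff_eq_empty_iff_subset] at hs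
      exact Finset.univ_subset_iff.1 hs
    subst hs'
    obtain ⟨c, hc⟩ := scalar_of_comm fun j B => hy j (Finset.mem_univ j) B
    have hyc : y = c • 1 := LinearMap.ext fun x => by rw [hc]; rfl
    have hon : onS Finset.univ A = A := by funext i; simp [onS]
    refine ⟨A, c, ?_, fun _ _ => rfl, fun i => hT i (Finset.mem_univ i), ?_⟩
    · rintro rfl
      exact hy0 (by rw [hyc, zero_smul])
    · rwa [hyc, mul_smul_comm, mul_one, hon] at hIn
  | succ n ih =>
    intro s hs A j0 hj0 hA hT y hy0 hy hIn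
    obtain ⟨j, hj⟩ : (Finset.univ \ s).Nonempty := by
      rw [← Finset.card_pos, hs]; omega
    have hjs : j ∉ s := (Finset.mem_sdiff.1 hj).2
    have hj0j : j0 ≠ j := fun h => hjs (h ▸ hj0)
    have hcard : (Finset.univ \ insert j s).card = n := by
      have h1 : Finset.univ \ insert j s = (Finset.univ \ s).erase j := by
        ext i
        simp only [Finset.mem_sdiff, Finset.mem_univ, true_and, Finset.mem_insert, not_or, Finset.mem_erase]
      rw [h1, Finset.card_erase_of_mem hj, hs]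
      rfl
    have hup : ∀ (X : Matrix (Fin k) (Fin k) F), ∀ i ∈ s, Function.update A j X i = A i := fun X i hi =>
      Function.update_of_ne (fun h => hjs (by rw [← h]; exact hi)) _ _
    have hgo : ∀ (X : Matrix (Fin k) (Fin k) F) (y' : Module.End F ((Fin t → Fin k) → F)), Typ ω X → y' ≠ 0 →
        (∀ i ∈ insert j s, ∀ B, y' * sl i B = sl i B * y') →
        In M (PM (onS (insert j s) (Function.update A j X)) * y') →
        ∃ (A' : Fin t → Matrix (Fin k) (Fin k) F) (c : F), c ≠ 0 ∧ (∀ i ∈ s, A' i = A i) ∧ (∀ i, Typ ω (A' i)) ∧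
          In M (c • PM A') := by
      intro X y' hX hy'0 hy' hIn'
      obtain ⟨A', c, hc, hA', hA'', hIn''⟩ := ih (insert j s) hcard (Function.update A j X) j0
        (Finset.mem_insert_of_mem hj0) (by rw [Function.update_of_ne hj0j]; exact hA)
        (by
          intro i hi
          rcases Finset.mem_insert.1 hi with rfl | hi
          · rw [Function.update_self]; exact hX
          · rw [hup X i hi]; exact hT i hi) y' hy'0 hy' hIn'
      exact ⟨A', c, hc, fun i hi => by rw [hA' i (Finset.mem_insert_of_mem hi), hup X i hi], hA'', hIn''⟩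
    rcases purify_step M hp hex hω hn hroot s j hjs A j0 hj0 hA y hy0 hy hIn with
      ⟨X, y', hX, hXX, hy'0, hy', hIn'⟩ | ⟨hy', hIn'⟩
    · exact hgo X y' hX hy'0 hy' hIn'
    · exact hgo 1 y (Or.inr (Or.inr rfl)) hy0 hy' hIn'

theorem purify' [NeZero k] {p : ℕ} [CharP F p] (hp : Odd p)
    (hex : ∀ u v : Fin k → F, u ≠ 0 → v ≠ 0 → ∃ x, ω u x ≠ 0 ∧ ω v x ≠ 0)
    (hω : ∀ w, ω w w = 0) (hn : ∀ w, (∀ x, ω w x = 0) → w = 0)
    (hroot : ∀ j v, In M (sl j (eM ω v v))) (n : ℕ) : ∀ (s : Finset (Fin t)), (Finset.univ \ s).card = n →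
    ∀ (A : Fin t → Matrix (Fin k) (Fin k) F), ∀ j0 ∈ s, A j0 * A j0 = 0 → (∀ i ∈ s, Typ ω (A i)) →
    ∀ y : Module.End F ((Fin t → Fin k) → F), (¬ ∃ c : F, y = c • 1) → (∀ i ∈ s, ∀ B, y * sl i B = sl i B * y) →
    In M (PM (onS s A) * y) →
    ∃ (A' : Fin t → Matrix (Fin k) (Fin k) F) (c : F), c ≠ 0 ∧ (∀ i ∈ s, A' i = A i) ∧ (∀ i, Typ ω (A' i)) ∧
      In M (c • PM A') ∧ ∃ i ∉ s, A' i ≠ 1 := by
  classical
  induction n with
  | zero =>
    intro s hs A j0 hj0 hA hT y hy0 hy hIn
    exfalso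
    have hs' : s = Finset.univ := by
      rw [Finset.card_eq_zero, Finset.sdiff_eq_empty_iff_subset] at hs
      exact Finset.univ_subset_iff.1 hs
    subst hs'
    obtain ⟨c, hc⟩ := scalar_of_comm fun j B => hy j (Finset.mem_univ j) B
    exact hy0 ⟨c, LinearMap.ext fun x => by rw [hc]; rfl⟩
  | succ n ih =>
    intro s hs A j0 hj0 hA hT y hy0 hy hIn
    obtain ⟨j, hj⟩ : (Finset.univ \ s).Nonempty := by
      rw [← Finset.card_pos, hs]; omega
    have hjs : j ∉ s := (Finset.mem_sdiff.1 hj).2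
    have hj0j : j0 ≠ j := fun h => hjs (h ▸ hj0)
    have hcard : (Finset.univ \ insert j s).card = n := by
      have h1 : Finset.univ \ insert j s = (Finset.univ \ s).erase j := by
        ext i
        simp only [Finset.mem_sdiff, Finset.mem_univ, true_and, Finset.mem_insert, not_or, Finset.mem_erase]
      rw [h1, Finset.card_erase_of_mem hj, hs]
      rfl
    have hup : ∀ (X : Matrix (Fin k) (Fin k) F), ∀ i ∈ s, Function.update A j X i = A i := fun X i hi =>
      Function.update_of_ne (fun h => hjs (by rw [← h]; exact hi)) _ _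
    have hy00 : y ≠ 0 := fun h => hy0 ⟨0, by rw [h, zero_smul]⟩
    rcases purify_step M hp hex hω hn hroot s j hjs A j0 hj0 hA y hy00 hy hIn with
      ⟨X, y', hX, hXX, hy'0, hy', hIn'⟩ | ⟨hy', hIn'⟩
    · obtain ⟨A', c, hc, hA', hA'', hIn''⟩ := purify M hp hex hω hn hroot n (insert j s) hcard (Function.update A j X) j0
        (Finset.mem_insert_of_mem hj0) (by rw [Function.update_of_ne hj0j]; exact hA)
        (by
          intro i hi
          rcases Finset.mem_insert.1 hi with rfl | hi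
          · rw [Function.update_self]; exact hX
          · rw [hup X i hi]; exact hT i hi) y' hy'0 hy' hIn'
      refine ⟨A', c, hc, fun i hi => by rw [hA' i (Finset.mem_insert_of_mem hi), hup X i hi], hA'', hIn'', j, hjs, ?_⟩
      rw [hA' j (Finset.mem_insert_self _ _), Function.update_self]
      exact sq_ne_one hXX
    · obtain ⟨A', c, hc, hA', hA'', hIn'', i, hi, hi1⟩ := ih (insert j s) hcard (Function.update A j 1) j0
        (Finset.mem_insert_of_mem hj0) (by rw [Function.update_of_ne hj0j]; exact hA)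
        (by
          intro i hi
          rcases Finset.mem_insert.1 hi with rfl | hi
          · rw [Function.update_self]; exact Or.inr (Or.inr rfl)
          · rw [hup 1 i hi]; exact hT i hi) y hy0 hy' hIn'
      exact ⟨A', c, hc, fun i hi => by rw [hA' i (Finset.mem_insert_of_mem hi), hup 1 i hi], hA'', hIn'', i,
        fun h => hi (Finset.mem_insert_of_mem h), hi1⟩

end Slots

end Cfsg.Agent.H874
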