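import Cfsg.Agent.H874.LevelB

/-!
# Raising the level: from bad pure elements to transvections with pure centre (odd tensor powers)
-/

set_option autoImplicit false
set_option linter.unusedSimpArgs false
set_option linter.unusedVariables false
set_option linter.unusedSectionVars false

namespace Cfsg.Agent.H874

open Matrix Cfsg.Agent.H889

variable {F : Type*} [Field F] {k t : ℕ}

theorem PM_smul (ε : Fin t → F) (A : Fin t → Matrix (Fin k) (Fin k) F) :
    PM (fun i => ε i • A i) = (∏ i, ε i) • PM A := by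
  have h : pm (fun i => ε i • A i) = (∏ i, ε i) • pm A := by
    ext a b
    rw [pm_apply, Matrix.smul_apply, pm_apply, smul_eq_mul, ← Finset.prod_mul_distrib]
    rfl
  rw [PM, PM, h, map_smul]

section Slots

variable {ω : (Fin k → F) →ₗ[F] (Fin k → F) →ₗ[F] F} {M : Subgroup (Module.End F ((Fin t → Fin k) → F))ˣ}

theorem key [NeZero k] {p : ℕ} [CharP F p] (hp : Odd p) (hω : ∀ w, ω w w = 0)
    (hroot : ∀ j v, In M (sl j (eM ω v v)))
    {A B C : Fin t → Matrix (Fin k) (Fin k) F} {c : F} {ε : Fin t → F} {Q : Finset (Fin t)}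
    {w : Fin t → (Fin k → F)} {a0 : Fin t} (ha0 : a0 ∉ Q) (hC0 : C a0 * C a0 = 0)
    (hA : In M (c • PM A)) (hB : In M (c • PM B)) (hAA : ∃ i, A i * A i = 0) (hBB : ∃ i, B i * B i = 0)
    (hABA : ∃ i, A i * B i * A i = 0) (hBAB : ∃ i, B i * A i * B i = 0)
    (hAB : ∀ i, i ∉ Q → A i * B i = C i ∧ B i * A i = ε i • C i)
    (hQ : ∀ i ∈ Q, eM ω (w i) (w i) * (A i * B i) * eM ω (w i) (w i) = C i ∧
      eM ω (w i) (w i) * (B i * A i) * eM ω (w i) (w i) = ε i • C i)
    (hε : ∏ i, ε i = -1) : In M ((2 * c * c) • PM C) := by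
  classical
  have hsq : ∀ X : Fin t → Matrix (Fin k) (Fin k) F, (∃ i, X i = 0) → PM X = 0 := fun X ⟨i, hi⟩ => PM_zero i hi
  obtain ⟨x, hx⟩ : ∃ x, x = c • PM A := ⟨_, rfl⟩
  obtain ⟨y, hy⟩ : ∃ y, y = c • PM B := ⟨_, rfl⟩
  have hxx : x * x = 0 := by rw [hx, smul_mul_smul_comm, PM_mul, hsq _ hAA, smul_zero]
  have hyy : y * y = 0 := by rw [hy, smul_mul_smul_comm, PM_mul, hsq _ hBB, smul_zero]
  have hxyx : x * y * x = 0 := by
    rw [hx, hy, smul_mul_smul_comm, smul_mul_smul_comm, PM_mul, PM_mul, hsq _ hABA, smul_zero]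
  have hyxy : y * x * y = 0 := by
    rw [hx, hy, smul_mul_smul_comm, smul_mul_smul_comm, PM_mul, PM_mul, hsq _ hBAB, smul_zero]
  rw [← hx] at hA
  rw [← hy] at hB
  have hz := hA.comm hB hxx hyy hxyx hyxy
  obtain ⟨z, hz'⟩ : ∃ z, z = x * y - y * x := ⟨_, rfl⟩
  have hzv : z = (c * c) • (PM (fun i => A i * B i) - PM (fun i => B i * A i)) := by
    rw [hz', hx, hy, smul_mul_smul_comm, smul_mul_smul_comm, PM_mul, PM_mul, smul_sub]
  rw [← hz'] at hz
  obtain ⟨T, hT⟩ : ∃ T, T = sl a0 (C a0) := ⟨_, rfl⟩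
  have hTT : T * T = 0 := by rw [hT, sl_mul, hC0, sl_zero]
  have hpull : ∀ (X : Fin t → Matrix (Fin k) (Fin k) F) (m : F), X a0 = m • C a0 →
      PM X = m • (T * PM (Function.update X a0 1)) ∧
        T * PM (Function.update X a0 1) = PM (Function.update X a0 1) * T := by
    intro X m hm
    constructor
    · rw [hT, ← smul_mul_assoc, ← sl_smul, ← hm, sl, PM_mul]
      congr 1
      funext i
      by_cases hi : i = a0
      · subst hi; rw [Function.update_self, Function.update_self, mul_one]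
      · rw [Function.update_of_ne hi, Function.update_of_ne hi, one_mul]
    · rw [hT, sl, PM_mul, PM_mul]
      congr 1
      funext i
      by_cases hi : i = a0
      · subst hi; rw [Function.update_self, Function.update_self, mul_one, one_mul]
      · rw [Function.update_of_ne hi, Function.update_of_ne hi, one_mul, mul_one]
  have hN : Nul T z := by
    obtain ⟨e1, e2⟩ := hpull (fun i => A i * B i) 1 (by rw [one_smul]; exact (hAB a0 ha0).1)
    obtain ⟨e3, e4⟩ := hpull (fun i => B i * A i) (ε a0) (hAB a0 ha0).2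
    rw [hzv, e1, e3]
    refine Nul.smul _ ?_
    rw [sub_eq_add_neg]
    exact (Nul.smul 1 ⟨_, rfl, e2⟩).add ((Nul.smul (ε a0) ⟨_, rfl, e4⟩).neg)
  have hiter : ∀ r ⊆ Q, In M (PM (onS r fun i => eM ω (w i) (w i)) * z * PM (onS r fun i => eM ω (w i) (w i))) ∧
      Nul T (PM (onS r fun i => eM ω (w i) (w i)) * z * PM (onS r fun i => eM ω (w i) (w i))) := by
    intro r
    induction r using Finset.induction_on with
    | empty =>
      intro _
      have : onS (∅ : Finset (Fin t)) (fun i => eM ω (w i) (w i)) = fun _ => 1 := by funext i; simp [onS]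
      rw [this, PM_one, one_mul, mul_one]
      exact ⟨hz, hN⟩
    | insert j r hj ih =>
      intro hr
      obtain ⟨ih1, ih2⟩ := ih fun i hi => hr (Finset.mem_insert_of_mem hi)
      have hja : j ≠ a0 := by
        rintro rfl
        exact ha0 (hr (Finset.mem_insert_self _ _))
      have h1 := onS_insert hj (fun i => eM ω (w i) (w i)) (eM ω (w j) (w j))
      rw [show Function.update (fun i => eM ω (w i) (w i)) j (eM ω (w j) (w j)) = fun i => eM ω (w i) (w i) from
        Function.update_eq_self j (fun i => eM ω (w i) (w i))] at h1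
      have hTD : T * sl j (eM ω (w j) (w j)) = sl j (eM ω (w j) (w j)) * T := by rw [hT]; exact sl_comm hja.symm _ _
      have h3 := dop (F := F) hp hTT hTD (by rw [sl_mul, eM_sq ω (hω _), sl_zero]) (hroot j (w j)) ih1 ih2
      have h4 : PM (onS (insert j r) fun i => eM ω (w i) (w i)) * z * PM (onS (insert j r) fun i => eM ω (w i) (w i))
          = sl j (eM ω (w j) (w j)) *
            (PM (onS r fun i => eM ω (w i) (w i)) * z * PM (onS r fun i => eM ω (w i) (w i))) *
            sl j (eM ω (w j) (w j)) := by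
        rw [h1]
        nth_rewrite 1 [sl_comm_onS hj]
        simp only [mul_assoc]
      rw [h4]
      exact ⟨h3.1, ih2.mid hTD hTD⟩
  have hfin := (hiter Q (Finset.Subset.refl _)).1
  have hval : PM (onS Q fun i => eM ω (w i) (w i)) * z * PM (onS Q fun i => eM ω (w i) (w i)) = (2 * c * c) • PM C := by
    have e1 : PM (onS Q fun i => eM ω (w i) (w i)) * PM (fun i => A i * B i) * PM (onS Q fun i => eM ω (w i) (w i))
        = PM C := by
      rw [PM_mul, PM_mul]
      congr 1
      funext i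
      by_cases hi : i ∈ Q
      · simp only [onS, if_pos hi]; exact (hQ i hi).1
      · simp only [onS, if_neg hi, one_mul, mul_one]; exact (hAB i hi).1
    have e2 : PM (onS Q fun i => eM ω (w i) (w i)) * PM (fun i => B i * A i) * PM (onS Q fun i => eM ω (w i) (w i))
        = (-1 : F) • PM C := by
      rw [← hε, ← PM_smul, PM_mul, PM_mul]
      congr 1
      funext i
      by_cases hi : i ∈ Q
      · simp only [onS, if_pos hi]; exact (hQ i hi).2
      · simp only [onS, if_neg hi, one_mul, mul_one]; exact (hAB i hi).2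
    rw [hzv, mul_smul_comm, smul_mul_assoc, mul_sub, sub_mul, e1, e2]
    refine LinearMap.ext fun x => ?_
    simp only [LinearMap.smul_apply, LinearMap.sub_apply]
    module
  rw [hval] at hfin
  exact hfin

/-- `c_v` on `I`, `1` elsewhere. -/
def dI (ω : (Fin k → F) →ₗ[F] (Fin k → F) →ₗ[F] F) (I : Finset (Fin t)) (u : Fin t → (Fin k → F)) :
    Fin t → Matrix (Fin k) (Fin k) F := fun i => if i ∈ I then eM ω (u i) (u i) else 1

/-- The symmetries of `M` used to raise the level. -/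
structure LevelHyp (ω : (Fin k → F) →ₗ[F] (Fin k → F) →ₗ[F] F)
    (M : Subgroup (Module.End F ((Fin t → Fin k) → F))ˣ) : Prop where
  pure_mem : ∀ g g' : Fin t → Matrix (Fin k) (Fin k) F, (∀ i, g i * g' i = 1) → (∀ i, g' i * g i = 1) →
    (∀ i x y, ω (g i *ᵥ x) (g i *ᵥ y) = ω x y) → ∃ u ∈ M, (u : Module.End F ((Fin t → Fin k) → F)) = PM g ∧
      ((u⁻¹ : (Module.End F ((Fin t → Fin k) → F))ˣ) : Module.End F ((Fin t → Fin k) → F)) = PM g'
  perm_mem : ∀ σ : Equiv.Perm (Fin t), ∃ u ∈ M, ∀ A : Fin t → Matrix (Fin k) (Fin k) F,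
    (u : Module.End F ((Fin t → Fin k) → F)) * PM A = PM (fun i => A (σ i)) * u

theorem In.conj_pure (hM : LevelHyp ω M) {g g' : Fin t → Matrix (Fin k) (Fin k) F} (h1 : ∀ i, g i * g' i = 1)
    (h2 : ∀ i, g' i * g i = 1) (h3 : ∀ i x y, ω (g i *ᵥ x) (g i *ᵥ y) = ω x y) {A : Fin t → Matrix (Fin k) (Fin k) F}
    {c : F} (hA : In M (c • PM A)) : In M (c • PM fun i => g i * A i * g' i) := by
  obtain ⟨u, hu, hu1, hu2⟩ := hM.pure_mem g g' h1 h2 h3
  have h4 := hA.conj hu
  rwa [hu1, hu2, mul_smul_comm, smul_mul_assoc, PM_mul, PM_mul] at h4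

theorem In.conj_perm (hM : LevelHyp ω M) (σ : Equiv.Perm (Fin t)) {A : Fin t → Matrix (Fin k) (Fin k) F}
    {c : F} (hA : In M (c • PM A)) : In M (c • PM fun i => A (σ i)) := by
  obtain ⟨u, hu, hu1⟩ := hM.perm_mem σ
  have h4 := hA.conj hu
  rwa [mul_smul_comm, smul_mul_assoc, hu1, mul_assoc, Units.mul_inv, mul_one] at h4

/-- The isometry `1 + l c_x`. -/
theorem isom_tv (hω : ∀ w, ω w w = 0) (x : Fin k → F) (l : F) :
    (1 + l • eM ω x x) * (1 - l • eM ω x x) = 1 ∧ (1 - l • eM ω x x) * (1 + l • eM ω x x) = 1 ∧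
    ∀ a b, ω ((1 + l • eM ω x x) *ᵥ a) ((1 + l • eM ω x x) *ᵥ b) = ω a b := by
  have h := eM_sq ω (hω x)
  have skew : ∀ a b, ω a b = - ω b a := by
    intro x y
    have h := hω (x + y)
    simp only [map_add, LinearMap.add_apply, hω, zero_add, add_zero] at h
    exact eq_neg_of_add_eq_zero_left (by rw [add_comm]; exact h)
  refine ⟨?_, ?_, fun a b => ?_⟩
  · rw [add_mul, mul_sub, mul_sub, smul_mul_smul_comm, h]; simp
  · rw [sub_mul, mul_add, mul_add, smul_mul_smul_comm, h]; simp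
  · simp only [Matrix.add_mulVec, Matrix.one_mulVec, Matrix.smul_mulVec, eM_mulVec, map_add, map_smul,
      LinearMap.add_apply, LinearMap.smul_apply, hω, smul_eq_mul, skew a x]
    ring

theorem exists_isom (hω : ∀ w, ω w w = 0)
    (hex : ∀ u v : Fin k → F, u ≠ 0 → v ≠ 0 → ∃ x, ω u x ≠ 0 ∧ ω v x ≠ 0) {u u' : Fin k → F} (hu : u ≠ 0)
    (hu' : u' ≠ 0) : ∃ g g' : Matrix (Fin k) (Fin k) F, g * g' = 1 ∧ g' * g = 1 ∧
      (∀ x y, ω (g *ᵥ x) (g *ᵥ y) = ω x y) ∧ g *ᵥ u = u' := by
  have skew : ∀ a b, ω a b = - ω b a := by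
    intro x y
    have h := hω (x + y)
    simp only [map_add, LinearMap.add_apply, hω, zero_add, add_zero] at h
    exact eq_neg_of_add_eq_zero_left (by rw [add_comm]; exact h)
  have key : ∀ u u' : Fin k → F, ω u u' ≠ 0 → ∃ g g' : Matrix (Fin k) (Fin k) F, g * g' = 1 ∧ g' * g = 1 ∧
      (∀ x y, ω (g *ᵥ x) (g *ᵥ y) = ω x y) ∧ g *ᵥ u = u' := by
    intro u u' h
    obtain ⟨h1, h2, h3⟩ := isom_tv hω (u' - u) (-(ω u u')⁻¹)
    refine ⟨_, _, h1, h2, h3, ?_⟩
    rw [Matrix.add_mulVec, Matrix.one_mulVec, Matrix.smul_mulVec, eM_mulVec, map_sub, LinearMap.sub_apply, hω, sub_zero,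
      skew u' u, smul_smul, neg_mul_neg, inv_mul_cancel₀ h, one_smul, add_sub_cancel]
  obtain ⟨x, hx1, hx2⟩ := hex u u' hu hu'
  obtain ⟨g, g', h1, h2, h3, h4⟩ := key u x hx1
  obtain ⟨g1, g1', h1', h2', h3', h4'⟩ := key x u' (by rw [skew]; exact neg_ne_zero.2 hx2)
  refine ⟨g1 * g, g' * g1', ?_, ?_, fun x y => ?_, ?_⟩
  · rw [mul_assoc, ← mul_assoc g, h1, one_mul, h1']
  · rw [mul_assoc, ← mul_assoc g1', h2', one_mul, h2]
  · rw [← Matrix.mulVec_mulVec, ← Matrix.mulVec_mulVec, h3', h3]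
  · rw [← Matrix.mulVec_mulVec, h4, h4']

theorem conj_eM {g g' : Matrix (Fin k) (Fin k) F} (h1 : g * g' = 1) (h3 : ∀ x y, ω (g *ᵥ x) (g *ᵥ y) = ω x y)
    (a b : Fin k → F) : g * eM ω a b * g' = eM ω (g *ᵥ a) (g *ᵥ b) := by
  refine mat_ext fun x => ?_
  rw [← Matrix.mulVec_mulVec, ← Matrix.mulVec_mulVec, eM_mulVec, eM_mulVec, Matrix.mulVec_smul]
  congr 1
  rw [← h3 b (g' *ᵥ x), Matrix.mulVec_mulVec, h1, Matrix.one_mulVec]

/-- `1 + c (⊗_{i ∈ I} c_{u i}) ∈ M` for all nonzero `u i`. -/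
def HasD (ω : (Fin k → F) →ₗ[F] (Fin k → F) →ₗ[F] F) (M : Subgroup (Module.End F ((Fin t → Fin k) → F))ˣ)
    (c : F) (I : Finset (Fin t)) : Prop :=
  ∀ u : Fin t → (Fin k → F), (∀ i, u i ≠ 0) → In M (c • PM (dI ω I u))

theorem hasD_of (hM : LevelHyp ω M) (hω : ∀ w, ω w w = 0)
    (hex : ∀ u v : Fin k → F, u ≠ 0 → v ≠ 0 → ∃ x, ω u x ≠ 0 ∧ ω v x ≠ 0) {c : F} {I : Finset (Fin t)}
    {u : Fin t → (Fin k → F)} (hu : ∀ i ∈ I, u i ≠ 0) (h : In M (c • PM (dI ω I u))) : HasD ω M c I := by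
  intro u' hu'
  have h1 : ∀ i, ∃ gg : Matrix (Fin k) (Fin k) F × Matrix (Fin k) (Fin k) F, gg.1 * gg.2 = 1 ∧ gg.2 * gg.1 = 1 ∧
      (∀ x y, ω (gg.1 *ᵥ x) (gg.1 *ᵥ y) = ω x y) ∧ (i ∈ I → gg.1 *ᵥ u i = u' i) := by
    intro i
    by_cases hi : i ∈ I
    · obtain ⟨g, g', h1, h2, h3, h4⟩ := exists_isom hω hex (hu i hi) (hu' i)
      exact ⟨(g, g'), h1, h2, h3, fun _ => h4⟩
    · exact ⟨(1, 1), mul_one _, mul_one _, fun x y => by rw [Matrix.one_mulVec, Matrix.one_mulVec], fun h => absurd h hi⟩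
  choose gg h1 h2 h3 h4 using h1
  have h5 := h.conj_pure hM h1 h2 h3
  have h6 : (fun i => (gg i).1 * dI ω I u i * (gg i).2) = dI ω I u' := by
    funext i
    by_cases hi : i ∈ I
    · simp only [dI, if_pos hi]
      rw [conj_eM (h1 i) (h3 i), h4 i hi]
    · simp only [dI, if_neg hi, mul_one, h1]
  rwa [h6] at h5

theorem hasD_perm (hM : LevelHyp ω M) {c : F} {I I' : Finset (Fin t)} (hc : I.card = I'.card) (h : HasD ω M c I) :
    HasD ω M c I' := by
  intro u' hu'
  have e : {i // i ∈ I'} ≃ {i // i ∈ I} := Fintype.equivOfCardEq (by simp [hc])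
  let σ : Equiv.Perm (Fin t) := e.extendSubtype
  have h1 := (h (fun i => u' (σ.symm i)) fun i => hu' _).conj_perm hM σ
  have h2 : (fun i => dI ω I (fun i => u' (σ.symm i)) (σ i)) = dI ω I' u' := by
    funext i
    have h3 : σ i ∈ I ↔ i ∈ I' := by
      constructor
      · intro hi
        by_contra hi'
        exact (e.extendSubtype_not_mem i hi') hi
      · intro hi
        exact e.extendSubtype_mem i hi
    simp only [dI, h3, Equiv.symm_apply_apply]
  rwa [h2] at h1

/-- Raising the level by two. -/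
theorem hasD_step [NeZero k] {p : ℕ} [CharP F p] (hp : Odd p) (hM : LevelHyp ω M) (hω : ∀ w, ω w w = 0)
    (hn : ∀ w, (∀ x, ω w x = 0) → w = 0) (hroot : ∀ j v, In M (sl j (eM ω v v))) {c : F} {n : ℕ}
    (hodd : Odd n) (h3 : 3 ≤ n) (h : ∀ I : Finset (Fin t), I.card = n → HasD ω M c I) {I' : Finset (Fin t)}
    (hI' : I'.card = n + 2) : HasD ω M (2 * c * c) I' := by
  classical
  have skew : ∀ a b, ω a b = - ω b a := by
    intro x y
    have h := hω (x + y)
    simp only [map_add, LinearMap.add_apply, hω, zero_add, add_zero] at h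
    exact eq_neg_of_add_eq_zero_left (by rw [add_comm]; exact h)
  intro u hu
  -- four distinct members of `I'`
  obtain ⟨J, hJ, hJ4⟩ := Finset.exists_subset_card_eq (show 4 ≤ I'.card by omega)
  obtain ⟨J1, hJ1, hJ12⟩ := Finset.exists_subset_card_eq (show 2 ≤ J.card by omega)
  have hJ2 : (J \ J1).card = 2 := by rw [Finset.card_sdiff_of_subset hJ1]; omega
  have hQc : (I' \ J).card = n - 2 := by rw [Finset.card_sdiff_of_subset hJ]; omega
  -- the vectors for the other slots
  have hf : ∀ i, ∃ f, ω (u i) f = 1 := by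
    intro i
    by_contra hcon
    push Not at hcon
    refine hu i (hn _ fun x => ?_)
    by_contra hx
    refine hcon ((ω (u i) x)⁻¹ • x) ?_
    rw [map_smul, smul_eq_mul, inv_mul_cancel₀ hx]
  choose f hf using hf
  have hf0 : ∀ i, f i ≠ 0 := by
    intro i h0
    have := hf i
    rw [h0, map_zero] at this
    exact zero_ne_one this
  have hf0' : ∀ i, -u i - f i ≠ 0 := by
    intro i h0
    have h1 : ω (-u i - f i) (f i) = 0 := by rw [h0, map_zero, LinearMap.zero_apply]
    rw [map_sub, map_neg, LinearMap.sub_apply, LinearMap.neg_apply, hf, hω, sub_zero] at h1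
    exact one_ne_zero (neg_eq_zero.1 h1)
  have hx : In M (c • PM (dI ω ((I' \ J) ∪ J1) fun i => if i ∈ I' \ J then f i else u i)) := by
    refine h _ ?_ _ fun i => ?_
    · rw [Finset.card_union_of_disjoint, hQc, hJ12]
      · omega
      · refine Finset.disjoint_left.2 fun i hi hi' => ?_
        exact (Finset.mem_sdiff.1 hi).2 (hJ1 hi')
    · split_ifs
      · exact hf0 i
      · exact hu i
  have hy : In M (c • PM (dI ω ((I' \ J) ∪ (J \ J1)) fun i => if i ∈ I' \ J then -u i - f i else u i)) := by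
    refine h _ ?_ _ fun i => ?_
    · rw [Finset.card_union_of_disjoint, hQc, hJ2]
      · omega
      · refine Finset.disjoint_left.2 fun i hi hi' => ?_
        exact (Finset.mem_sdiff.1 hi).2 (Finset.mem_sdiff.1 hi').1
    · split_ifs
      · exact hf0' i
      · exact hu i
  obtain ⟨a, ha⟩ : J1.Nonempty := by rw [← Finset.card_pos]; omega
  obtain ⟨b, hb⟩ : (J \ J1).Nonempty := by rw [← Finset.card_pos]; omega
  have haJ : a ∈ J := hJ1 ha
  have hbJ : b ∈ J := (Finset.mem_sdiff.1 hb).1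
  have hb1 : b ∉ J1 := (Finset.mem_sdiff.1 hb).2
  have haI : a ∈ I' := hJ haJ
  have hbI : b ∈ I' := hJ hbJ
  refine key hp hω hroot (A := dI ω ((I' \ J) ∪ J1) fun i => if i ∈ I' \ J then f i else u i)
    (B := dI ω ((I' \ J) ∪ (J \ J1)) fun i => if i ∈ I' \ J then -u i - f i else u i)
    (ε := fun i => if i ∈ I' \ J then -1 else 1) (Q := I' \ J) (w := u) (a0 := a) ?_ ?_ hx hy ?_ ?_ ?_ ?_ ?_ ?_ ?_
  · intro h; exact (Finset.mem_sdiff.1 h).2 haJ
  · simp only [dI, if_pos haI]
    exact eM_sq ω (hω _)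
  · refine ⟨a, ?_⟩
    have h1 : a ∈ (I' \ J) ∪ J1 := Finset.mem_union_right _ ha
    simp only [dI, if_pos h1]
    exact eM_sq ω (hω _)
  · refine ⟨b, ?_⟩
    have h1 : b ∈ (I' \ J) ∪ (J \ J1) := Finset.mem_union_right _ hb
    simp only [dI, if_pos h1]
    exact eM_sq ω (hω _)
  · refine ⟨a, ?_⟩
    have h1 : a ∈ (I' \ J) ∪ J1 := Finset.mem_union_right _ ha
    have h2 : a ∉ (I' \ J) ∪ (J \ J1) := by
      simp only [Finset.mem_union, Finset.mem_sdiff, haJ, ha, not_true, and_false, or_false, not_false_iff]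
    simp only [dI, if_pos h1, if_neg h2, mul_one]
    exact eM_sq ω (hω _)
  · refine ⟨b, ?_⟩
    have h1 : b ∈ (I' \ J) ∪ (J \ J1) := Finset.mem_union_right _ hb
    have h2 : b ∉ (I' \ J) ∪ J1 := by
      simp only [Finset.mem_union, Finset.mem_sdiff, hbJ, hb1, not_true, and_false, or_false, not_false_iff]
    simp only [dI, if_pos h1, if_neg h2, mul_one]
    exact eM_sq ω (hω _)
  · intro i hi
    simp only [if_neg hi, one_smul]
    by_cases hiI : i ∈ I'
    · have hiJ : i ∈ J := by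
        by_contra h
        exact hi (Finset.mem_sdiff.2 ⟨hiI, h⟩)
      by_cases hi1 : i ∈ J1
      · have h1 : i ∈ (I' \ J) ∪ J1 := Finset.mem_union_right _ hi1
        have h2 : i ∉ (I' \ J) ∪ (J \ J1) := by
          simp only [Finset.mem_union, Finset.mem_sdiff, hiJ, hi1, not_true, and_false, or_false, not_false_iff]
        simp only [dI, if_pos h1, if_neg h2, if_pos hiI, if_neg hi, mul_one, one_mul, and_self]
      · have h1 : i ∈ (I' \ J) ∪ (J \ J1) := Finset.mem_union_right _ (Finset.mem_sdiff.2 ⟨hiJ, hi1⟩)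
        have h2 : i ∉ (I' \ J) ∪ J1 := by
          simp only [Finset.mem_union, Finset.mem_sdiff, hiJ, hi1, not_true, and_false, or_false, not_false_iff]
        simp only [dI, if_pos h1, if_neg h2, if_pos hiI, if_neg hi, mul_one, one_mul, and_self]
    · have h1 : i ∉ (I' \ J) ∪ (J \ J1) := by
        intro h
        rcases Finset.mem_union.1 h with h | h
        · exact hi h
        · exact hiI (hJ (Finset.mem_sdiff.1 h).1)
      have h2 : i ∉ (I' \ J) ∪ J1 := by
        intro h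
        rcases Finset.mem_union.1 h with h | h
        · exact hi h
        · exact hiI (hJ (hJ1 h))
      simp only [dI, if_neg h1, if_neg h2, if_neg hiI, mul_one, and_self]
  · intro i hi
    have hiI : i ∈ I' := (Finset.mem_sdiff.1 hi).1
    have h1 : i ∈ (I' \ J) ∪ (J \ J1) := Finset.mem_union_left _ hi
    have h2 : i ∈ (I' \ J) ∪ J1 := Finset.mem_union_left _ hi
    have hfu : ω (f i) (u i) = -1 := by rw [skew, hf]
    simp only [dI, if_pos h1, if_pos h2, if_pos hiI, if_pos hi]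
    simp only [eM_mul, smul_mul_assoc, mul_smul_comm, map_sub, map_neg, LinearMap.sub_apply, LinearMap.neg_apply, hf,
      hfu, hω, smul_smul]
    constructor
    · norm_num
    · norm_num
  · rw [Finset.prod_ite, Finset.prod_const, Finset.prod_const_one, mul_one]
    have h1 : (Finset.univ.filter fun i => i ∈ I' \ J) = I' \ J := by
      ext i
      simp only [Finset.mem_filter, Finset.mem_univ, true_and]
    rw [h1, hQc]
    exact Odd.neg_one_pow (by obtain ⟨m, hm⟩ := hodd; exact ⟨m - 1, by omega⟩)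

end Slots

end Cfsg.Agent.H874
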