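import Cfsg.Agent.H874.LevelC

/-!
# Raising the level: bivectors, and the final level
-/

set_option autoImplicit false
set_option linter.unusedSimpArgs false
set_option linter.unusedVariables false
set_option linter.unusedSectionVars false

namespace Cfsg.Agent.H874

open Matrix Cfsg.Agent.H889

variable {F : Type*} [Field F] {k t : ℕ}

section Slots

variable {ω : (Fin k → F) →ₗ[F] (Fin k → F) →ₗ[F] F} {M : Subgroup (Module.End F ((Fin t → Fin k) → F))ˣ}

theorem skew_of_alt (hω : ∀ w, ω w w = 0) (a b : Fin k → F) : ω a b = - ω b a := by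
  have h := hω (a + b)
  simp only [map_add, LinearMap.add_apply, hω, zero_add, add_zero] at h
  exact eq_neg_of_add_eq_zero_left (by rw [add_comm]; exact h)

theorem exists_one (hn : ∀ w, (∀ x, ω w x = 0) → w = 0) {u : Fin k → F} (hu : u ≠ 0) : ∃ f, ω u f = 1 := by
  by_contra hcon
  push Not at hcon
  refine hu (hn _ fun x => ?_)
  by_contra hx
  refine hcon ((ω u x)⁻¹ • x) ?_
  rw [map_smul, smul_eq_mul, inv_mul_cancel₀ hx]

/-- A root slot. -/
theorem slotI (hω : ∀ w, ω w w = 0) (hn : ∀ w, (∀ x, ω w x = 0) → w = 0)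
    (hex : ∀ u v : Fin k → F, u ≠ 0 → v ≠ 0 → ∃ x, ω u x ≠ 0 ∧ ω v x ≠ 0) {p : Fin k → F} (hp : p ≠ 0) :
    ∃ (g g' : Matrix (Fin k) (Fin k) F) (w p' : Fin k → F), g * g' = 1 ∧ g' * g = 1 ∧
      (∀ x y, ω (g *ᵥ x) (g *ᵥ y) = ω x y) ∧ w ≠ 0 ∧ p' ≠ 0 ∧ g * eM ω p p * g' = eM ω p' p' ∧
      eM ω w w * (eM ω p p * eM ω p' p') * eM ω w w = eM ω w w ∧
      eM ω w w * (eM ω p' p' * eM ω p p) * eM ω w w = (-1 : F) • eM ω w w := by
  obtain ⟨f, hf⟩ := exists_one hn hp
  have hfp : ω f p = -1 := by rw [skew_of_alt hω, hf]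
  have hf0 : f ≠ 0 := by
    rintro rfl
    rw [map_zero] at hf
    exact zero_ne_one hf
  have hp'0 : f - p ≠ 0 := by
    intro h
    have h1 : ω (f - p) p = 0 := by rw [h, map_zero, LinearMap.zero_apply]
    rw [map_sub, LinearMap.sub_apply, hω, hfp, sub_zero] at h1
    exact one_ne_zero (neg_eq_zero.1 h1)
  obtain ⟨g, g', h1, h2, h3, h4⟩ := exists_isom hω hex hp hp'0
  refine ⟨g, g', -f, f - p, h1, h2, h3, neg_ne_zero.2 hf0, hp'0, ?_, ?_, ?_⟩
  · rw [conj_eM h1 h3, h4]
  · simp only [eM_mul, smul_mul_assoc, mul_smul_comm, map_sub, map_neg, LinearMap.sub_apply, LinearMap.neg_apply, hf,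
      hfp, hω, smul_smul]
    norm_num
  · simp only [eM_mul, smul_mul_assoc, mul_smul_comm, map_sub, map_neg, LinearMap.sub_apply, LinearMap.neg_apply, hf,
      hfp, hω, smul_smul]
    norm_num

/-- A bivector slot. -/
theorem slotJ (hω : ∀ w, ω w w = 0) (hn : ∀ w, (∀ x, ω w x = 0) → w = 0) {u v : Fin k → F} (huv : ω u v = 0)
    (hlin : ∀ a : F, v ≠ a • u) (hu : u ≠ 0) :
    ∃ (g g' B : Matrix (Fin k) (Fin k) F), g * g' = 1 ∧ g' * g = 1 ∧
      (∀ x y, ω (g *ᵥ x) (g *ᵥ y) = ω x y) ∧ g * (eM ω u v - eM ω v u) * g' = B ∧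
      (eM ω u v - eM ω v u) * B = eM ω v v ∧ B * (eM ω u v - eM ω v u) = (-1 : F) • eM ω v v ∧
      (eM ω u v - eM ω v u) * (eM ω u v - eM ω v u) = 0 ∧ B * B = 0 ∧
      (eM ω u v - eM ω v u) * B * (eM ω u v - eM ω v u) = 0 ∧ B * (eM ω u v - eM ω v u) * B = 0 := by
  have hvu : ω v u = 0 := by rw [skew_of_alt hω, huv, neg_zero]
  have hv : v ≠ 0 := by
    rintro rfl
    exact hlin 0 (by rw [zero_smul])
  have hlin' : ∀ a : F, u ≠ a • v := by
    intro a h
    have ha : a ≠ 0 := by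
      rintro rfl
      exact hu (by rw [h, zero_smul])
    exact hlin a⁻¹ (by rw [h, smul_smul, inv_mul_cancel₀ ha, one_smul])
  obtain ⟨b', hb1, hb2⟩ : ∃ b', ω v b' = 0 ∧ ω b' u = 1 := by
    -- as in `Slot.exists_perp_pair`
    obtain ⟨z, hz⟩ := exists_one hn hv
    by_contra hcon
    push Not at hcon
    have h0 : ∀ x, ω v x = 0 → ω x u = 0 := by
      intro x hx
      by_contra hxu
      refine hcon ((ω x u)⁻¹ • x) ?_ ?_
      · rw [map_smul, hx, smul_zero]
      · rw [map_smul, LinearMap.smul_apply, smul_eq_mul, inv_mul_cancel₀ hxu]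
    refine hlin' (- ω z u) ?_
    rw [← sub_eq_zero]
    refine hn _ fun x => ?_
    have h1 := h0 (x - ω v x • z) (by rw [map_sub, map_smul, hz, smul_eq_mul, mul_one, sub_self])
    rw [map_sub, LinearMap.sub_apply, map_smul, LinearMap.smul_apply, smul_eq_mul] at h1
    rw [map_sub, LinearMap.sub_apply, map_smul, LinearMap.smul_apply, smul_eq_mul, skew_of_alt hω u x]
    linear_combination -h1
  have hf1 : ω u (-b') = 1 := by rw [map_neg, skew_of_alt hω, hb2, neg_neg]
  have hf2 : ω v (-b') = 0 := by rw [map_neg, hb1, neg_zero]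
  generalize -b' = f at hf1 hf2
  have hf1' : ω f u = -1 := by rw [skew_of_alt hω, hf1]
  have hf2' : ω f v = 0 := by rw [skew_of_alt hω, hf2, neg_zero]
  obtain ⟨h1, h2, h3⟩ := isom_tv hω f 1
  have gu : (1 + (1 : F) • eM ω f f) *ᵥ u = u - f := by
    rw [Matrix.add_mulVec, Matrix.one_mulVec, Matrix.smul_mulVec, eM_mulVec, hf1', one_smul, neg_smul, one_smul,
      sub_eq_add_neg]
  have gv : (1 + (1 : F) • eM ω f f) *ᵥ v = v := by
    rw [Matrix.add_mulVec, Matrix.one_mulVec, Matrix.smul_mulVec, eM_mulVec, hf2', zero_smul, smul_zero, add_zero]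
  refine ⟨_, _, eM ω (u - f) v - eM ω v (u - f), h1, h2, h3, ?_, ?_, ?_, ?_, ?_, ?_, ?_⟩
  · rw [mul_sub _ (eM ω u v), sub_mul, conj_eM h1 h3, conj_eM h1 h3, gu, gv]
  all_goals
    simp only [mul_sub, sub_mul, eM_mul, smul_mul_assoc, mul_smul_comm, map_sub, LinearMap.sub_apply, huv, hvu, hf1,
      hf2, hf1', hf2', hω, zero_smul, smul_zero, sub_zero, zero_sub, zero_mul, mul_zero, neg_smul, one_smul, neg_neg,
      neg_zero, sub_self, sub_neg_eq_add, zero_add, neg_mul, mul_neg]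

/-- Bad pure elements with a bivector slot. -/
theorem hasD_of_bivector [NeZero k] {p : ℕ} [CharP F p] (hp : Odd p) (hM : LevelHyp ω M) (hω : ∀ w, ω w w = 0)
    (hn : ∀ w, (∀ x, ω w x = 0) → w = 0)
    (hex : ∀ u v : Fin k → F, u ≠ 0 → v ≠ 0 → ∃ x, ω u x ≠ 0 ∧ ω v x ≠ 0)
    (hroot : ∀ j v, In M (sl j (eM ω v v))) (ht : Odd t) {A : Fin t → Matrix (Fin k) (Fin k) F} {c : F} (hc : c ≠ 0)
    (hA : In M (c • PM A)) {I J : Finset (Fin t)} (hIJ : Disjoint I J)
    (hI : ∀ i ∈ I, ∃ v, v ≠ 0 ∧ A i = eM ω v v)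
    (hJ : ∀ i ∈ J, ∃ u v, ω u v = 0 ∧ (∀ a : F, v ≠ a • u) ∧ u ≠ 0 ∧ A i = eM ω u v - eM ω v u)
    (hK : ∀ i, i ∉ I → i ∉ J → A i = 1) (hIodd : Odd I.card) (hJ0 : J.Nonempty) :
    ∃ (c' : F) (n : ℕ), c' ≠ 0 ∧ Odd n ∧ 3 ≤ n ∧ n ≤ t ∧ ∀ I' : Finset (Fin t), I'.card = n → HasD ω M c' I' := by
  classical
  have h2 : (2 : F) ≠ 0 := by
    intro h
    have h3 : ((2 : ℕ) : F) = 0 := by exact_mod_cast h
    rw [CharP.cast_eq_zero_iff F p] at h3
    obtain ⟨m, hm⟩ := hp
    have h4 := Nat.le_of_dvd (by norm_num) h3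
    have h5 : p ≠ 1 := CharP.char_ne_one F p
    omega
  have hc' : 2 * c * c ≠ 0 := mul_ne_zero (mul_ne_zero h2 hc) hc
  -- the data in each slot
  have hdata : ∀ i, ∃ (g g' : Matrix (Fin k) (Fin k) F) (w p' : Fin k → F), g * g' = 1 ∧ g' * g = 1 ∧
      (∀ x y, ω (g *ᵥ x) (g *ᵥ y) = ω x y) ∧
      (i ∈ I → w ≠ 0 ∧ p' ≠ 0 ∧ g * A i * g' = eM ω p' p' ∧
        eM ω w w * (A i * (g * A i * g')) * eM ω w w = eM ω w w ∧
        eM ω w w * ((g * A i * g') * A i) * eM ω w w = (-1 : F) • eM ω w w) ∧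
      (i ∈ J → w ≠ 0 ∧ A i * (g * A i * g') = eM ω w w ∧ (g * A i * g') * A i = (-1 : F) • eM ω w w ∧
        A i * A i = 0 ∧ (g * A i * g') * (g * A i * g') = 0 ∧ A i * (g * A i * g') * A i = 0 ∧
        (g * A i * g') * A i * (g * A i * g') = 0) ∧
      (i ∉ I → i ∉ J → g = 1 ∧ g' = 1) := by
    intro i
    by_cases hi : i ∈ I
    · obtain ⟨v, hv, hAv⟩ := hI i hi
      obtain ⟨g, g', w, p', h1, h2, h3, h4, h5, h6, h7, h8⟩ := slotI hω hn hex hv
      refine ⟨g, g', w, p', h1, h2, h3, fun _ => ?_, fun hiJ => absurd hiJ (Finset.disjoint_left.1 hIJ hi),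
        fun h => absurd hi h⟩
      rw [hAv, h6]
      exact ⟨h4, h5, rfl, h7, h8⟩
    by_cases hi' : i ∈ J
    · obtain ⟨u, v, huv, hlin, hu, hAv⟩ := hJ i hi'
      obtain ⟨g, g', B, h1, h2, h3, h4, h5, h6, h7, h8, h9, h10⟩ := slotJ hω hn huv hlin hu
      refine ⟨g, g', v, v, h1, h2, h3, fun h => absurd h hi, fun _ => ?_, fun _ h => absurd hi' h⟩
      rw [hAv, h4]
      exact ⟨fun h => hlin 0 (by rw [h, zero_smul]), h5, h6, h7, h8, h9, h10⟩
    · exact ⟨1, 1, 0, 0, mul_one _, mul_one _, fun x y => by rw [Matrix.one_mulVec, Matrix.one_mulVec],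
        fun h => absurd h hi, fun h => absurd h hi', fun _ _ => ⟨rfl, rfl⟩⟩
  choose g g' w p' hg1 hg2 hg3 hgI hgJ hgK using hdata
  have hB := hA.conj_pure hM hg1 hg2 hg3
  obtain ⟨a0, ha0⟩ := hJ0
  have ha0I : a0 ∉ I := Finset.disjoint_right.1 hIJ ha0
  have hcard : I.card + J.card ≤ t := by
    rw [← Finset.card_union_of_disjoint hIJ]
    exact (Finset.card_le_univ _).trans (by rw [Fintype.card_fin])
  have hJpos : 0 < J.card := Finset.card_pos.2 ⟨a0, ha0⟩
  have hw0 : ∀ i ∈ I ∪ J, w i ≠ 0 := by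
    intro i hi
    rcases Finset.mem_union.1 hi with h | h
    · exact (hgI i h).1
    · exact (hgJ i h).1
  by_cases hJe : Even J.card
  · -- no swap
    have hres : In M ((2 * c * c) • PM (dI ω (I ∪ J) w)) := by
      refine key hp hω hroot (A := A) (B := fun i => g i * A i * g' i)
        (ε := fun i => if i ∈ I ∪ J then -1 else 1) (Q := I) (w := w) (a0 := a0) ha0I ?_ hA hB
        ⟨a0, (hgJ a0 ha0).2.2.2.1⟩ ⟨a0, (hgJ a0 ha0).2.2.2.2.1⟩ ⟨a0, (hgJ a0 ha0).2.2.2.2.2.1⟩
        ⟨a0, (hgJ a0 ha0).2.2.2.2.2.2⟩ ?_ ?_ ?_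
      · have h1 : a0 ∈ I ∪ J := Finset.mem_union_right _ ha0
        simp only [dI, if_pos h1]
        exact eM_sq ω (hω _)
      · intro i hi
        by_cases hiJ : i ∈ J
        · have h1 : i ∈ I ∪ J := Finset.mem_union_right _ hiJ
          simp only [dI, if_pos h1]
          exact ⟨(hgJ i hiJ).2.1, (hgJ i hiJ).2.2.1⟩
        · have h1 : i ∉ I ∪ J := fun h => (Finset.mem_union.1 h).elim hi hiJ
          simp only [dI, if_neg h1, hK i hi hiJ, (hgK i hi hiJ).1, (hgK i hi hiJ).2, mul_one, one_smul, and_self]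
      · intro i hi
        have h1 : i ∈ I ∪ J := Finset.mem_union_left _ hi
        simp only [dI, if_pos h1]
        exact ⟨(hgI i hi).2.2.2.1, (hgI i hi).2.2.2.2⟩
      · rw [Finset.prod_ite, Finset.prod_const, Finset.prod_const_one, mul_one]
        have h1 : (Finset.univ.filter fun i => i ∈ I ∪ J) = I ∪ J := by
          ext i
          simp only [Finset.mem_filter, Finset.mem_univ, true_and]
        rw [h1, Finset.card_union_of_disjoint hIJ]
        exact Odd.neg_one_pow (hIodd.add_even hJe)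
    have h1 := hasD_of hM hω hex hw0 hres
    refine ⟨2 * c * c, (I ∪ J).card, hc', ?_, ?_, ?_, fun I' hI' => hasD_perm hM hI'.symm h1⟩
    · rw [Finset.card_union_of_disjoint hIJ]; exact hIodd.add_even hJe
    · rw [Finset.card_union_of_disjoint hIJ]
      obtain ⟨m, hm⟩ := hIodd
      obtain ⟨m', hm'⟩ := hJe
      omega
    · rw [Finset.card_union_of_disjoint hIJ]; exact hcard
  · -- swap `a ∈ I` and `b ∉ I ∪ J`
    have hJo : Odd J.card := Nat.not_even_iff_odd.1 hJe
    obtain ⟨a, ha⟩ : I.Nonempty := by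
      rw [← Finset.card_pos]
      obtain ⟨m, hm⟩ := hIodd
      omega
    obtain ⟨b, hb⟩ : ∃ b, b ∉ I ∪ J := by
      by_contra hcon
      push Not at hcon
      have h1 : I ∪ J = Finset.univ := Finset.eq_univ_iff_forall.2 hcon
      have h3 : (I ∪ J).card = t := by rw [h1, Finset.card_univ, Fintype.card_fin]
      rw [Finset.card_union_of_disjoint hIJ] at h3
      obtain ⟨m, hm⟩ := hIodd
      obtain ⟨m', hm'⟩ := hJo
      obtain ⟨m'', hm''⟩ := ht
      omega
    have hbI : b ∉ I := fun h => hb (Finset.mem_union_left _ h)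
    have hbJ : b ∉ J := fun h => hb (Finset.mem_union_right _ h)
    have haJ : a ∉ J := Finset.disjoint_left.1 hIJ ha
    have hab : a ≠ b := fun h => hbI (h ▸ ha)
    have ha0a : a0 ≠ a := fun h => haJ (h ▸ ha0)
    have ha0b : a0 ≠ b := fun h => hbJ (h ▸ ha0)
    have hB' := hB.conj_perm hM (Equiv.swap a b)
    obtain ⟨va, hva, hAa⟩ := hI a ha
    have hBa : (g a * A a * g' a) = eM ω (p' a) (p' a) := (hgI a ha).2.2.1
    have hBb : (g b * A b * g' b) = 1 := by rw [hK b hbI hbJ, (hgK b hbI hbJ).1, (hgK b hbI hbJ).2, mul_one, mul_one]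
    have sw : ∀ i, i ≠ a → i ≠ b → Equiv.swap a b i = i := fun i h1 h2 => Equiv.swap_apply_of_ne_of_ne h1 h2
    let w' : Fin t → (Fin k → F) := fun i => if i = a then va else if i = b then p' a else w i
    have hres : In M ((2 * c * c) • PM (dI ω (insert b (I ∪ J)) w')) := by
      refine key hp hω hroot (A := A) (B := fun i => g (Equiv.swap a b i) * A (Equiv.swap a b i) * g' (Equiv.swap a b i))
        (ε := fun i => if i ∈ I.erase a ∪ J then -1 else 1) (Q := I.erase a) (w := w) (a0 := a0)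
        (fun h => ha0I (Finset.mem_of_mem_erase h)) ?_ hA hB'
        ⟨a0, (hgJ a0 ha0).2.2.2.1⟩ ⟨a0, ?_⟩ ⟨a0, ?_⟩ ⟨a0, ?_⟩ ?_ ?_ ?_
      · have h1 : a0 ∈ insert b (I ∪ J) := Finset.mem_insert_of_mem (Finset.mem_union_right _ ha0)
        simp only [dI, if_pos h1]
        exact eM_sq ω (hω _)
      · simp only [sw a0 ha0a ha0b]; exact (hgJ a0 ha0).2.2.2.2.1
      · simp only [sw a0 ha0a ha0b]; exact (hgJ a0 ha0).2.2.2.2.2.1
      · simp only [sw a0 ha0a ha0b]; exact (hgJ a0 ha0).2.2.2.2.2.2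
      · intro i hi
        by_cases hia : i = a
        · subst hia
          have h1 : i ∈ insert b (I ∪ J) := Finset.mem_insert_of_mem (Finset.mem_union_left _ ha)
          have h3 : i ∉ I.erase i ∪ J := by
            simp only [Finset.mem_union, Finset.mem_erase, ne_eq, not_true, false_and, false_or]
            exact haJ
          simp only [dI, if_pos h1, if_neg h3, Equiv.swap_apply_left, hBb, mul_one, one_mul, one_smul, w', if_true, hAa,
            and_self]
        by_cases hib : i = b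
        · subst hib
          have h1 : i ∈ insert i (I ∪ J) := Finset.mem_insert_self _ _
          have h3 : i ∉ I.erase a ∪ J := by
            intro h
            rcases Finset.mem_union.1 h with h | h
            · exact hbI (Finset.mem_of_mem_erase h)
            · exact hbJ h
          simp only [dI, if_pos h1, if_neg h3, Equiv.swap_apply_right, hBa, hK i hbI hbJ, mul_one, one_mul, one_smul, w',
            if_neg hia, if_true, and_self]
        simp only [sw i hia hib]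
        have hiI : i ∉ I := fun h => hi (Finset.mem_erase.2 ⟨hia, h⟩)
        by_cases hiJ : i ∈ J
        · have h1 : i ∈ insert b (I ∪ J) := Finset.mem_insert_of_mem (Finset.mem_union_right _ hiJ)
          have h3 : i ∈ I.erase a ∪ J := Finset.mem_union_right _ hiJ
          simp only [dI, if_pos h1, if_pos h3, w', if_neg hia, if_neg hib]
          exact ⟨(hgJ i hiJ).2.1, (hgJ i hiJ).2.2.1⟩
        · have h1 : i ∉ insert b (I ∪ J) := by
            simp only [Finset.mem_insert, Finset.mem_union, hib, hiI, hiJ, or_self, not_false_iff]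
          have h3 : i ∉ I.erase a ∪ J := by
            intro h
            rcases Finset.mem_union.1 h with h | h
            · exact hiI (Finset.mem_of_mem_erase h)
            · exact hiJ h
          simp only [dI, if_neg h1, if_neg h3, hK i hiI hiJ, (hgK i hiI hiJ).1, (hgK i hiI hiJ).2, mul_one, one_smul,
            and_self]
      · intro i hi
        obtain ⟨hia, hiI⟩ := Finset.mem_erase.1 hi
        have hib : i ≠ b := fun h => hbI (h ▸ hiI)
        have h1 : i ∈ insert b (I ∪ J) := Finset.mem_insert_of_mem (Finset.mem_union_left _ hiI)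
        have h3 : i ∈ I.erase a ∪ J := Finset.mem_union_left _ hi
        simp only [sw i hia hib, dI, if_pos h1, if_pos h3, w', if_neg hia, if_neg hib]
        exact ⟨(hgI i hiI).2.2.2.1, (hgI i hiI).2.2.2.2⟩
      · rw [Finset.prod_ite, Finset.prod_const, Finset.prod_const_one, mul_one]
        have h1 : (Finset.univ.filter fun i => i ∈ I.erase a ∪ J) = I.erase a ∪ J := by
          ext i
          simp only [Finset.mem_filter, Finset.mem_univ, true_and]
        have h3 : Disjoint (I.erase a) J := Finset.disjoint_of_subset_left (Finset.erase_subset _ _) hIJ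
        rw [h1, Finset.card_union_of_disjoint h3, Finset.card_erase_of_mem ha]
        obtain ⟨m, hm⟩ := hIodd
        obtain ⟨m', hm'⟩ := hJo
        exact Odd.neg_one_pow ⟨m + m', by omega⟩
    have hw' : ∀ i ∈ insert b (I ∪ J), w' i ≠ 0 := by
      intro i hi
      simp only [w']
      split_ifs with h1 h3
      · exact hva
      · exact (hgI a ha).2.1
      · refine hw0 i ?_
        rcases Finset.mem_insert.1 hi with h | h
        · exact absurd h h3
        · exact h
    have h1 := hasD_of hM hω hex hw' hres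
    have h3 : (insert b (I ∪ J)).card = I.card + J.card + 1 := by
      rw [Finset.card_insert_of_notMem hb, Finset.card_union_of_disjoint hIJ]
    refine ⟨2 * c * c, (insert b (I ∪ J)).card, hc', ?_, ?_, ?_, fun I' hI' => hasD_perm hM hI'.symm h1⟩
    · rw [h3]
      obtain ⟨m, hm⟩ := hIodd
      obtain ⟨m', hm'⟩ := hJo
      exact ⟨m + m' + 1, by omega⟩
    · rw [h3]
      obtain ⟨m, hm⟩ := hIodd
      obtain ⟨m', hm'⟩ := hJo
      omega
    · exact (Finset.card_le_univ _).trans (by rw [Fintype.card_fin])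

/-- Reaching level `t`. -/
theorem hasD_univ [NeZero k] {p : ℕ} [CharP F p] (hp : Odd p) (hM : LevelHyp ω M) (hω : ∀ w, ω w w = 0)
    (hn : ∀ w, (∀ x, ω w x = 0) → w = 0) (hroot : ∀ j v, In M (sl j (eM ω v v))) (ht : Odd t) (n : ℕ) :
    ∀ (c : F) (m : ℕ), c ≠ 0 → Odd m → 3 ≤ m → m + 2 * n = t →
      (∀ I : Finset (Fin t), I.card = m → HasD ω M c I) → ∃ c' : F, c' ≠ 0 ∧ HasD ω M c' Finset.univ := by
  have h2 : (2 : F) ≠ 0 := by
    intro h
    have h3 : ((2 : ℕ) : F) = 0 := by exact_mod_cast h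
    rw [CharP.cast_eq_zero_iff F p] at h3
    obtain ⟨m, hm⟩ := hp
    have h4 := Nat.le_of_dvd (by norm_num) h3
    have h5 : p ≠ 1 := CharP.char_ne_one F p
    omega
  induction n with
  | zero =>
    intro c m hc hm h3 hmt h
    exact ⟨c, hc, h _ (by rw [Finset.card_univ, Fintype.card_fin]; omega)⟩
  | succ n ih =>
    intro c m hc hm h3 hmt h
    refine ih (2 * c * c) (m + 2) (mul_ne_zero (mul_ne_zero h2 hc) hc) (hm.add_even even_two) (by omega) (by omega) ?_
    intro I hI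
    exact hasD_step hp hM hω hn hroot hm h3 h hI

/-- The parity of the number of root slots. -/
theorem odd_card {p : ℕ} [CharP F p] (hp : Odd p) (hω : ∀ w, ω w w = 0) (hn : ∀ w, (∀ x, ω w x = 0) → w = 0)
    (β : ((Fin t → Fin k) → F) →ₗ[F] ((Fin t → Fin k) → F) →ₗ[F] F) {c0 : F} (hc0 : c0 ≠ 0)
    (hβ : ∀ xs ys : Fin t → (Fin k → F), β (tp xs) (tp ys) = c0 * ∏ i, ω (xs i) (ys i))
    (hiso : ∀ g ∈ M, ∀ x y, β ((g : Module.End F ((Fin t → Fin k) → F)) x) ((g : Module.End F ((Fin t → Fin k) → F)) y)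
      = β x y)
    {A : Fin t → Matrix (Fin k) (Fin k) F} {c : F} (hc : c ≠ 0) (hA : In M (c • PM A)) (hsq : ∃ i, A i * A i = 0)
    {I : Finset (Fin t)} (hA0 : ∀ i, A i ≠ 0)
    (hI : ∀ i ∈ I, ∀ x y, ω x (A i *ᵥ y) = - ω (A i *ᵥ x) y)
    (hJ : ∀ i, i ∉ I → ∀ x y, ω x (A i *ᵥ y) = ω (A i *ᵥ x) y) : Odd I.card := by
  classical
  have h2 : (2 : F) ≠ 0 := by
    intro h
    have h3 : ((2 : ℕ) : F) = 0 := by exact_mod_cast h
    rw [CharP.cast_eq_zero_iff F p] at h3
    obtain ⟨m, hm⟩ := hp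
    have h4 := Nat.le_of_dvd (by norm_num) h3
    have h5 : p ≠ 1 := CharP.char_ne_one F p
    omega
  obtain ⟨x, hx⟩ : ∃ x, x = c • PM A := ⟨_, rfl⟩
  have hxx : x * x = 0 := by
    obtain ⟨i, hi⟩ := hsq
    rw [hx, smul_mul_smul_comm, PM_mul, PM_zero i hi, smul_zero]
  rw [← hx] at hA
  obtain ⟨g, hg, hgx⟩ := hA
  have hgi := inv_of_sq hgx hxx
  have e1 : ∀ a b, β (x a) b + β a (x b) = 0 := by
    intro a b
    have h3 := hiso g hg a b
    have h4 := hiso g⁻¹ (M.inv_mem hg) a b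
    rw [hgx] at h3
    rw [hgi] at h4
    simp only [LinearMap.add_apply, LinearMap.sub_apply, Module.End.one_apply, map_add, map_sub] at h3 h4
    have h5 : (2 : F) * (β (x a) b + β a (x b)) = 0 := by linear_combination h3 - h4
    exact (mul_eq_zero.1 h5).resolve_left h2
  -- vectors with `ω (A i x i) (y i) = 1`
  have hv : ∀ i, ∃ xy : (Fin k → F) × (Fin k → F), ω (A i *ᵥ xy.1) xy.2 = 1 := by
    intro i
    obtain ⟨v, hv⟩ : ∃ v, A i *ᵥ v ≠ 0 := by
      by_contra hcon
      push Not at hcon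
      exact hA0 i (mat_ext fun x => by rw [hcon, Matrix.zero_mulVec])
    obtain ⟨f, hf⟩ := exists_one hn hv
    exact ⟨(v, f), hf⟩
  choose xy hxy using hv
  have e2 := e1 (tp fun i => (xy i).1) (tp fun i => (xy i).2)
  rw [hx, LinearMap.smul_apply, LinearMap.smul_apply, PM_tp, PM_tp, map_smul, map_smul, LinearMap.smul_apply, hβ, hβ] at e2
  have e3 : ∏ i, ω (A i *ᵥ (xy i).1) (xy i).2 = 1 := Finset.prod_eq_one fun i _ => hxy i
  have e4 : ∏ i, ω (xy i).1 (A i *ᵥ (xy i).2) = (-1) ^ I.card := by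
    have h3 : ∀ i, ω (xy i).1 (A i *ᵥ (xy i).2) = if i ∈ I then -1 else 1 := by
      intro i
      split_ifs with h
      · rw [hI i h, hxy]
      · rw [hJ i h, hxy]
    simp only [h3]
    rw [Finset.prod_ite, Finset.prod_const, Finset.prod_const_one, mul_one]
    congr 2
    ext i
    simp only [Finset.mem_filter, Finset.mem_univ, true_and]
  rw [e3, e4, smul_eq_mul, smul_eq_mul, mul_one] at e2
  by_contra hodd
  rw [Nat.not_odd_iff_even] at hodd
  rw [hodd.neg_one_pow] at e2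
  have h6 : (2 : F) * (c * c0) = 0 := by linear_combination e2
  exact mul_ne_zero h2 (mul_ne_zero hc hc0) h6

end Slots

end Cfsg.Agent.H874
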