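import Cfsg.Agent.H874.LevelD

/-!
# The dichotomy: all slots are good or `M` contains the transvections with pure centres
-/

set_option autoImplicit false
set_option linter.unusedSimpArgs false
set_option linter.unusedVariables false
set_option linter.unusedSectionVars false

namespace Cfsg.Agent.H874

open Matrix Cfsg.Agent.H889

variable {F : Type*} [Field F] {k t : ℕ}

section Slots

variable {ω : (Fin k → F) →ₗ[F] (Fin k → F) →ₗ[F] F} {M : Subgroup (Module.End F ((Fin t → Fin k) → F))ˣ}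

theorem eM_ne_zero (hn : ∀ w, (∀ x, ω w x = 0) → w = 0) {v : Fin k → F} (hv : v ≠ 0) : eM ω v v ≠ 0 := by
  intro h
  obtain ⟨f, hf⟩ := exists_one hn hv
  have h1 := eM_mulVec ω v v f
  rw [h, Matrix.zero_mulVec, hf, one_smul] at h1
  exact hv h1.symm

theorem eL_ne_zero (hn : ∀ w, (∀ x, ω w x = 0) → w = 0) {u v : Fin k → F} (hlin : ∀ a : F, v ≠ a • u) (hu : u ≠ 0) :
    eM ω u v - eM ω v u ≠ 0 := by
  intro h
  have hv : v ≠ 0 := by
    rintro rfl
    exact hlin 0 (by rw [zero_smul])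
  obtain ⟨f, hf⟩ := exists_one hn hv
  have h1 : (eM ω u v - eM ω v u) *ᵥ f = 0 := by rw [h, Matrix.zero_mulVec]
  rw [Matrix.sub_mulVec, eM_mulVec, eM_mulVec, hf, one_smul, sub_eq_zero] at h1
  have h2 : ω u f ≠ 0 := by
    intro h0
    rw [h0, zero_smul] at h1
    exact hu h1
  refine hlin (ω u f)⁻¹ ?_
  rw [h1, smul_smul]
  rw [← h1, inv_mul_cancel₀ h2, one_smul]

/-- From a typed pure element to the last level. -/
theorem level_of_typ [NeZero k] {p : ℕ} [CharP F p] (hp : Odd p) (hM : LevelHyp ω M) (hω : ∀ w, ω w w = 0)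
    (hn : ∀ w, (∀ x, ω w x = 0) → w = 0)
    (hex : ∀ u v : Fin k → F, u ≠ 0 → v ≠ 0 → ∃ x, ω u x ≠ 0 ∧ ω v x ≠ 0)
    (hroot : ∀ j v, In M (sl j (eM ω v v))) (ht : Odd t)
    (β : ((Fin t → Fin k) → F) →ₗ[F] ((Fin t → Fin k) → F) →ₗ[F] F) {c0 : F} (hc0 : c0 ≠ 0)
    (hβ : ∀ xs ys : Fin t → (Fin k → F), β (tp xs) (tp ys) = c0 * ∏ i, ω (xs i) (ys i))
    (hiso : ∀ g ∈ M, ∀ x y, β ((g : Module.End F ((Fin t → Fin k) → F)) x) ((g : Module.End F ((Fin t → Fin k) → F)) y)
      = β x y)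
    {A : Fin t → Matrix (Fin k) (Fin k) F} {c : F} (hc : c ≠ 0) (hA : In M (c • PM A)) (hT : ∀ i, Typ ω (A i))
    (j : Fin t) (hj : (∃ u v, ω u v = 0 ∧ (∀ a : F, v ≠ a • u) ∧ u ≠ 0 ∧ A j = eM ω u v - eM ω v u) ∨
      (A j ≠ 1 ∧ ∃ i, i ≠ j ∧ A i ≠ 1)) : ∃ c' : F, c' ≠ 0 ∧ HasD ω M c' Finset.univ := by
  classical
  have skew := skew_of_alt hω
  let J : Finset (Fin t) := Finset.univ.filter fun i =>
    ∃ u v, ω u v = 0 ∧ (∀ a : F, v ≠ a • u) ∧ u ≠ 0 ∧ A i = eM ω u v - eM ω v u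
  let I : Finset (Fin t) := Finset.univ.filter fun i => i ∉ J ∧ ∃ v, v ≠ 0 ∧ A i = eM ω v v
  have hJ : ∀ i ∈ J, ∃ u v, ω u v = 0 ∧ (∀ a : F, v ≠ a • u) ∧ u ≠ 0 ∧ A i = eM ω u v - eM ω v u :=
    fun i hi => (Finset.mem_filter.1 hi).2
  have hI : ∀ i ∈ I, ∃ v, v ≠ 0 ∧ A i = eM ω v v := fun i hi => (Finset.mem_filter.1 hi).2.2
  have hIJ : Disjoint I J := Finset.disjoint_left.2 fun i hi => (Finset.mem_filter.1 hi).2.1
  have hK : ∀ i, i ∉ I → i ∉ J → A i = 1 := by
    intro i h1 h2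
    rcases hT i with h | h | h
    · exact (h1 (Finset.mem_filter.2 ⟨Finset.mem_univ _, h2, h⟩)).elim
    · exact (h2 (Finset.mem_filter.2 ⟨Finset.mem_univ _, h⟩)).elim
    · exact h
  have hsqI : ∀ i ∈ I, A i * A i = 0 := by
    intro i hi
    obtain ⟨v, -, hv⟩ := hI i hi
    rw [hv]; exact eM_sq ω (hω v)
  have hsqJ : ∀ i ∈ J, A i * A i = 0 := by
    intro i hi
    obtain ⟨u, v, huv, -, -, h⟩ := hJ i hi
    rw [h]; exact eL_sq ω hω huv (by rw [skew, huv, neg_zero])
  have hj1 : A j ≠ 1 := by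
    rcases hj with ⟨u, v, huv, h1, h2, h⟩ | ⟨h, -⟩
    · rw [h]; exact sq_ne_one (eL_sq ω hω huv (by rw [skew, huv, neg_zero]))
    · exact h
  have hjIJ : j ∈ I ∨ j ∈ J := by
    by_contra hcon
    push Not at hcon
    exact hj1 (hK j hcon.1 hcon.2)
  have hodd : Odd I.card := by
    refine odd_card hp hω hn β hc0 hβ hiso hc hA ⟨j, hjIJ.elim (hsqI j) (hsqJ j)⟩ (I := I) ?_ ?_ ?_
    · intro i
      by_cases h1 : i ∈ I
      · obtain ⟨v, hv0, hv⟩ := hI i h1
        rw [hv]; exact eM_ne_zero hn hv0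
      by_cases h2 : i ∈ J
      · obtain ⟨u, v, huv, h1, h2, h⟩ := hJ i h2
        rw [h]; exact eL_ne_zero hn h1 h2
      · rw [hK i h1 h2]; exact one_ne_zero
    · intro i hi x y
      obtain ⟨v, -, hv⟩ := hI i hi
      rw [hv, eM_mulVec, eM_mulVec, map_smul, map_smul, LinearMap.smul_apply, smul_eq_mul, smul_eq_mul, skew x v]
      ring
    · intro i hi x y
      by_cases h2 : i ∈ J
      · obtain ⟨u, v, huv, -, -, h⟩ := hJ i h2
        rw [h, Matrix.sub_mulVec, Matrix.sub_mulVec, eM_mulVec, eM_mulVec, eM_mulVec, eM_mulVec, map_sub, map_sub,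
          LinearMap.sub_apply, map_smul, map_smul, map_smul, map_smul, LinearMap.smul_apply, LinearMap.smul_apply,
          smul_eq_mul, smul_eq_mul, smul_eq_mul, smul_eq_mul, skew x u, skew x v]
        ring
      · rw [hK i hi h2, Matrix.one_mulVec, Matrix.one_mulVec]
  have hfinish : ∀ (c' : F) (n : ℕ), c' ≠ 0 → Odd n → 3 ≤ n → n ≤ t →
      (∀ I' : Finset (Fin t), I'.card = n → HasD ω M c' I') → ∃ c' : F, c' ≠ 0 ∧ HasD ω M c' Finset.univ := by
    intro c' n hc' hn' h3 hnt h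
    obtain ⟨m, hm⟩ := hn'
    obtain ⟨m', hm'⟩ := ht
    exact hasD_univ hp hM hω hn hroot ⟨m', hm'⟩ (m' - m) c' n hc' ⟨m, hm⟩ h3 (by omega) h
  by_cases hJ0 : J.Nonempty
  · obtain ⟨c', n, h1, h2, h3, h4, h5⟩ := hasD_of_bivector hp hM hω hn hex hroot ht hc hA hIJ hI hJ hK hodd hJ0
    exact hfinish c' n h1 h2 h3 h4 h5
  · have hJe : J = ∅ := Finset.not_nonempty_iff_eq_empty.1 hJ0
    have hjI : j ∈ I := hjIJ.resolve_right (by rw [hJe]; exact Finset.notMem_empty _)
    rcases hj with h | ⟨-, i, hij, hi1⟩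
    · exact absurd ⟨j, Finset.mem_filter.2 ⟨Finset.mem_univ _, h⟩⟩ hJ0
    have hiI : i ∈ I := by
      by_contra hiI
      exact hi1 (hK i hiI (by rw [hJe]; exact Finset.notMem_empty _))
    have h2 : 2 ≤ I.card := by
      have h3 : ({i, j} : Finset (Fin t)) ⊆ I := by
        intro x hx
        rcases Finset.mem_insert.1 hx with rfl | hx
        · exact hiI
        · rw [Finset.mem_singleton.1 hx]; exact hjI
      have h4 := Finset.card_le_card h3
      rwa [Finset.card_pair hij] at h4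
    have h3 : 3 ≤ I.card := by
      obtain ⟨m, hm⟩ := hodd
      omega
    have hex' : ∀ i, ∃ v, i ∈ I → v ≠ 0 ∧ A i = eM ω v v := by
      intro i
      by_cases hi : i ∈ I
      · obtain ⟨v, hv⟩ := hI i hi
        exact ⟨v, fun _ => hv⟩
      · exact ⟨0, fun h => absurd h hi⟩
    choose v hv using hex'
    have hAd : A = dI ω I v := by
      funext i
      by_cases hi : i ∈ I
      · simp only [dI, if_pos hi]; exact (hv i hi).2
      · simp only [dI, if_neg hi]; exact hK i hi (by rw [hJe]; exact Finset.notMem_empty _)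
    rw [hAd] at hA
    have h5 := hasD_of hM hω hex (fun i hi => (hv i hi).1) hA
    refine hfinish c I.card hc hodd h3 ((Finset.card_le_univ _).trans (by rw [Fintype.card_fin])) ?_
    intro I' hI'
    exact hasD_perm hM hI'.symm h5

theorem coj_eq_smul (hω : ∀ w, ω w w = 0) (hn : ∀ w, (∀ x, ω w x = 0) → w = 0) [NeZero k] {j : Fin t}
    {z : Module.End F (({i : Fin t // i ≠ j} → Fin k) → F)} {c : F} (h : coj j z = c • 1) : z = c • 1 := by
  refine LinearMap.ext fun y => ?_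
  have h0 : (Pi.single (0 : Fin k) (1 : F) : Fin k → F) ≠ 0 := by
    intro h
    have := congrFun h 0
    rw [Pi.single_eq_same] at this
    exact one_ne_zero this
  refine (tslot ω hω hn j).i_injective h0 ?_
  rw [← coj_i, h, LinearMap.smul_apply, Module.End.one_apply, LinearMap.smul_apply, Module.End.one_apply, map_smul]

/-- All slots are good, or `M` contains the transvections with pure centres. -/
theorem good_or_level [NeZero k] {p : ℕ} [CharP F p] (hp : Odd p) (hM : LevelHyp ω M) (hω : ∀ w, ω w w = 0)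
    (hn : ∀ w, (∀ x, ω w x = 0) → w = 0)
    (hex : ∀ u v : Fin k → F, u ≠ 0 → v ≠ 0 → ∃ x, ω u x ≠ 0 ∧ ω v x ≠ 0)
    (hroot : ∀ j v (l : F), In M (l • sl j (eM ω v v))) (ht : Odd t)
    (β : ((Fin t → Fin k) → F) →ₗ[F] ((Fin t → Fin k) → F) →ₗ[F] F) {c0 : F} (hc0 : c0 ≠ 0)
    (hβ : ∀ xs ys : Fin t → (Fin k → F), β (tp xs) (tp ys) = c0 * ∏ i, ω (xs i) (ys i))
    (hiso : ∀ g ∈ M, ∀ x y, β ((g : Module.End F ((Fin t → Fin k) → F)) x) ((g : Module.End F ((Fin t → Fin k) → F)) y)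
      = β x y) : (∀ j, (tslot ω hω hn j).Good M) ∨ ∃ c' : F, c' ≠ 0 ∧ HasD ω M c' Finset.univ := by
  classical
  by_contra hcon
  push Not at hcon
  obtain ⟨⟨j, hj⟩, hno⟩ := hcon
  have hroot' : ∀ j v, In M (sl j (eM ω v v)) := fun j v => by
    have h := hroot j v 1
    rwa [one_smul] at h
  have hpm : ∀ X : Matrix (Fin k) (Fin k) F, PM (onS {j} fun _ => X) = sl j X := by
    intro X
    rw [sl]
    congr 1
    funext i
    by_cases hi : i = j
    · subst hi; simp [onS]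
    · simp [onS, hi]
  apply hj
  refine ⟨?_, ?_, ?_⟩
  · intro w l
    obtain ⟨g, hg, hgx⟩ := hroot j w l
    have h1 : (tslot ω hω hn j).tv w l = g := Units.ext (by rw [Slot.coe_tv, Δ_eq_sl, hgx])
    rw [h1]; exact hg
  · intro w hw X g hg hgx
    by_contra hX
    have hIn : In M (PM (onS {j} fun _ => eM ω w w) * coj j X) := by
      refine ⟨g, hg, ?_⟩
      rw [hpm, sl_mul_coj ω hω hn]
      refine LinearMap.ext fun x => ?_
      rw [hgx]
      rfl
    obtain ⟨A, c, hc, hA1, hA2, hA3, i, hi, hi1⟩ := purify' M hp hex hω hn hroot' _ {j} rfl (fun _ => eM ω w w) j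
      (Finset.mem_singleton_self j) (eM_sq ω (hω w)) (fun i _ => Or.inl ⟨w, hw, rfl⟩) (coj j X)
      (by
        rintro ⟨c, h⟩
        apply hX
        have h1 := coj_eq_smul hω hn h
        exact ⟨c, fun y => by rw [h1]; rfl⟩)
      (by
        intro i hi B
        rw [Finset.mem_singleton.1 hi]
        exact coj_comm_self ω hω hn j B X) hIn
    obtain ⟨c', hc', h⟩ := level_of_typ hp hM hω hn hex hroot' ht β hc0 hβ hiso hc hA3 hA2 j
      (Or.inr ⟨by rw [hA1 j (Finset.mem_singleton_self j)]; exact sq_ne_one (eM_sq ω (hω w)), i,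
        fun h => hi (by rw [h]; exact Finset.mem_singleton_self j), hi1⟩)
    exact hno c' hc' h
  · intro w b hw hwb hb Z g hg hgx
    by_contra hZ
    have hZ0 : Z ≠ 0 := by
      rintro rfl
      exact hZ fun y => rfl
    have hIn : In M (PM (onS {j} fun _ => eM ω w b - eM ω b w) * coj j Z) := by
      refine ⟨g, hg, ?_⟩
      have h3 : sl j (eM ω w b - eM ω b w) = sl j (eM ω w b) - sl j (eM ω b w) := by
        have h4 : eM ω w b - eM ω b w = eM ω w b + (-1 : F) • eM ω b w := by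
          rw [neg_one_smul, sub_eq_add_neg]
        rw [h4, sl_add, sl_smul]
        refine LinearMap.ext fun x => ?_
        simp only [LinearMap.add_apply, LinearMap.smul_apply, LinearMap.sub_apply, neg_smul, one_smul,
          LinearMap.neg_apply, sub_eq_add_neg]
      rw [hpm, h3, sub_mul, sl_mul_coj ω hω hn, sl_mul_coj ω hω hn]
      refine LinearMap.ext fun x => ?_
      rw [hgx]
      rfl
    have hty : Typ ω (eM ω w b - eM ω b w) := Or.inr (Or.inl ⟨w, b, hwb, hb, hw, rfl⟩)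
    obtain ⟨A, c, hc, hA1, hA2, hA3⟩ := purify M hp hex hω hn hroot' _ {j} rfl (fun _ => eM ω w b - eM ω b w) j
      (Finset.mem_singleton_self j)
      (eL_sq ω hω hwb (show ω b w = 0 by rw [skew_of_alt hω]; exact neg_eq_zero.2 hwb)) (fun i _ => hty) (coj j Z)
      (coj_ne_zero hZ0)
      (by
        intro i hi B
        rw [Finset.mem_singleton.1 hi]
        exact coj_comm_self ω hω hn j B Z) hIn
    obtain ⟨c', hc', h⟩ := level_of_typ hp hM hω hn hex hroot' ht β hc0 hβ hiso hc hA3 hA2 j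
      (Or.inl ⟨w, b, hwb, hb, hw, hA1 j (Finset.mem_singleton_self j)⟩)
    exact hno c' hc' h

/-- The last level consists of transvections. -/
theorem hasD_univ_apply (β : ((Fin t → Fin k) → F) →ₗ[F] ((Fin t → Fin k) → F) →ₗ[F] F) {c0 : F} (hc0 : c0 ≠ 0)
    (hβ : ∀ xs ys : Fin t → (Fin k → F), β (tp xs) (tp ys) = c0 * ∏ i, ω (xs i) (ys i)) {c : F}
    (h : HasD ω M c Finset.univ) {u : Fin t → (Fin k → F)} (hu : ∀ i, u i ≠ 0) :
    ∃ g ∈ M, ∀ x, (g : Module.End F ((Fin t → Fin k) → F)) x = x + (c * c0⁻¹ * β (tp u) x) • tp u := by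
  obtain ⟨g, hg, hgx⟩ := h u hu
  refine ⟨g, hg, fun x => ?_⟩
  have h1 : PM (dI ω Finset.univ u) = c0⁻¹ • (β (tp u)).smulRight (tp u) := by
    refine end_ext_tp fun xs => ?_
    rw [PM_tp, LinearMap.smul_apply, LinearMap.smulRight_apply, hβ]
    funext a
    simp only [tp_apply, dI, Finset.mem_univ, if_true, eM_mulVec, Pi.smul_apply, smul_eq_mul, Finset.prod_mul_distrib]
    field_simp
  rw [hgx, h1, LinearMap.add_apply, Module.End.one_apply, LinearMap.smul_apply, LinearMap.smul_apply,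
    LinearMap.smulRight_apply, smul_smul, smul_smul]

end Slots

end Cfsg.Agent.H874
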