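import Cfsg.Agent.H874.LevelE

/-!
# Recognition of the tensor-wreath group

If `g` maps the root elements of the slots to multiples of root elements of slots, then `g` is in the tensor-wreath
group.
-/

set_option autoImplicit false
set_option linter.unusedSimpArgs false
set_option linter.unusedVariables false
set_option linter.unusedSectionVars false

namespace Cfsg.Agent.H874

open Matrix Cfsg.Agent.H889 Cfsg.Geo
open scoped MatrixGroups

variable {F : Type*} [Field F] {k t : ℕ}

theorem slot_zero (i : Fin t) : slot i (0 : Matrix (Fin k) (Fin k) F) = 0 := by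
  have h := slot_smul i (0 : F) (0 : Matrix (Fin k) (Fin k) F)
  rwa [zero_smul, zero_smul] at h

/-- The permutation of the tensor factors. -/
theorem exists_perm_mem (σ : Equiv.Perm (Fin t)) : ∃ g ∈ tensorWreathStandard k t F,
    ∀ xs : Fin t → (Fin k → F), g.val *ᵥ tp xs = tp fun i => xs (σ i) := by
  let P : Equiv.Perm (Fin t) → Matrix (Fin t → Fin k) (Fin t → Fin k) F := fun σ x y => if y = x ∘ σ then 1 else 0
  have hP : ∀ (σ : Equiv.Perm (Fin t)) (v : (Fin t → Fin k) → F) (x : Fin t → Fin k), (P σ *ᵥ v) x = v (x ∘ σ) := by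
    intro σ v x
    rw [Matrix.mulVec, dotProduct, Finset.sum_eq_single (x ∘ σ)]
    · show (if x ∘ σ = x ∘ σ then 1 else 0) * v (x ∘ σ) = _
      rw [if_pos rfl, one_mul]
    · intro b _ hb
      show (if b = x ∘ σ then 1 else 0) * v b = 0
      rw [if_neg hb, zero_mul]
    · intro h
      exact absurd (Finset.mem_univ _) h
  have hPP : ∀ σ τ : Equiv.Perm (Fin t), τ * σ = 1 → P σ * P τ = 1 := by
    intro σ τ h
    refine matrix_ext_tp fun xs => ?_
    rw [← Matrix.mulVec_mulVec, Matrix.one_mulVec]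
    funext x
    rw [hP, hP]
    congr 1
    funext i
    show x (σ (τ i)) = x i
    have h1 : σ * τ = 1 := by
      rw [← inv_eq_iff_mul_eq_one] at h
      rw [← h, inv_mul_cancel]
    rw [← Equiv.Perm.mul_apply, h1, Equiv.Perm.one_apply]
  let g : GL (Fin t → Fin k) F := ⟨P σ⁻¹, P σ, hPP _ _ (mul_inv_cancel _), hPP _ _ (inv_mul_cancel _)⟩
  refine ⟨g, Subgroup.subset_closure (Or.inr ⟨σ⁻¹, fun x y => rfl⟩), fun xs => ?_⟩
  funext x
  show (P σ⁻¹ *ᵥ tp xs) x = _
  rw [hP]
  have h1 := tp_comp_perm (fun i => xs (σ i)) σ⁻¹ x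
  have h2 : (fun i => xs (σ (σ⁻¹ i))) = xs := by
    funext i
    rw [← Equiv.Perm.mul_apply, mul_inv_cancel, Equiv.Perm.one_apply]
  rw [h2] at h1
  exact h1

theorem mem_of_isMonomialOn {g : GL (Fin t → Fin k) F} {gs : Fin t → GL (Fin k) F} {σ : Equiv.Perm (Fin t)}
    (h : IsMonomialOn g gs σ) : g ∈ tensorWreathStandard k t F := by
  obtain ⟨P, hP, hPt⟩ := exists_perm_mem (F := F) (k := k) σ
  have h1 : g = pmGL gs * P := by
    apply Units.ext
    refine matrix_ext_tp fun xs => ?_
    rw [Units.val_mul, ← Matrix.mulVec_mulVec, hPt, coe_pmGL, pm_mulVec, h xs]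
  rw [h1]
  exact Subgroup.mul_mem _ (pmGL_mem gs) hP

/-- Slot matrices are determined by their slot component. -/
theorem slot_inj [NeZero k] {i : Fin t} {A B : Matrix (Fin k) (Fin k) F} (h : slot i A = slot i B) : A = B := by
  refine mat_ext fun x => ?_
  have h1 : tp (Function.update (fun _ => (Pi.single 0 1 : Fin k → F)) i (A *ᵥ x))
      = tp (Function.update (fun _ => (Pi.single 0 1 : Fin k → F)) i (B *ᵥ x)) := by
    have h2 := congrArg (fun X => X *ᵥ tp (Function.update (fun _ => (Pi.single 0 1 : Fin k → F)) i x)) h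
    simp only [slot_mulVec_tp, Function.update_self, Function.update_idem] at h2
    exact h2
  funext p
  have h3 := congrFun h1 (Function.update (fun _ => 0) i p)
  have h4 : ∀ z : Fin k → F, tp (Function.update (fun _ => (Pi.single 0 1 : Fin k → F)) i z)
      (Function.update (fun _ => 0) i p) = z p := by
    intro z
    rw [tp_apply, ← Finset.mul_prod_erase Finset.univ _ (Finset.mem_univ i), Function.update_self, Function.update_self,
      Finset.prod_eq_one, mul_one]
    intro j hj
    rw [Function.update_of_ne (Finset.ne_of_mem_erase hj), Function.update_of_ne (Finset.ne_of_mem_erase hj),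
      Pi.single_eq_same]
  rwa [h4, h4] at h3

theorem tp_ne_zero {xs : Fin t → (Fin k → F)} (h : ∀ i, xs i ≠ 0) : tp xs ≠ 0 := by
  have h1 : ∀ i, ∃ a, xs i a ≠ 0 := fun i => Function.ne_iff.1 (h i)
  choose a ha using h1
  intro h2
  have h3 := congrFun h2 a
  rw [tp_apply, Pi.zero_apply] at h3
  exact Finset.prod_ne_zero_iff.2 (fun i _ => ha i) h3

variable {ω : (Fin k → F) →ₗ[F] (Fin k → F) →ₗ[F] F}

theorem eM_smul (c : F) (a b : Fin k → F) : c • eM ω a b = eM ω (c • a) b := by
  refine mat_ext fun x => ?_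
  rw [Matrix.smul_mulVec, eM_mulVec, eM_mulVec, smul_comm]

/-- Root elements generate all matrices. -/
theorem gen_eM (hn : ∀ w, (∀ x, ω w x = 0) → w = 0)
    (hex : ∀ u v : Fin k → F, u ≠ 0 → v ≠ 0 → ∃ x, ω u x ≠ 0 ∧ ω v x ≠ 0) (hω : ∀ w, ω w w = 0)
    (P : Matrix (Fin k) (Fin k) F → Prop) (hP : ∀ w, w ≠ 0 → P (eM ω w w)) (h0 : P 0)
    (hadd : ∀ A B, P A → P B → P (A + B)) (hsmul : ∀ (c : F) A, P A → P (c • A)) (hmul : ∀ A B, P A → P B → P (A * B))
    (A : Matrix (Fin k) (Fin k) F) : P A := by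
  classical
  have skew := skew_of_alt hω
  have h1 : ∀ a b : Fin k → F, a ≠ 0 → b ≠ 0 → P (eM ω a b) := by
    intro a b ha hb
    obtain ⟨x, hx1, hx2⟩ := hex a b ha hb
    have hx : x ≠ 0 := by
      rintro rfl
      exact hx1 (map_zero _)
    have h2 := hsmul ((ω a x * ω x b)⁻¹) _ (hmul _ _ (hmul _ _ (hP a ha) (hP x hx)) (hP b hb))
    rw [eM_mul, smul_mul_assoc, eM_mul, smul_smul, smul_smul, mul_assoc, inv_mul_cancel₀, one_smul] at h2
    · exact h2
    · exact mul_ne_zero hx1 (by rw [skew]; exact neg_ne_zero.2 hx2)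
  have h1' : ∀ a b : Fin k → F, P (eM ω a b) := by
    intro a b
    by_cases ha : a = 0
    · have : eM ω a b = 0 := mat_ext fun x => by rw [eM_mulVec, ha, smul_zero, Matrix.zero_mulVec]
      rw [this]; exact h0
    by_cases hb : b = 0
    · have : eM ω a b = 0 := mat_ext fun x => by
        rw [eM_mulVec, hb, map_zero, LinearMap.zero_apply, zero_smul, Matrix.zero_mulVec]
      rw [this]; exact h0
    exact h1 a b ha hb
  -- coordinates are given by `ω`
  have hsurj : Function.Surjective (ω : (Fin k → F) →ₗ[F] Module.Dual F (Fin k → F)) := by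
    refine (LinearMap.injective_iff_surjective_of_finrank_eq_finrank
      (Subspace.dual_finrank_eq (K := F) (V := Fin k → F)).symm).1 ?_
    rw [injective_iff_map_eq_zero]
    intro w hw
    exact hn w fun x => by rw [hw, LinearMap.zero_apply]
  choose b hb using fun q : Fin k => hsurj (LinearMap.proj q)
  have h2 : A = ∑ q, eM ω (A *ᵥ Pi.single q 1) (b q) := by
    refine mat_ext fun x => ?_
    rw [Matrix.sum_mulVec]
    simp only [eM_mulVec]
    have h3 : ∀ q, ω (b q) x = x q := fun q => by rw [hb, LinearMap.proj_apply]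
    simp only [h3]
    conv_lhs => rw [pi_eq_sum_univ' x]
    rw [← Matrix.toLin'_apply, map_sum]
    refine Finset.sum_congr rfl fun q _ => ?_
    rw [map_smul, Matrix.toLin'_apply]
  rw [h2]
  have h4 : ∀ s : Finset (Fin k), P (∑ q ∈ s, eM ω (A *ᵥ Pi.single q 1) (b q)) := by
    intro s
    induction s using Finset.induction_on with
    | empty => rw [Finset.sum_empty]; exact h0
    | insert q s hq ih => rw [Finset.sum_insert hq]; exact hadd _ _ (h1' _ _) ih
  exact h4 _

/-- **Recognition**: a linear bijection mapping slot root elements to multiples of slot root elements is in the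
tensor-wreath group. -/
theorem recog [NeZero k] (hω : ∀ w, ω w w = 0) (hn : ∀ w, (∀ x, ω w x = 0) → w = 0)
    (hex : ∀ u v : Fin k → F, u ≠ 0 → v ≠ 0 → ∃ x, ω u x ≠ 0 ∧ ω v x ≠ 0) (ht : 0 < t)
    (g : GL (Fin t → Fin k) F)
    (hg : ∀ (i : Fin t) (w : Fin k → F), w ≠ 0 → ∃ (j : Fin t) (u : Fin k → F) (c : F),
      g.val * slot i (eM ω w w) * (g⁻¹).val = c • slot j (eM ω u u)) :
    ∃ (gs : Fin t → GL (Fin k) F) (σ : Equiv.Perm (Fin t)), IsMonomialOn g gs σ := by
  classical
  have skew := skew_of_alt hω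
  have hgi : g.val * (g⁻¹).val = 1 := by rw [← Units.val_mul, mul_inv_cancel, Units.val_one]
  have hig : (g⁻¹).val * g.val = 1 := by rw [← Units.val_mul, inv_mul_cancel, Units.val_one]
  let C : Matrix (Fin t → Fin k) (Fin t → Fin k) F → Matrix (Fin t → Fin k) (Fin t → Fin k) F := fun X =>
    g.val * X * (g⁻¹).val
  have hCmul : ∀ X Y, C (X * Y) = C X * C Y := by
    intro X Y
    show g.val * (X * Y) * (g⁻¹).val = g.val * X * (g⁻¹).val * (g.val * Y * (g⁻¹).val)
    calc g.val * (X * Y) * (g⁻¹).val = g.val * X * 1 * Y * (g⁻¹).val := by simp only [mul_assoc, one_mul]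
      _ = _ := by rw [← hig]; simp only [mul_assoc]
  have hCinj : ∀ X Y, C X = C Y → X = Y := by
    intro X Y h
    have h1 : ∀ Z, (g⁻¹).val * C Z * g.val = Z := by
      intro Z
      show (g⁻¹).val * (g.val * Z * (g⁻¹).val) * g.val = Z
      calc (g⁻¹).val * (g.val * Z * (g⁻¹).val) * g.val = ((g⁻¹).val * g.val) * Z * ((g⁻¹).val * g.val) := by
            simp only [mul_assoc]
        _ = Z := by rw [hig, one_mul, mul_one]
    rw [← h1 X, h, h1]
  have hCadd : ∀ X Y, C (X + Y) = C X + C Y := by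
    intro X Y
    show g.val * (X + Y) * (g⁻¹).val = _
    rw [mul_add, add_mul]
  have hCsmul : ∀ (c : F) X, C (c • X) = c • C X := by
    intro c X
    show g.val * (c • X) * (g⁻¹).val = _
    rw [mul_smul_comm, smul_mul_assoc]
  have hC0 : C 0 = 0 := by
    show g.val * 0 * (g⁻¹).val = 0
    rw [mul_zero, zero_mul]
  have hC1 : C 1 = 1 := by
    show g.val * 1 * (g⁻¹).val = 1
    rw [mul_one, hgi]
  have hCPM : ∀ X v, g.val *ᵥ (X *ᵥ v) = C X *ᵥ (g.val *ᵥ v) := by
    intro X v
    show _ = (g.val * X * (g⁻¹).val) *ᵥ (g.val *ᵥ v)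
    rw [Matrix.mulVec_mulVec, Matrix.mulVec_mulVec, mul_assoc _ _ g.val, hig, mul_one]
  -- the images of the root elements
  have hCw : ∀ (i : Fin t) (w : Fin k → F), w ≠ 0 → ∃ (j : Fin t) (u : Fin k → F) (c : F), c ≠ 0 ∧ u ≠ 0 ∧
      C (slot i (eM ω w w)) = c • slot j (eM ω u u) := by
    intro i w hw
    obtain ⟨j, u, c, h⟩ := hg i w hw
    have h0 : C (slot i (eM ω w w)) ≠ 0 := by
      intro h0
      rw [← hC0] at h0
      have h1 := hCinj _ _ h0
      rw [← slot_zero i] at h1
      exact eM_ne_zero hn hw (slot_inj h1)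
    refine ⟨j, u, c, ?_, ?_, h⟩
    · rintro rfl
      rw [zero_smul] at h
      exact h0 h
    · rintro rfl
      have h1 : eM ω (0 : Fin k → F) 0 = 0 := mat_ext fun x => by rw [eM_mulVec, smul_zero, Matrix.zero_mulVec]
      rw [h1, slot_zero, smul_zero] at h
      exact h0 h
  choose! J U Cc hc hu hCw using hCw
  have e0 : (Pi.single 0 1 : Fin k → F) ≠ 0 := by
    intro h
    have := congrFun h 0
    rw [Pi.single_eq_same] at this
    exact one_ne_zero this
  obtain ⟨w0, hw0⟩ : ∃ w0 : Fin k → F, w0 ≠ 0 := ⟨_, e0⟩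
  -- the slot of the image does not depend on the vector
  have hJ1 : ∀ i w w', w ≠ 0 → w' ≠ 0 → ω w w' ≠ 0 → J i w = J i w' := by
    intro i w w' hw hw' h
    by_contra hne
    have h1 : C (slot i (eM ω w w)) * C (slot i (eM ω w' w')) = C (slot i (eM ω w' w')) * C (slot i (eM ω w w)) := by
      rw [hCw i w hw, hCw i w' hw', smul_mul_smul_comm, smul_mul_smul_comm, slot_comm hne, mul_comm (Cc i w)]
    rw [← hCmul, ← hCmul] at h1
    have h2 := hCinj _ _ h1
    rw [slot_mul, slot_mul] at h2
    have h3 := slot_inj h2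
    rw [eM_mul, eM_mul] at h3
    -- apply to `w`
    have h4 := congrArg (fun X => X *ᵥ w) h3
    simp only [Matrix.smul_mulVec, eM_mulVec, hω, zero_smul, smul_zero] at h4
    have h5 : ω w' w ≠ 0 := by rw [skew]; exact neg_ne_zero.2 h
    exact (smul_ne_zero h (smul_ne_zero h5 hw)) h4
  have hJ : ∀ i w w', w ≠ 0 → w' ≠ 0 → J i w = J i w' := by
    intro i w w' hw hw'
    obtain ⟨x, hx1, hx2⟩ := hex w w' hw hw'
    have hx : x ≠ 0 := by
      rintro rfl
      exact hx1 (map_zero _)
    rw [hJ1 i w x hw hx hx1, hJ1 i w' x hw' hx hx2]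
  let τ : Fin t → Fin t := fun i => J i w0
  -- the induced maps
  have hθ : ∀ i (B : Matrix (Fin k) (Fin k) F), ∃ B', C (slot i B) = slot (τ i) B' := by
    intro i B
    refine gen_eM hn hex hω (fun B => ∃ B', C (slot i B) = slot (τ i) B') ?_ ?_ ?_ ?_ ?_ B
    · intro w hw
      refine ⟨Cc i w • eM ω (U i w) (U i w), ?_⟩
      rw [hCw i w hw, slot_smul, hJ i w w0 hw hw0]
    · exact ⟨0, by rw [slot_zero, hC0, slot_zero]⟩
    · rintro A B ⟨A', hA⟩ ⟨B', hB⟩
      exact ⟨A' + B', by rw [slot_add, hCadd, hA, hB, slot_add]⟩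
    · rintro c A ⟨A', hA⟩
      exact ⟨c • A', by rw [slot_smul, hCsmul, hA, slot_smul]⟩
    · rintro A B ⟨A', hA⟩ ⟨B', hB⟩
      exact ⟨A' * B', by rw [← slot_mul, hCmul, hA, hB, slot_mul]⟩
  choose θ hθ using hθ
  have hθadd : ∀ i A B, θ i (A + B) = θ i A + θ i B := by
    intro i A B
    apply slot_inj (i := τ i)
    rw [← hθ, slot_add, hCadd, hθ, hθ, slot_add]
  have hθsmul : ∀ i (c : F) A, θ i (c • A) = c • θ i A := by
    intro i c A
    apply slot_inj (i := τ i)
    rw [← hθ, slot_smul, hCsmul, hθ, slot_smul]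
  have hθmul : ∀ i A B, θ i (A * B) = θ i A * θ i B := by
    intro i A B
    apply slot_inj (i := τ i)
    rw [← hθ, ← slot_mul, hCmul, hθ, hθ, slot_mul]
  have hθ1 : ∀ i, θ i 1 = 1 := by
    intro i
    apply slot_inj (i := τ i)
    rw [← hθ, slot_one, hC1, slot_one]
  have hθeM : ∀ i w, w ≠ 0 → θ i (eM ω w w) = Cc i w • eM ω (U i w) (U i w) := by
    intro i w hw
    apply slot_inj (i := τ i)
    rw [← hθ, hCw i w hw, slot_smul, hJ i w w0 hw hw0]
  -- surjectivity
  have hθsurj : ∀ i, Function.Surjective (θ i) := by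
    intro i
    let L : Matrix (Fin k) (Fin k) F →ₗ[F] Matrix (Fin k) (Fin k) F :=
      { toFun := θ i, map_add' := hθadd i, map_smul' := hθsmul i }
    have hinj : Function.Injective L := by
      intro A B h
      have h1 : θ i A = θ i B := h
      have h2 : C (slot i A) = C (slot i B) := by rw [hθ, hθ, h1]
      exact slot_inj (hCinj _ _ h2)
    exact LinearMap.injective_iff_surjective.1 hinj
  have hτ : Function.Injective τ := by
    intro i j hij
    by_contra hne
    -- `eM w0 w0` in slot `τ i`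
    obtain ⟨A, hA⟩ := hθsurj i (eM ω w0 w0)
    obtain ⟨B, hB⟩ := hθsurj j (eM ω w0 w0)
    have h1 : C (slot i A) = C (slot j B) := by rw [hθ, hθ, hA, hB, hij]
    have h2 := hCinj _ _ h1
    -- `A` commutes with everything
    have h3 : ∀ X, A * X = X * A := by
      intro X
      apply slot_inj (i := i)
      rw [← slot_mul, ← slot_mul, h2, slot_comm (Ne.symm hne)]
    obtain ⟨x, hx1, -⟩ := hex w0 w0 hw0 hw0
    have hx : x ≠ 0 := by
      rintro rfl
      exact hx1 (map_zero _)
    obtain ⟨X, hX⟩ := hθsurj i (eM ω x x)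
    have h4 := congrArg (θ i) (h3 X)
    rw [hθmul, hθmul, hA, hX, eM_mul, eM_mul] at h4
    have h5 := congrArg (fun X => X *ᵥ w0) h4
    simp only [Matrix.smul_mulVec, eM_mulVec, hω, zero_smul, smul_zero] at h5
    have h6 : ω x w0 ≠ 0 := by rw [skew]; exact neg_ne_zero.2 hx1
    exact (smul_ne_zero hx1 (smul_ne_zero h6 hw0)) h5
  have hτb : Function.Bijective τ := Finite.injective_iff_bijective.1 hτ
  let T : Equiv.Perm (Fin t) := Equiv.ofBijective τ hτb
  let σ : Equiv.Perm (Fin t) := T.symm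
  have hτσ : ∀ i, τ (σ i) = i := fun i => T.apply_symm_apply i
  have hστ : ∀ i, σ (τ i) = i := fun i => T.symm_apply_apply i
  -- conjugation of product matrices
  have hCpm : ∀ A : Fin t → Matrix (Fin k) (Fin k) F, C (pm A) = pm fun i => θ (σ i) (A (σ i)) := by
    intro A
    have key : ∀ s : Finset (Fin t), C (pm fun i => if i ∈ s then A i else 1)
        = pm fun i => if σ i ∈ s then θ (σ i) (A (σ i)) else 1 := by
      intro s
      induction s using Finset.induction_on with
      | empty => simp only [Finset.notMem_empty, if_false, pm_one, hC1]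
      | insert j s hj ih =>
        have h1 : (pm fun i => if i ∈ insert j s then A i else 1)
            = slot j (A j) * pm fun i => if i ∈ s then A i else 1 := by
          rw [slot, pm_mul]
          congr 1
          funext i
          by_cases hi : i = j
          · subst hi
            rw [if_pos (Finset.mem_insert_self _ _), if_neg hj, Function.update_self, mul_one]
          · rw [Function.update_of_ne hi, one_mul]
            simp only [Finset.mem_insert, hi, false_or]
        rw [h1, hCmul, hθ, ih, slot, pm_mul]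
        congr 1
        funext i
        by_cases hi : i = τ j
        · subst hi
          rw [Function.update_self, hστ, if_neg hj, if_pos (Finset.mem_insert_self _ _), mul_one]
        · have h2 : σ i ≠ j := by
            intro h
            apply hi
            rw [← h, hτσ]
          rw [Function.update_of_ne hi, one_mul]
          simp only [Finset.mem_insert, h2, false_or]
    have h2 := key Finset.univ
    simpa using h2
  -- an idempotent fixing `w0`
  obtain ⟨z, hz⟩ := exists_one hn hw0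
  have hzw : ω (-z) w0 = 1 := by rw [map_neg, LinearMap.neg_apply, skew, hz, neg_neg]
  -- `eM x (-z)` maps `w0` to `x`
  have hxz : ∀ x : Fin k → F, eM ω x (-z) *ᵥ w0 = x := fun x => by rw [eM_mulVec, hzw, one_smul]
  -- the image of the idempotent has rank one
  have hR : ∀ i, ∀ y, ∃ m : F, θ i (eM ω w0 (-z)) *ᵥ y = m • U i w0 := by
    intro i y
    have h1 : eM ω w0 (-z) = eM ω w0 w0 * eM ω z (-z) := by rw [eM_mul, hz, one_smul]
    rw [h1, hθmul, hθeM i w0 hw0, ← Matrix.mulVec_mulVec, Matrix.smul_mulVec, eM_mulVec, smul_smul]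
    exact ⟨_, rfl⟩
  -- the image of the pure vector
  let x0 : (Fin t → Fin k) → F := tp fun _ => w0
  let R : Fin t → Matrix (Fin k) (Fin k) F := fun i => θ (σ i) (eM ω w0 (-z))
  have hx0 : g.val *ᵥ x0 = pm R *ᵥ (g.val *ᵥ x0) := by
    have h1 : pm (fun _ : Fin t => eM ω w0 (-z)) *ᵥ x0 = x0 := by
      show pm (fun _ : Fin t => eM ω w0 (-z)) *ᵥ (tp fun _ => w0) = tp fun _ => w0
      rw [pm_mulVec]
      congr 1
      funext i
      exact hxz w0
    conv_lhs => rw [← h1]
    rw [hCPM, hCpm]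
  have hx0' : ∃ m : F, g.val *ᵥ x0 = m • tp fun i => U (σ i) w0 := by
    rw [hx0]
    generalize g.val *ᵥ x0 = v
    have h1 : v = ∑ b, v b • (Pi.single b 1 : (Fin t → Fin k) → F) := pi_eq_sum_univ' v
    rw [h1]
    have h2 : ∀ s : Finset (Fin t → Fin k), ∃ m : F,
        pm R *ᵥ (∑ b ∈ s, v b • (Pi.single b 1 : (Fin t → Fin k) → F)) = m • tp fun i => U (σ i) w0 := by
      intro s
      induction s using Finset.induction_on with
      | empty => exact ⟨0, by rw [Finset.sum_empty, Matrix.mulVec_zero, zero_smul]⟩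
      | insert b s hb ih =>
        obtain ⟨m, hm⟩ := ih
        have h3 : ∃ m' : F, pm R *ᵥ (Pi.single b 1 : (Fin t → Fin k) → F) = m' • tp fun i => U (σ i) w0 := by
          rw [single_eq_tp, pm_mulVec]
          choose m' hm' using fun i => hR (σ i) (Pi.single (b i) 1)
          refine ⟨∏ i, m' i, ?_⟩
          funext a
          simp only [tp_apply, R, hm', Pi.smul_apply, smul_eq_mul, Finset.prod_mul_distrib]
        obtain ⟨m', hm'⟩ := h3
        refine ⟨v b * m' + m, ?_⟩
        rw [Finset.sum_insert hb, Matrix.mulVec_add, hm, Matrix.mulVec_smul, hm', smul_smul, add_smul]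
    exact h2 Finset.univ
  obtain ⟨m, hm⟩ := hx0'
  have hgne : ∀ v, v ≠ 0 → g.val *ᵥ v ≠ 0 := by
    intro v hv h
    apply hv
    have h1 : (g⁻¹).val *ᵥ (g.val *ᵥ v) = v := by rw [Matrix.mulVec_mulVec, hig, Matrix.one_mulVec]
    rw [← h1, h, Matrix.mulVec_zero]
  have hm0 : m ≠ 0 := by
    rintro rfl
    rw [zero_smul] at hm
    exact hgne x0 (tp_ne_zero fun _ => hw0) hm
  -- the linear maps
  let i0 : Fin t := ⟨0, ht⟩
  let L : Fin t → Module.End F (Fin k → F) := fun i =>
    (if i = i0 then m else 1) • LinearMap.mk ⟨fun x => θ (σ i) (eM ω x (-z)) *ᵥ U (σ i) w0, fun x y => by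
      have h1 : eM ω (x + y) (-z) = eM ω x (-z) + eM ω y (-z) := mat_ext fun v => by
        rw [Matrix.add_mulVec, eM_mulVec, eM_mulVec, eM_mulVec, smul_add]
      rw [h1, hθadd, Matrix.add_mulVec]⟩ (fun c x => by
      have h1 : eM ω (c • x) (-z) = c • eM ω x (-z) := (eM_smul c x (-z)).symm
      show θ (σ i) (eM ω (c • x) (-z)) *ᵥ U (σ i) w0 = c • (θ (σ i) (eM ω x (-z)) *ᵥ U (σ i) w0)
      rw [h1, hθsmul, Matrix.smul_mulVec])
  have hL : ∀ xs : Fin t → (Fin k → F), g.val *ᵥ tp xs = tp fun i => L i (xs (σ i)) := by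
    intro xs
    have h1 : tp xs = pm (fun i => eM ω (xs i) (-z)) *ᵥ x0 := by
      show tp xs = pm (fun i => eM ω (xs i) (-z)) *ᵥ tp fun _ => w0
      rw [pm_mulVec]
      congr 1
      funext i
      exact (hxz _).symm
    rw [h1, hCPM, hCpm, hm, Matrix.mulVec_smul, pm_mulVec]
    funext a
    have h2 : ∀ i, L i (xs (σ i)) = (if i = i0 then m else 1) • (θ (σ i) (eM ω (xs (σ i)) (-z)) *ᵥ U (σ i) w0) :=
      fun i => rfl
    simp only [tp_apply, h2, Pi.smul_apply, smul_eq_mul, Finset.prod_mul_distrib]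
    congr 1
    rw [Finset.prod_ite_eq' Finset.univ i0, if_pos (Finset.mem_univ _)]
  have hLinj : ∀ i, Function.Injective (L i) := by
    intro i
    rw [injective_iff_map_eq_zero]
    intro x hx
    by_contra hx0
    have h1 : g.val *ᵥ tp (Function.update (fun _ => w0) (σ i) x) ≠ 0 := by
      refine hgne _ (tp_ne_zero fun j => ?_)
      by_cases hj : j = σ i
      · subst hj; rw [Function.update_self]; exact hx0
      · rw [Function.update_of_ne hj]; exact hw0
    apply h1
    rw [hL]
    funext a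
    rw [tp_apply, Finset.prod_eq_zero (Finset.mem_univ i)]
    · rfl
    · rw [Function.update_self, hx]; rfl
  let Le : ∀ i, (Fin k → F) ≃ₗ[F] (Fin k → F) := fun i => LinearEquiv.ofInjectiveEndo (L i) (hLinj i)
  refine ⟨fun i => ⟨LinearMap.toMatrix' (L i), LinearMap.toMatrix' (Le i).symm.toLinearMap, ?_, ?_⟩, σ, fun xs => ?_⟩
  · rw [← LinearMap.toMatrix'_comp]
    have h1 : L i ∘ₗ (Le i).symm.toLinearMap = LinearMap.id := by
      refine LinearMap.ext fun x => ?_
      exact (Le i).apply_symm_apply x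
    rw [h1, LinearMap.toMatrix'_id]
  · rw [← LinearMap.toMatrix'_comp]
    have h1 : (Le i).symm.toLinearMap ∘ₗ L i = LinearMap.id := by
      refine LinearMap.ext fun x => ?_
      exact (Le i).symm_apply_apply x
    rw [h1, LinearMap.toMatrix'_id]
  · rw [hL]
    congr 1
    funext i
    show L i (xs (σ i)) = LinearMap.toMatrix' (L i) *ᵥ xs (σ i)
    rw [LinearMap.toMatrix'_mulVec]

/-- **Recognition**, membership form. -/
theorem recog_mem [NeZero k] (hω : ∀ w, ω w w = 0) (hn : ∀ w, (∀ x, ω w x = 0) → w = 0)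
    (hex : ∀ u v : Fin k → F, u ≠ 0 → v ≠ 0 → ∃ x, ω u x ≠ 0 ∧ ω v x ≠ 0) (ht : 0 < t)
    (g : GL (Fin t → Fin k) F)
    (hg : ∀ (i : Fin t) (w : Fin k → F), w ≠ 0 → ∃ (j : Fin t) (u : Fin k → F) (c : F),
      g.val * slot i (eM ω w w) * (g⁻¹).val = c • slot j (eM ω u u)) : g ∈ tensorWreathStandard k t F := by
  obtain ⟨gs, σ, h⟩ := recog hω hn hex ht g hg
  exact mem_of_isMonomialOn h

end Cfsg.Agent.H874
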