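import Mathlib

/-!
# Pairs of square zero elements, pairs of elements generating a `p`-group
-/

set_option autoImplicit false
set_option linter.unusedSimpArgs false
set_option linter.unusedVariables false

namespace Cfsg.Agent.H874

section Ring

variable {A : Type*} [Ring A]

/-- If `δ² = ε² = 0` and the commutator of `1 + δ`, `1 + ε` commutes with `δ` and `ε` then `δ ε δ = 0`. -/
theorem class_two {δ ε : A} (h2 : ∀ x : A, x + x = 0 → x = 0) (hδ : δ * δ = 0) (hε : ε * ε = 0)
    (h1 : (1 + δ) * (1 + ε) * (1 - δ) * (1 - ε) * δ = δ * ((1 + δ) * (1 + ε) * (1 - δ) * (1 - ε)))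
    (h3 : (1 + δ) * (1 + ε) * (1 - δ) * (1 - ε) * ε = ε * ((1 + δ) * (1 + ε) * (1 - δ) * (1 - ε))) :
    δ * (ε * δ) = 0 ∧ ε * (δ * ε) = 0 := by
  have hδ' : ∀ x, δ * (δ * x) = 0 := fun x => by rw [← mul_assoc, hδ, zero_mul]
  have hε' : ∀ x, ε * (ε * x) = 0 := fun x => by rw [← mul_assoc, hε, zero_mul]
  have hc : (1 + δ) * (1 + ε) * (1 - δ) * (1 - ε)
      = 1 + δ * ε - ε * δ + ε * (δ * ε) - δ * (ε * δ) + δ * (ε * (δ * ε)) := by
    simp only [mul_add, add_mul, mul_sub, sub_mul, mul_one, one_mul, mul_assoc, hδ, hδ', hε, hε', mul_zero, zero_mul]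
    abel
  rw [hc] at h1 h3
  simp only [mul_add, add_mul, mul_sub, sub_mul, mul_one, one_mul, mul_assoc, hδ, hδ', hε, hε', mul_zero,
    add_zero, sub_zero, zero_add] at h1 h3
  have k1 := congrArg (fun x => δ * x) h1
  simp only [mul_add, mul_sub, hδ, hδ', sub_zero, add_zero, zero_add, zero_sub, neg_eq_zero, mul_zero] at k1
  have k3 := congrArg (fun x => ε * x) h3
  simp only [mul_add, mul_sub, hε, hε', sub_zero, add_zero, zero_add, zero_sub, neg_eq_zero, mul_zero] at k3
  -- `k1 : δ (ε (δ (ε δ))) = 0`, `k3 : ε (δ (ε (δ ε))) = 0`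
  rw [k1] at h1
  rw [k3] at h3
  have e1 : δ * (ε * (δ * ε)) = δ * (ε * δ) + δ * (ε * δ) + ε * (δ * (ε * δ)) := by
    have : δ * (ε * (δ * ε)) - (δ * (ε * δ) + δ * (ε * δ) + ε * (δ * (ε * δ))) = 0 := by
      have := sub_eq_zero.2 h1
      have h4 : δ * (ε * (δ * ε)) - (δ * (ε * δ) + δ * (ε * δ) + ε * (δ * (ε * δ)))
        = -((δ + δ * (ε * δ) + ε * (δ * (ε * δ)) + 0) - (δ - δ * (ε * δ) + δ * (ε * (δ * ε)))) := by abel
      rw [h4]
      rw [neg_eq_zero]
      simpa using this
    exact sub_eq_zero.1 this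
  have e3 : ε * (δ * (ε * δ)) = ε * (δ * ε) + ε * (δ * ε) + δ * (ε * (δ * ε)) := by
    have : ε * (δ * (ε * δ)) - (ε * (δ * ε) + ε * (δ * ε) + δ * (ε * (δ * ε))) = 0 := by
      have := sub_eq_zero.2 h3
      have h4 : ε * (δ * (ε * δ)) - (ε * (δ * ε) + ε * (δ * ε) + δ * (ε * (δ * ε)))
        = ((ε - ε * (δ * ε) - δ * (ε * (δ * ε))) - (ε + ε * (δ * ε) - ε * (δ * (ε * δ)) + 0)) := by abel
      rw [h4]
      simpa using this
    exact sub_eq_zero.1 this
  have e4 : ε * (δ * ε) + δ * (ε * δ) = 0 := by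
    apply h2
    have := e3
    rw [e1] at this
    have h5 : ε * (δ * ε) + δ * (ε * δ) + (ε * (δ * ε) + δ * (ε * δ))
      = (ε * (δ * ε) + ε * (δ * ε) + (δ * (ε * δ) + δ * (ε * δ) + ε * (δ * (ε * δ)))) - ε * (δ * (ε * δ)) := by abel
    rw [h5, ← this, sub_self]
  have e5 : δ * (ε * (δ * ε)) = 0 := by
    have := congrArg (fun x => δ * x) e4
    simpa only [mul_add, hδ', mul_zero, add_zero] using this
  have e6 : ε * (δ * (ε * δ)) = 0 := by
    have := congrArg (fun x => ε * x) e4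
    simpa only [mul_add, hε', mul_zero, zero_add] using this
  rw [e5, e6, add_zero] at e1
  have e7 := h2 _ e1.symm
  rw [e7, add_zero] at e4
  exact ⟨e7, e4⟩

end Ring

section PGroup

open Subgroup

variable {G : Type*} [Group G] {p : ℕ} [Fact p.Prime]

theorem closure_conj_lt {x y : G} [Finite (closure ({x, y} : Set G))]
    (hp : IsPGroup p (closure ({x, y} : Set G))) (hxy : x * y ≠ y * x) :
    closure ({x, y * x * y⁻¹} : Set G) < closure ({x, y} : Set G) := by
  have hx : x ∈ closure ({x, y} : Set G) := subset_closure (by simp)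
  have hy : y ∈ closure ({x, y} : Set G) := subset_closure (by simp)
  have hle : closure ({x, y * x * y⁻¹} : Set G) ≤ closure ({x, y} : Set G) := by
    rw [closure_le]
    rintro z (rfl | rfl)
    · exact hx
    · exact mul_mem (mul_mem hy hx) (inv_mem hy)
  refine lt_of_le_of_ne hle ?_
  intro heq
  set K := closure ({x, y} : Set G) with hK
  have hne : zpowers (⟨x, hx⟩ : K) ≠ ⊤ := by
    intro h
    have hy' : (⟨y, hy⟩ : K) ∈ zpowers (⟨x, hx⟩ : K) := by rw [h]; exact mem_top _
    obtain ⟨n, hn⟩ := hy'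
    have h1 : x ^ n = y := congrArg Subtype.val hn
    apply hxy
    rw [← h1, ← zpow_one_add, ← zpow_add_one, add_comm]
  obtain ⟨N, hN, hxN⟩ := (eq_top_or_exists_le_coatom (zpowers (⟨x, hx⟩ : K))).resolve_left hne
  have hnil : Group.IsNilpotent K := hp.isNilpotent
  have hNn : N.Normal := Subgroup.NormalizerCondition.normal_of_coatom N (Group.normalizerCondition_of_isNilpotent) hN
  have h1 : (⟨x, hx⟩ : K) ∈ N := hxN (mem_zpowers _)
  have h2 : (⟨y, hy⟩ * ⟨x, hx⟩ * (⟨y, hy⟩)⁻¹ : K) ∈ N := hNn.conj_mem _ h1 _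
  have h3 : closure ({x, y * x * y⁻¹} : Set G) ≤ N.map K.subtype := by
    rw [closure_le]
    rintro z (rfl | rfl)
    · exact ⟨_, h1, rfl⟩
    · exact ⟨_, h2, rfl⟩
  rw [heq] at h3
  apply hN.1
  rw [eq_top_iff]
  rintro z -
  obtain ⟨z', hz', h4⟩ := h3 z.2
  have : z' = z := Subtype.ext h4
  rwa [← this]

/-- In a conjugation invariant set, a noncommuting pair generating a `p`-group gives a noncommuting pair generating a
group of class two. -/
theorem exists_class_two (M : Subgroup G) [Finite M] (D : Set G) (hDM : ∀ x ∈ D, x ∈ M)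
    (hD : ∀ g ∈ M, ∀ x ∈ D, g * x * g⁻¹ ∈ D) :
    ∀ (n : ℕ) (x y : G), x ∈ D → y ∈ D → Nat.card (closure ({x, y} : Set G)) ≤ n →
      IsPGroup p (closure ({x, y} : Set G)) → x * y ≠ y * x →
      ∃ x' ∈ D, ∃ y' ∈ D, x' * y' ≠ y' * x' ∧ Commute (x' * y' * x'⁻¹ * y'⁻¹) x' ∧
        Commute (x' * y' * x'⁻¹ * y'⁻¹) y' := by
  intro n
  induction n with
  | zero =>
    intro x y hx hy hcard
    have : closure ({x, y} : Set G) ≤ M := by
      rw [closure_le]
      rintro z (rfl | rfl)
      · exact hDM _ hx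
      · exact hDM _ hy
    have : Finite (closure ({x, y} : Set G)) := Finite.of_injective _ (Subgroup.inclusion_injective this)
    have := Nat.card_pos (α := closure ({x, y} : Set G))
    omega
  | succ n ih =>
    have key : ∀ x y : G, x ∈ D → y ∈ D → Nat.card (closure ({x, y} : Set G)) ≤ n + 1 →
      IsPGroup p (closure ({x, y} : Set G)) → x * y ≠ y * x → ¬ Commute x (y * x * y⁻¹) →
      ∃ x' ∈ D, ∃ y' ∈ D, x' * y' ≠ y' * x' ∧ Commute (x' * y' * x'⁻¹ * y'⁻¹) x' ∧
        Commute (x' * y' * x'⁻¹ * y'⁻¹) y' := by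
      intro x y hx hy hcard hp hxy hne
      have hle : closure ({x, y} : Set G) ≤ M := by
        rw [closure_le]
        rintro z (rfl | rfl)
        · exact hDM _ hx
        · exact hDM _ hy
      have hfin : Finite (closure ({x, y} : Set G)) := Finite.of_injective _ (Subgroup.inclusion_injective hle)
      have hlt := closure_conj_lt hp hxy
      refine ih x (y * x * y⁻¹) hx (hD y (hDM y hy) x hx) ?_ (hp.to_le hlt.le) hne
      have h1 : Nat.card (closure ({x, y * x * y⁻¹} : Set G)) < Nat.card (closure ({x, y} : Set G)) :=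
        Set.ncard_lt_ncard (s := (closure ({x, y * x * y⁻¹} : Set G) : Set G)) hlt
      omega
    intro x y hx hy hcard hp hxy
    by_cases c1 : Commute x (y * x * y⁻¹)
    · by_cases c2 : Commute y (x * y * x⁻¹)
      · refine ⟨x, hx, y, hy, hxy, ?_, ?_⟩
        · have h1 : x * y * x⁻¹ * y⁻¹ = x * (y * x * y⁻¹)⁻¹ := by group
          rw [h1]
          exact (Commute.refl x).mul_left c1.symm.inv_left
        · exact c2.symm.mul_left (Commute.refl y).inv_left
      · have e : ({y, x} : Set G) = {x, y} := Set.pair_comm _ _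
        exact key y x hy hx (by rw [e]; exact hcard) (by rw [e]; exact hp) (Ne.symm hxy) c2
    · exact key x y hx hy hcard hp hxy c1

end PGroup

end Cfsg.Agent.H874
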