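import Mathlib

/-!
# Slots: `V = W ⊗ W'` with `W` symplectic

`Slot F W W' V`: a decomposition `V = W ⊗ W'` given by `i w : y ↦ w ⊗ y` and the contractions
`c w : x ⊗ y ↦ ω(w, x) y`, for a symplectic form `ω` on `W`. `Δ w = i w ∘ c w`, `tv w l = 1 + l Δ w`.
-/

set_option autoImplicit false
set_option linter.unusedSimpArgs false
set_option linter.unusedVariables false

namespace Cfsg.Agent.H874

/-- `V = W ⊗ W'` with `W` symplectic. -/
structure Slot (F W W' V : Type*) [Field F] [AddCommGroup W] [Module F W] [AddCommGroup W'] [Module F W']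
    [AddCommGroup V] [Module F V] where
  ω : W →ₗ[F] W →ₗ[F] F
  alt : ∀ w, ω w w = 0
  nondeg : ∀ w, (∀ x, ω w x = 0) → w = 0
  i : W →ₗ[F] W' →ₗ[F] V
  c : W →ₗ[F] V →ₗ[F] W'
  ci : ∀ w x y, c w (i x y) = ω w x • y
  c_inj : ∀ v, (∀ w, c w v = 0) → v = 0
  i_span : ∀ v : V, v ∈ Submodule.span F {z : V | ∃ w y, z = i w y}

namespace Slot

variable {F W W' V : Type*} [Field F] [AddCommGroup W] [Module F W] [AddCommGroup W'] [Module F W']
    [AddCommGroup V] [Module F V] (S : Slot F W W' V)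

theorem skew (x y : W) : S.ω x y = - S.ω y x := by
  have h := S.alt (x + y)
  simp only [map_add, LinearMap.add_apply, S.alt, zero_add, add_zero] at h
  exact eq_neg_of_add_eq_zero_left (by rw [add_comm]; exact h)

theorem perp_comm {x y : W} (h : S.ω x y = 0) : S.ω y x = 0 := by rw [S.skew, h, neg_zero]

/-- `Δ w = i w ∘ c w`. -/
def Δ (w : W) : Module.End F V := S.i w ∘ₗ S.c w

theorem Δ_apply (w : W) (x : V) : S.Δ w x = S.i w (S.c w x) := rfl

theorem exists_pair {w : W} (hw : w ≠ 0) : ∃ u, S.ω w u = 1 := by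
  by_contra hcon
  push Not at hcon
  refine hw (S.nondeg w fun x => ?_)
  by_contra hx
  refine hcon ((S.ω w x)⁻¹ • x) ?_
  rw [map_smul, smul_eq_mul, inv_mul_cancel₀ hx]

theorem i_injective {w : W} (hw : w ≠ 0) {y y' : W'} (h : S.i w y = S.i w y') : y = y' := by
  obtain ⟨u, hu⟩ := S.exists_pair hw
  have h1 := congrArg (S.c u) h
  rw [S.ci, S.ci, S.skew, hu, neg_smul, neg_smul, one_smul, one_smul] at h1
  exact neg_injective h1

/-- Linear maps on `V` are determined by their restrictions to the `w ⊗ W'`. -/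
theorem ext_i {X : Type*} [AddCommGroup X] [Module F X] {g h : V →ₗ[F] X}
    (H : ∀ w y, g (S.i w y) = h (S.i w y)) : g = h := by
  ext v
  have hv := S.i_span v
  induction hv using Submodule.span_induction with
  | mem x hx =>
    obtain ⟨w, y, rfl⟩ := hx
    exact H w y
  | zero => rw [map_zero, map_zero]
  | add x y _ _ hx hy => rw [map_add, map_add, hx, hy]
  | smul a x _ hx => rw [map_smul, map_smul, hx]

theorem ext_c {x y : V} (H : ∀ w, S.c w x = S.c w y) : x = y := by
  rw [← sub_eq_zero]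
  refine S.c_inj _ fun w => ?_
  rw [map_sub, H, sub_self]

/-- If all contractions by `v ⟂ b` kill `x` then `x ∈ b ⊗ W'`. -/
theorem eq_i_of_perp {b b' : W} (hb : S.ω b b' = 1) {x : V} (h : ∀ v, S.ω b v = 0 → S.c v x = 0) :
    x = - S.i b (S.c b' x) := by
  refine S.ext_c fun v => ?_
  have h1 : S.c (v - S.ω b v • b') x = 0 := by
    refine h _ ?_
    rw [map_sub, map_smul, hb, smul_eq_mul, mul_one, sub_self]
  rw [map_sub, LinearMap.sub_apply, map_smul, LinearMap.smul_apply, sub_eq_zero] at h1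
  rw [h1, map_neg, S.ci, S.skew v b, neg_smul, neg_neg]

/-- If `g` kills all `v ⊗ W'`, `v ⟂ b`, then `g = (g ∘ i b') ∘ c b`. -/
theorem eq_comp_c {X : Type*} [AddCommGroup X] [Module F X] {g : V →ₗ[F] X} {b b' : W}
    (hb : S.ω b b' = 1) (h : ∀ v, S.ω b v = 0 → ∀ y, g (S.i v y) = 0) (x : V) :
    g x = g (S.i b' (S.c b x)) := by
  have : g = (g ∘ₗ S.i b') ∘ₗ S.c b := by
    refine S.ext_i fun v y => ?_
    have h1 : g (S.i (v - S.ω b v • b') y) = 0 := by
      refine h _ ?_ y
      rw [map_sub, map_smul, hb, smul_eq_mul, mul_one, sub_self]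
    rw [map_sub, LinearMap.sub_apply, map_smul, LinearMap.smul_apply, map_sub, sub_eq_zero] at h1
    rw [h1, LinearMap.comp_apply, LinearMap.comp_apply, S.ci, map_smul, map_smul, map_smul]
  exact LinearMap.congr_fun this x

theorem Δ_sq (w : W) (x : V) : S.Δ w (S.Δ w x) = 0 := by
  rw [Δ_apply, Δ_apply, S.ci, S.alt, zero_smul, map_zero]

theorem Δ_smul (a : F) (w : W) : S.Δ (a • w) = (a * a) • S.Δ w := by
  ext x
  simp only [Δ_apply, map_smul, LinearMap.smul_apply, smul_smul]

theorem Δ_mul_Δ_of_perp {w x : W} (h : S.ω w x = 0) : S.Δ w * S.Δ x = 0 := by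
  ext v
  show S.i w (S.c w (S.i x (S.c x v))) = 0
  rw [S.ci, h, zero_smul, map_zero]

/-- The transvection `1 + l Δ w`. -/
def tv (w : W) (l : F) : (Module.End F V)ˣ where
  val := 1 + l • S.Δ w
  inv := 1 - l • S.Δ w
  val_inv := by
    have h : S.Δ w * S.Δ w = 0 := S.Δ_mul_Δ_of_perp (S.alt w)
    rw [add_mul, mul_sub, mul_sub, one_mul, one_mul, mul_one, smul_mul_smul_comm, h, smul_zero]
    abel
  inv_val := by
    have h : S.Δ w * S.Δ w = 0 := S.Δ_mul_Δ_of_perp (S.alt w)
    rw [sub_mul, mul_add, mul_add, one_mul, one_mul, mul_one, smul_mul_smul_comm, h, smul_zero]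
    abel

theorem coe_tv (w : W) (l : F) : ((S.tv w l : (Module.End F V)ˣ) : Module.End F V) = 1 + l • S.Δ w := rfl

theorem coe_tv_inv (w : W) (l : F) :
    (((S.tv w l)⁻¹ : (Module.End F V)ˣ) : Module.End F V) = 1 - l • S.Δ w := rfl

theorem tv_apply (w : W) (l : F) (x : V) :
    ((S.tv w l : (Module.End F V)ˣ) : Module.End F V) x = x + l • S.i w (S.c w x) := rfl

theorem tv_inv_apply (w : W) (l : F) (x : V) :
    (((S.tv w l)⁻¹ : (Module.End F V)ˣ) : Module.End F V) x = x - l • S.i w (S.c w x) := rfl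

theorem tv_neg (w : W) (l : F) : S.tv w (-l) = (S.tv w l)⁻¹ := by
  apply Units.ext
  rw [coe_tv, coe_tv_inv, neg_smul, sub_eq_add_neg]

theorem tv_add (w : W) (l l' : F) : S.tv w (l + l') = S.tv w l * S.tv w l' := by
  apply Units.ext
  have h : S.Δ w * S.Δ w = 0 := S.Δ_mul_Δ_of_perp (S.alt w)
  rw [Units.val_mul, coe_tv, coe_tv, coe_tv, add_mul, mul_add, mul_add, one_mul, one_mul, mul_one,
    smul_mul_smul_comm, h, smul_zero, add_smul]
  abel

theorem tv_smul (a : F) (w : W) (l : F) : S.tv (a • w) l = S.tv w (l * (a * a)) := by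
  apply Units.ext
  rw [coe_tv, coe_tv, Δ_smul, smul_smul]

/-- `S_{v,w} = v ⊗ ω(w, ·) + w ⊗ ω(v, ·)`, on `V`. -/
def Sv (w v : W) : Module.End F V := S.i v ∘ₗ S.c w + S.i w ∘ₗ S.c v

theorem Sv_apply (w v : W) (x : V) : S.Sv w v x = S.i v (S.c w x) + S.i w (S.c v x) := rfl

theorem Δ_add (w v : W) : S.Δ (w + v) = S.Δ w + S.Δ v + S.Sv w v := by
  ext x
  simp only [Δ_apply, Sv_apply, map_add, LinearMap.add_apply]
  abel

theorem Sv_smul_self (w : W) (a : F) : S.Sv w (a • w) = (2 * a) • S.Δ w := by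
  ext x
  simp only [Δ_apply, Sv_apply, map_smul, LinearMap.smul_apply, two_mul, add_smul, LinearMap.add_apply]

/-- The element `1 + S_{v,w}` for `v ⟂ w`. -/
def sg (w v : W) (h : S.ω w v = 0) : (Module.End F V)ˣ where
  val := 1 + S.Sv w v
  inv := 1 - S.Sv w v
  val_inv := by
    have h' : S.ω v w = 0 := S.perp_comm h
    ext x
    simp only [Module.End.mul_apply, LinearMap.add_apply, LinearMap.sub_apply, Module.End.one_apply, Sv_apply,
      map_sub, map_add, S.ci, h, h', S.alt, zero_smul, map_zero]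
    abel
  inv_val := by
    have h' : S.ω v w = 0 := S.perp_comm h
    ext x
    simp only [Module.End.mul_apply, LinearMap.add_apply, LinearMap.sub_apply, Module.End.one_apply, Sv_apply,
      map_add, S.ci, h, h', S.alt, zero_smul, map_zero]
    abel

theorem coe_sg (w v : W) (h : S.ω w v = 0) :
    ((S.sg w v h : (Module.End F V)ˣ) : Module.End F V) = 1 + S.Sv w v := rfl

theorem coe_sg_inv (w v : W) (h : S.ω w v = 0) :
    (((S.sg w v h)⁻¹ : (Module.End F V)ˣ) : Module.End F V) = 1 - S.Sv w v := rfl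

theorem sg_eq (w v : W) (h : S.ω w v = 0) :
    S.sg w v h = S.tv (w + v) 1 * S.tv w (-1) * S.tv v (-1) := by
  have h' : S.ω v w = 0 := S.perp_comm h
  apply Units.ext
  ext x
  simp only [Units.val_mul, coe_sg, Module.End.mul_apply, LinearMap.add_apply, Module.End.one_apply, Sv_apply,
    S.tv_apply, map_add, LinearMap.add_apply, S.ci, h, h', S.alt, zero_smul, map_zero,
    one_smul, neg_smul, map_neg, neg_zero]
  abel

end Slot

end Cfsg.Agent.H874
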