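import Cfsg.Agent.H874.SlotAlg
import Cfsg.Agent.PLocal.QuadraticDickson

/-!
# Two quadratic elements not generating a `p`-group: an involution
-/

set_option autoImplicit false
set_option linter.unusedSimpArgs false
set_option linter.unusedVariables false

namespace Cfsg.Agent.H874

open Subgroup

variable {F V : Type*} [Field F] [AddCommGroup V] [Module F V]

/-- The action of the units of `End V` on the group `V`. -/
def actHom : (Module.End F V)ˣ →* MulAut (Multiplicative V) where
  toFun g :=
    { toFun := fun x => Multiplicative.ofAdd ((g : Module.End F V) (Multiplicative.toAdd x))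
      invFun := fun x => Multiplicative.ofAdd (((g⁻¹ : (Module.End F V)ˣ) : Module.End F V) (Multiplicative.toAdd x))
      left_inv := fun x => by
        show Multiplicative.ofAdd ((((g⁻¹ : (Module.End F V)ˣ) : Module.End F V) * (g : Module.End F V))
          (Multiplicative.toAdd x)) = x
        rw [← Units.val_mul, inv_mul_cancel]
        rfl
      right_inv := fun x => by
        show Multiplicative.ofAdd (((g : Module.End F V) * ((g⁻¹ : (Module.End F V)ˣ) : Module.End F V))
          (Multiplicative.toAdd x)) = x
        rw [← Units.val_mul, mul_inv_cancel]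
        rfl
      map_mul' := fun x y => by
        show Multiplicative.ofAdd ((g : Module.End F V) (Multiplicative.toAdd x + Multiplicative.toAdd y)) = _
        rw [map_add]
        rfl }
  map_one' := rfl
  map_mul' g h := rfl

theorem actHom_apply (g : (Module.End F V)ˣ) (x : Multiplicative V) :
    actHom g x = Multiplicative.ofAdd ((g : Module.End F V) (Multiplicative.toAdd x)) := rfl

theorem actHom_injective : Function.Injective (actHom (F := F) (V := V)) := by
  intro g h hgh
  apply Units.ext
  ext x
  have := congrArg (fun f : MulAut (Multiplicative V) => Multiplicative.toAdd (f (Multiplicative.ofAdd x))) hgh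
  exact this

theorem exists_involution {p : ℕ} [Fact p.Prime] [CharP F p] (hp2 : p ≠ 2) [Finite V] {d e : (Module.End F V)ˣ}
    (hd : ∀ x, (d : Module.End F V) ((d : Module.End F V) x - x) = (d : Module.End F V) x - x)
    (he : ∀ x, (e : Module.End F V) ((e : Module.End F V) x - x) = (e : Module.End F V) x - x)
    (hnp : ¬ IsPGroup p (closure ({d, e} : Set (Module.End F V)ˣ))) :
    ∃ z ∈ closure ({d, e} : Set (Module.End F V)ˣ), z ≠ 1 ∧ z * z = 1 := by
  classical
  set K := closure ({d, e} : Set (Module.End F V)ˣ) with hK
  have hdK : d ∈ K := subset_closure (by simp)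
  have heK : e ∈ K := subset_closure (by simp)
  have hchar : ∀ x : V, p • x = 0 := by
    intro x
    rw [← Nat.cast_smul_eq_nsmul F, CharP.cast_eq_zero, zero_smul]
  have hP : IsPGroup p (Multiplicative V) := by
    intro x
    refine ⟨1, ?_⟩
    rw [pow_one]
    exact hchar (Multiplicative.toAdd x)
  have hfinE : Finite (Module.End F V) := Finite.of_injective (fun f : Module.End F V => (f : V → V)) DFunLike.coe_injective
  have hfin : Finite (Module.End F V)ˣ := Finite.of_injective _ Units.val_injective
  have hgen : closure ({⟨d, hdK⟩, ⟨e, heK⟩} : Set K) = ⊤ := by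
    rw [eq_top_iff]
    have h1 : (closure ({⟨d, hdK⟩, ⟨e, heK⟩} : Set K)).map K.subtype = K := by
      rw [MonoidHom.map_closure, Set.image_pair]
      exact hK.symm
    rintro ⟨x, hx⟩ -
    have hx' := hx
    rw [← h1] at hx'
    obtain ⟨y, hy, h2⟩ := hx'
    have : y = ⟨x, hx⟩ := Subtype.ext h2
    rwa [← this]
  obtain ⟨W, ee, K₁, σ, -, hσ, -⟩ := Cfsg.Agent.PLocal.QuadraticDickson.exists_natural_section hp2 hP
    ((actHom (F := F) (V := V)).comp K.subtype) ⟨d, hdK⟩ ⟨e, heK⟩ hgen
    (by
      intro x
      have h1 := hd (Multiplicative.toAdd x)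
      show Multiplicative.ofAdd ((d : Module.End F V) (-(Multiplicative.toAdd x)
        + (d : Module.End F V) (Multiplicative.toAdd x)))
        = Multiplicative.ofAdd (-(Multiplicative.toAdd x) + (d : Module.End F V) (Multiplicative.toAdd x))
      rw [neg_add_eq_sub, h1])
    (by
      intro x
      have h1 := he (Multiplicative.toAdd x)
      show Multiplicative.ofAdd ((e : Module.End F V) (-(Multiplicative.toAdd x)
        + (e : Module.End F V) (Multiplicative.toAdd x)))
        = Multiplicative.ofAdd (-(Multiplicative.toAdd x) + (e : Module.End F V) (Multiplicative.toAdd x))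
      rw [neg_add_eq_sub, h1])
    (by
      intro h
      apply hnp
      intro k
      obtain ⟨n, hn⟩ := h k
      refine ⟨n, ?_⟩
      have h1 : actHom ((k : (Module.End F V)ˣ) ^ p ^ n) = 1 := by
        rw [map_pow]
        exact hn
      have h2 : (k : (Module.End F V)ˣ) ^ p ^ n = 1 := by
        apply actHom_injective
        rw [h1, map_one]
      exact Subtype.ext h2)
  -- an element of order two of `SL₂(p)`
  have hneg : ((-1 : Matrix.SpecialLinearGroup (Fin 2) (ZMod p))) ≠ 1 := by
    intro h
    have h1 := congrArg (fun g : Matrix.SpecialLinearGroup (Fin 2) (ZMod p) => (g : Matrix (Fin 2) (Fin 2) (ZMod p)) 0 0) h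
    have h2 : (-1 : ZMod p) = 1 := by
      simpa using h1
    have h3 : ((2 : ℕ) : ZMod p) = 0 := by
      push_cast
      linear_combination -h2
    rw [ZMod.natCast_eq_zero_iff] at h3
    have h4 := (Nat.prime_dvd_prime_iff_eq (Fact.out : p.Prime) Nat.prime_two).1 h3
    exact hp2 h4
  have hord : orderOf (-1 : Matrix.SpecialLinearGroup (Fin 2) (ZMod p)) = 2 := by
    apply orderOf_eq_prime
    · rw [neg_one_sq]
    · exact hneg
  have hdvd : 2 ∣ Nat.card K := by
    have h1 : 2 ∣ Nat.card (Matrix.SpecialLinearGroup (Fin 2) (ZMod p)) := by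
      have h5 := _root_.orderOf_dvd_natCard (-1 : Matrix.SpecialLinearGroup (Fin 2) (ZMod p))
      rwa [hord] at h5
    exact (h1.trans (Subgroup.card_dvd_of_surjective σ hσ)).trans (Subgroup.card_subgroup_dvd_card K₁)
  obtain ⟨z, hz⟩ := exists_prime_orderOf_dvd_card' 2 hdvd
  refine ⟨z, z.2, ?_, ?_⟩
  · intro h
    have : z = 1 := Subtype.ext h
    rw [this, orderOf_one] at hz
    exact absurd hz (by norm_num)
  · have h1 : z ^ 2 = 1 := by rw [← hz]; exact pow_orderOf_eq_one z
    have h2 := congrArg Subtype.val h1
    rw [← pow_two]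
    exact h2

end Cfsg.Agent.H874
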