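import Cfsg.Agent.H874.SlotTr

/-!
# The slot lemma for `dim W = 2`, `q ≥ 5` odd
-/

set_option autoImplicit false
set_option linter.unusedSimpArgs false
set_option linter.unusedVariables false
set_option linter.unusedSectionVars false

namespace Cfsg.Agent.H874

open Subgroup

namespace Slot

variable {F W W' V : Type*} [Field F] [AddCommGroup W] [Module F W] [AddCommGroup W'] [Module F W']
    [AddCommGroup V] [Module F V] {S : Slot F W W' V}

/-- The torus element of a hyperbolic pair. -/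
theorem exists_torus {M : Subgroup (Module.End F V)ˣ} (htv : ∀ w l, S.tv w l ∈ M) {w u : W} (hwu : S.ω w u = 1)
    {a : F} (ha : a ≠ 0) : ∃ h ∈ M, (∀ y, (h : Module.End F V) (S.i w y) = a • S.i w y) ∧
      ∀ y, (h : Module.End F V) (S.i u y) = a⁻¹ • S.i u y := by
  have huw : S.ω u w = -1 := by rw [S.skew, hwu]
  let n : F → (Module.End F V)ˣ := fun b => S.tv w b * S.tv u b⁻¹ * S.tv w b
  have hn : ∀ b : F, b ≠ 0 → (∀ y, (n b : Module.End F V) (S.i w y) = - (b⁻¹ • S.i u y)) ∧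
      ∀ y, (n b : Module.End F V) (S.i u y) = b • S.i w y := by
    intro b hb
    constructor
    · intro y
      show ((S.tv w b * S.tv u b⁻¹ * S.tv w b : (Module.End F V)ˣ) : Module.End F V) (S.i w y) = _
      simp only [Units.val_mul, Module.End.mul_apply, S.tv_apply, S.ci, S.alt, hwu, huw, zero_smul, one_smul, neg_smul,
        map_zero, map_neg, map_add, map_smul, smul_zero, smul_neg, smul_add, add_zero, neg_neg]
      simp only [smul_smul, mul_inv_cancel₀ hb, one_smul]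
      abel
    · intro y
      show ((S.tv w b * S.tv u b⁻¹ * S.tv w b : (Module.End F V)ˣ) : Module.End F V) (S.i u y) = _
      simp only [Units.val_mul, Module.End.mul_apply, S.tv_apply, S.ci, S.alt, hwu, huw, zero_smul, one_smul, neg_smul,
        map_zero, map_neg, map_add, map_smul, smul_zero, smul_neg, smul_add, add_zero, zero_add, neg_neg]
      simp only [smul_smul, mul_inv_cancel₀ hb, inv_mul_cancel₀ hb, one_smul, mul_one]
      abel
  have hnM : ∀ b, n b ∈ M := fun b => M.mul_mem (M.mul_mem (htv _ _) (htv _ _)) (htv _ _)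
  refine ⟨n a * n (-1), M.mul_mem (hnM _) (hnM _), fun y => ?_, fun y => ?_⟩
  · rw [Units.val_mul, Module.End.mul_apply, (hn (-1) (by norm_num)).1, inv_neg, inv_one, neg_smul, one_smul, neg_neg,
      (hn a ha).2]
  · rw [Units.val_mul, Module.End.mul_apply, (hn (-1) (by norm_num)).2, neg_smul, one_smul, map_neg,
      (hn a ha).1, neg_neg]

theorem conj_tv_Δ (x a : W) (l : F) :
    ((S.tv x l : (Module.End F V)ˣ) : Module.End F V) * S.Δ a * (((S.tv x l)⁻¹ : (Module.End F V)ˣ) : Module.End F V)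
      = S.Δ (a + (l * S.ω x a) • x) := by
  ext v
  simp only [Module.End.mul_apply, S.tv_apply, S.tv_inv_apply, S.Δ_apply, map_sub, map_add, map_smul,
    LinearMap.add_apply, LinearMap.smul_apply, S.ci, S.skew a x]
  module

/-- Transitivity on nonzero vectors, `dim W = 2`. -/
theorem exists_trans {M : Subgroup (Module.End F V)ˣ} (htv : ∀ w l, S.tv w l ∈ M)
    (hW : ∀ w u, S.ω w u = 1 → ∀ x, x = S.ω w x • u - S.ω u x • w) {w b : W} (hw : w ≠ 0) (hb : b ≠ 0) :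
    ∃ s ∈ M, S.IsOp (s : Module.End F V) ∧ S.IsOp ((s⁻¹ : (Module.End F V)ˣ) : Module.End F V) ∧
      (s : Module.End F V) * S.Δ w * ((s⁻¹ : (Module.End F V)ˣ) : Module.End F V) = S.Δ b := by
  have key : ∀ w b : W, S.ω w b ≠ 0 → ∃ s ∈ M, S.IsOp (s : Module.End F V) ∧
      S.IsOp ((s⁻¹ : (Module.End F V)ˣ) : Module.End F V) ∧
      (s : Module.End F V) * S.Δ w * ((s⁻¹ : (Module.End F V)ˣ) : Module.End F V) = S.Δ b := by
    intro w b h
    refine ⟨S.tv (b - w) (-(S.ω w b)⁻¹), htv _ _, IsOp.tv _ _, IsOp.tv_inv _ _, ?_⟩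
    rw [conj_tv_Δ]
    congr 1
    rw [map_sub, LinearMap.sub_apply, S.alt, sub_zero, S.skew b w, neg_mul_neg, inv_mul_cancel₀ h, one_smul]
    abel
  by_cases h : S.ω w b = 0
  · obtain ⟨u, hu⟩ := S.exists_pair hw
    have hub : S.ω u b ≠ 0 := by
      intro h1
      apply hb
      rw [hW w u hu b, h, h1, zero_smul, zero_smul, sub_zero]
    obtain ⟨s, hs1, hs2, hs3, hs4⟩ := key w u (by rw [hu]; exact one_ne_zero)
    obtain ⟨s', hs1', hs2', hs3', hs4'⟩ := key u b hub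
    refine ⟨s' * s, M.mul_mem hs1' hs1, ?_, ?_, ?_⟩
    · rw [Units.val_mul]; exact hs2'.mul hs2
    · rw [mul_inv_rev, Units.val_mul]; exact hs3.mul hs3'
    · rw [← hs4', ← hs4, mul_inv_rev, Units.val_mul, Units.val_mul]
      simp only [mul_assoc]
  · exact key w b h

section Two

variable (hW : ∀ w u, S.ω w u = 1 → ∀ x, x = S.ω w x • u - S.ω u x • w)

include hW

theorem span_op (P : Module.End F V → Prop) (h2 : (2 : F) ≠ 0) {w u : W} (hwu : S.ω w u = 1)
    (h1 : P 1) (hΔ : ∀ b, b ≠ 0 → P (S.Δ b))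
    (hadd : ∀ X Y, P X → P Y → P (X + Y)) (hsmul : ∀ (l : F) X, P X → P (l • X)) {X : Module.End F V}
    (hX : S.IsOp X) : P X := by
  have huw := huw' hwu
  obtain ⟨α, β, γ, κ, rfl⟩ := eq_op hwu (hW w u hwu) hX
  have hw0 := wu_ne hwu
  have hu0 : u ≠ 0 := by
    rintro rfl
    rw [map_zero] at hwu
    exact zero_ne_one hwu
  have hwu0 : w + u ≠ 0 := by
    intro h
    have h5 : S.ω (w + u) u = 0 := by rw [h, map_zero, LinearMap.zero_apply]
    rw [map_add, LinearMap.add_apply, hwu, S.alt, add_zero] at h5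
    exact one_ne_zero h5
  have e1 : S.E u w - S.E w u = 1 := by
    ext x
    rw [Module.End.one_apply]
    exact (decomp hwu (hW w u hwu) x).symm
  have e2 : S.E u w + S.E w u = S.Δ (w + u) + (-1 : F) • S.Δ w + (-1 : F) • S.Δ u := by
    ext x
    simp only [LinearMap.add_apply, LinearMap.smul_apply, LinearMap.neg_apply, E_apply, S.Δ_apply, map_add, neg_smul,
      one_smul]
    abel
  have hS : P (S.E u w + S.E w u) := by
    rw [e2]
    exact hadd _ _ (hadd _ _ (hΔ _ hwu0) (hsmul _ _ (hΔ _ hw0))) (hsmul _ _ (hΔ _ hu0))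
  have p1 : P (S.E u w) := by
    have h3 : S.E u w = (2⁻¹ : F) • ((S.E u w + S.E w u) + 1) := by
      rw [← e1]
      have h4 : S.E u w + S.E w u + (S.E u w - S.E w u) = (2 : F) • S.E u w := by rw [two_smul]; abel
      rw [h4, smul_smul, inv_mul_cancel₀ h2, one_smul]
    rw [h3]
    exact hsmul _ _ (hadd _ _ hS h1)
  have p2 : P (S.E w u) := by
    have h3 : S.E w u = S.E u w + (-1 : F) • 1 := by rw [neg_smul, one_smul, ← e1]; abel
    rw [h3]
    exact hadd _ _ p1 (hsmul _ _ h1)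
  exact hadd _ _ (hadd _ _ (hadd _ _ (hsmul _ _ (hΔ w hw0)) (hsmul _ _ p2)) (hsmul _ _ p1)) (hsmul _ _ (hΔ u hu0))

theorem span_all (P : Module.End F V → Prop) (h2 : (2 : F) ≠ 0) {w u : W} (hwu : S.ω w u = 1)
    (h1 : ∀ X, S.IsCo X → P X) (hΔ : ∀ b, b ≠ 0 → ∀ Z : Module.End F W', P (S.i b ∘ₗ Z ∘ₗ S.c b))
    (hadd : ∀ X Y, P X → P Y → P (X + Y)) (hsmul : ∀ (l : F) X, P X → P (l • X)) (X : Module.End F V) : P X := by
  have huw := huw' hwu
  have hw0 := wu_ne hwu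
  have hu0 : u ≠ 0 := by
    rintro rfl
    rw [map_zero] at hwu
    exact zero_ne_one hwu
  have hwu0 : w + u ≠ 0 := by
    intro h
    have h5 : S.ω (w + u) u = 0 := by rw [h, map_zero, LinearMap.zero_apply]
    rw [map_add, LinearMap.add_apply, hwu, S.alt, add_zero] at h5
    exact one_ne_zero h5
  have e2 : ∀ Z : Module.End F W', S.i u ∘ₗ Z ∘ₗ S.c w + S.i w ∘ₗ Z ∘ₗ S.c u
      = S.i (w + u) ∘ₗ Z ∘ₗ S.c (w + u) + (-1 : F) • (S.i w ∘ₗ Z ∘ₗ S.c w) + (-1 : F) • (S.i u ∘ₗ Z ∘ₗ S.c u) := by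
    intro Z
    ext x
    simp only [LinearMap.add_apply, LinearMap.smul_apply, LinearMap.neg_apply, LinearMap.comp_apply, map_add, neg_smul,
      one_smul]
    abel
  have hS : ∀ Z : Module.End F W', P (S.i u ∘ₗ Z ∘ₗ S.c w + S.i w ∘ₗ Z ∘ₗ S.c u) := by
    intro Z
    rw [e2]
    exact hadd _ _ (hadd _ _ (hΔ _ hwu0 Z) (hsmul _ _ (hΔ _ hw0 Z))) (hsmul _ _ (hΔ _ hu0 Z))
  have hO : ∀ Z : Module.End F W', P (S.i u ∘ₗ Z ∘ₗ S.c w - S.i w ∘ₗ Z ∘ₗ S.c u) :=
    fun Z => h1 _ (isCo_one hwu (hW w u hwu) Z)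
  have p1 : ∀ Z : Module.End F W', P (S.i u ∘ₗ Z ∘ₗ S.c w) := by
    intro Z
    have h3 : S.i u ∘ₗ Z ∘ₗ S.c w = (2⁻¹ : F) • ((S.i u ∘ₗ Z ∘ₗ S.c w + S.i w ∘ₗ Z ∘ₗ S.c u)
        + (S.i u ∘ₗ Z ∘ₗ S.c w - S.i w ∘ₗ Z ∘ₗ S.c u)) := by
      have h4 : (S.i u ∘ₗ Z ∘ₗ S.c w + S.i w ∘ₗ Z ∘ₗ S.c u)
        + (S.i u ∘ₗ Z ∘ₗ S.c w - S.i w ∘ₗ Z ∘ₗ S.c u) = (2 : F) • (S.i u ∘ₗ Z ∘ₗ S.c w) := by rw [two_smul]; abel
      rw [h4, smul_smul, inv_mul_cancel₀ h2, one_smul]
    rw [h3]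
    exact hsmul _ _ (hadd _ _ (hS Z) (hO Z))
  have p2 : ∀ Z : Module.End F W', P (S.i w ∘ₗ Z ∘ₗ S.c u) := by
    intro Z
    have h3 : S.i w ∘ₗ Z ∘ₗ S.c u = S.i u ∘ₗ Z ∘ₗ S.c w + (-1 : F) • (S.i u ∘ₗ Z ∘ₗ S.c w - S.i w ∘ₗ Z ∘ₗ S.c u) := by
      rw [neg_smul, one_smul]; abel
    rw [h3]
    exact hadd _ _ (p1 Z) (hsmul _ _ (hO Z))
  have h3 : X = (S.i u ∘ₗ (S.c w ∘ₗ X ∘ₗ S.i u) ∘ₗ S.c w + (-1 : F) • (S.i u ∘ₗ (S.c w ∘ₗ X ∘ₗ S.i w) ∘ₗ S.c u))
      + ((-1 : F) • (S.i w ∘ₗ (S.c u ∘ₗ X ∘ₗ S.i u) ∘ₗ S.c w) + S.i w ∘ₗ (S.c u ∘ₗ X ∘ₗ S.i w) ∘ₗ S.c u) := by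
    ext x
    simp only [LinearMap.add_apply, LinearMap.smul_apply, LinearMap.neg_apply, LinearMap.comp_apply, neg_smul, one_smul]
    nth_rewrite 1 [decomp hwu (hW w u hwu) (X x)]
    nth_rewrite 1 [decomp hwu (hW w u hwu) x]
    nth_rewrite 3 [decomp hwu (hW w u hwu) x]
    simp only [map_sub, LinearMap.sub_apply]
    abel
  rw [h3]
  exact hadd _ _ (hadd _ _ (p1 _) (hsmul _ _ (hΔ _ hu0 _))) (hadd _ _ (hsmul _ _ (hΔ _ hw0 _)) (p2 _))

/-- A quadratic element of `M` commuting with `Δ w` is in the root group or in the commutant of the slot. -/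
theorem Good.comm_Δ [FiniteDimensional F V] [Nontrivial W'] {M : Subgroup (Module.End F V)ˣ} (hM : S.Good M) (h2 : (2 : F) ≠ 0)
    {a : F} (ha : a ≠ 0) (ha2 : a * a ≠ 1) {w : W} (hw : w ≠ 0) {e : (Module.End F V)ˣ} (he : e ∈ M)
    (hsq : ∀ x, (e : Module.End F V) ((e : Module.End F V) x - x) = (e : Module.End F V) x - x)
    (hc : (e : Module.End F V) * S.Δ w = S.Δ w * e) : (∃ l, e = S.tv w l) ∨ S.IsCo (e : Module.End F V) := by
  obtain ⟨u, hwu⟩ := S.exists_pair hw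
  have huw := huw' hwu
  have hW' := hW w u hwu
  have hc' : ∀ x, (e : Module.End F V) (S.i w (S.c w x)) = S.i w (S.c w ((e : Module.End F V) x)) :=
    fun x => LinearMap.congr_fun hc x
  let ζ : Module.End F W' := S.c w ∘ₗ (e : Module.End F V) ∘ₗ S.i u
  let η : Module.End F W' := S.c u ∘ₗ (e : Module.End F V) ∘ₗ S.i u
  let ζ' : Module.End F W' := S.c w ∘ₗ ((e⁻¹ : (Module.End F V)ˣ) : Module.End F V) ∘ₗ S.i u
  have hew : ∀ y, (e : Module.End F V) (S.i w y) = S.i w (ζ y) := by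
    intro y
    have h3 := hc' (S.i u y)
    rwa [S.ci, hwu, one_smul] at h3
  have heu : ∀ y, (e : Module.End F V) (S.i u y) = S.i u (ζ y) - S.i w (η y) := fun y =>
    decomp hwu hW' _
  have hc2 : ∀ x, ((e⁻¹ : (Module.End F V)ˣ) : Module.End F V) (S.i w (S.c w x))
      = S.i w (S.c w (((e⁻¹ : (Module.End F V)ˣ) : Module.End F V) x)) := by
    intro x
    have h3 := hc' (((e⁻¹ : (Module.End F V)ˣ) : Module.End F V) x)
    rw [apply_inv] at h3
    rw [← h3, inv_apply]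
  have heiw : ∀ y, ((e⁻¹ : (Module.End F V)ˣ) : Module.End F V) (S.i w y) = S.i w (ζ' y) := by
    intro y
    have h3 := hc2 (S.i u y)
    rwa [S.ci, hwu, one_smul] at h3
  have hζζ' : ∀ y, ζ (ζ' y) = y := by
    intro y
    refine S.i_injective hw ?_
    rw [← hew, ← heiw, apply_inv]
  obtain ⟨h, hh, hhw, hhu⟩ := exists_torus hM.tv_mem hwu ha
  have hhiw : ∀ y, ((h⁻¹ : (Module.End F V)ˣ) : Module.End F V) (S.i w y) = a⁻¹ • S.i w y := by
    intro y
    have h3 := inv_apply h (a⁻¹ • S.i w y)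
    rwa [map_smul, hhw, smul_smul, inv_mul_cancel₀ ha, one_smul] at h3
  have hhiu : ∀ y, ((h⁻¹ : (Module.End F V)ˣ) : Module.End F V) (S.i u y) = a • S.i u y := by
    intro y
    have h3 := inv_apply h (a • S.i u y)
    rwa [map_smul, hhu, smul_smul, mul_inv_cancel₀ ha, one_smul] at h3
  obtain ⟨l, hl⟩ := hM.h1 w hw (-((a * a - 1) • (ζ' ∘ₗ η))) (e⁻¹ * (h * e * h⁻¹))
    (M.mul_mem (M.inv_mem he) (M.mul_mem (M.mul_mem hh he) (M.inv_mem hh))) (by
      intro x
      nth_rewrite 1 2 [decomp hwu hW' x]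
      generalize S.c w x = y1
      generalize S.c u x = y2
      have k1 : ((e⁻¹ * (h * e * h⁻¹) : (Module.End F V)ˣ) : Module.End F V) (S.i w y2) = S.i w y2 := by
        simp only [Units.val_mul, Module.End.mul_apply]
        rw [hhiw, map_smul, hew, map_smul, hhw, smul_smul, inv_mul_cancel₀ ha, one_smul, ← hew, inv_apply]
      have k2 : ((e⁻¹ * (h * e * h⁻¹) : (Module.End F V)ˣ) : Module.End F V) (S.i u y1)
          = S.i u y1 - (a * a - 1) • S.i w (ζ' (η y1)) := by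
        simp only [Units.val_mul, Module.End.mul_apply]
        have k3 : (h : Module.End F V) ((e : Module.End F V) (((h⁻¹ : (Module.End F V)ˣ) : Module.End F V) (S.i u y1)))
            = (e : Module.End F V) (S.i u y1) - (a * a - 1) • S.i w (η y1) := by
          rw [hhiu, map_smul, heu, map_smul, map_sub, hhu, hhw, smul_sub, smul_smul, smul_smul, mul_inv_cancel₀ ha,
            one_smul, sub_smul, one_smul]
          abel
        rw [k3, map_sub, inv_apply, map_smul, heiw]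
      rw [map_sub, k1, k2]
      simp only [LinearMap.neg_apply, LinearMap.smul_apply, LinearMap.comp_apply, map_neg, map_smul]
      abel)
  have ha3 : a * a - 1 ≠ 0 := sub_ne_zero.2 ha2
  obtain ⟨m, hm⟩ : ∃ m : F, ∀ y, η y = m • ζ y := by
    refine ⟨-((a * a - 1)⁻¹ * l), fun y => ?_⟩
    have h3 : (a * a - 1) • ζ' (η y) = - (l • y) := by
      rw [← hl]
      simp only [LinearMap.neg_apply, LinearMap.smul_apply, LinearMap.comp_apply, neg_neg]
    have h4 : ζ' (η y) = -((a * a - 1)⁻¹ * l) • y := by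
      rw [neg_smul, mul_smul, ← smul_neg, ← h3, smul_smul, inv_mul_cancel₀ ha3, one_smul]
    rw [← hζζ' (η y), h4, map_smul]
  have q1 : ∀ y, ζ (ζ y - y) = ζ y - y := by
    intro y
    refine S.i_injective hw ?_
    have h3 := hsq (S.i w y)
    rw [hew, ← map_sub, hew] at h3
    exact h3
  have q2 : ∀ y, m • (ζ y - y) = 0 := by
    intro y
    have h3 := congrArg (S.c u) (hsq (S.i u y))
    rw [heu, hm] at h3
    have h4 : S.i u (ζ y) - S.i w (m • ζ y) - S.i u y = S.i u (ζ y - y) - m • S.i w (ζ y) := by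
      rw [map_sub, map_smul]; abel
    rw [h4, map_sub, map_smul, heu, hm, hew, q1] at h3
    simp only [map_sub, map_smul, S.ci, S.alt, huw, zero_smul, zero_sub, neg_smul, one_smul, smul_neg, neg_neg,
      sub_neg_eq_add] at h3
    -- m (ζ y - y) + m ζ ζ y = m ζ y
    have h5 : ζ (ζ y) = ζ y + ζ y - y := by
      have := q1 y
      rw [map_sub, sub_eq_iff_eq_add] at this
      rw [this]; abel
    rw [h5] at h3
    have h6 : (2 : F) • (m • (ζ y - y)) = 0 := by
      rw [← sub_eq_zero.2 h3]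
      module
    exact (smul_eq_zero.1 h6).resolve_left h2
  by_cases hm0 : m = 0
  · right
    have h3 : (e : Module.End F V) = S.i u ∘ₗ ζ ∘ₗ S.c w - S.i w ∘ₗ ζ ∘ₗ S.c u := by
      refine ext_wu hwu hW' (fun y => ?_) (fun y => ?_)
      · rw [hew]
        simp only [LinearMap.sub_apply, LinearMap.comp_apply, S.ci, S.alt, huw, zero_smul, map_zero, neg_smul, one_smul,
          map_neg, zero_sub, neg_neg]
      · rw [heu, hm, hm0, zero_smul, map_zero, sub_zero]
        simp only [LinearMap.sub_apply, LinearMap.comp_apply, S.ci, S.alt, hwu, zero_smul, map_zero, neg_smul, one_smul,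
          map_neg, sub_zero, neg_neg]
    rw [h3]
    exact isCo_one hwu hW' ζ
  · left
    have h3 : ∀ y, ζ y = y := fun y => sub_eq_zero.1 ((smul_eq_zero.1 (q2 y)).resolve_left hm0)
    refine ⟨-m, Units.ext ?_⟩
    refine ext_wu hwu hW' (fun y => ?_) (fun y => ?_)
    · rw [hew, S.tv_apply, S.ci, S.alt, zero_smul, map_zero, smul_zero, add_zero, h3]
    · rw [heu, S.tv_apply, S.ci, hwu, one_smul, hm, h3, map_smul, neg_smul, sub_eq_add_neg]

end Two

end Slot

end Cfsg.Agent.H874
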