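import Cfsg.Agent.H874.SlotP

/-!
# Two-dimensional slots: the algebra `End(W) ⊗ 1` and its commutant

Preparations for the slot lemma with `dim W = 2`.
-/

set_option autoImplicit false
set_option linter.unusedSimpArgs false
set_option linter.unusedVariables false
set_option linter.unusedSectionVars false

namespace Cfsg.Agent.H874

open Subgroup

namespace Slot

variable {F W W' V : Type*} [Field F] [AddCommGroup W] [Module F W] [AddCommGroup W'] [Module F W']
    [AddCommGroup V] [Module F V] (S : Slot F W W' V)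

/-- `X = T ⊗ 1`. -/
def IsOp (X : Module.End F V) : Prop := ∃ T : Module.End F W, ∀ w y, X (S.i w y) = S.i (T w) y

/-- `X = 1 ⊗ Z`. -/
def IsCo (X : Module.End F V) : Prop := ∃ Z : Module.End F W', ∀ w y, X (S.i w y) = S.i w (Z y)

/-- `E a b = i a ∘ c b`. -/
def E (a b : W) : Module.End F V := S.i a ∘ₗ S.c b

variable {S}

theorem E_apply (a b : W) (x : V) : S.E a b x = S.i a (S.c b x) := rfl

theorem IsOp.E (a b : W) : S.IsOp (S.E a b) := by
  refine ⟨(S.ω b).smulRight a, fun w y => ?_⟩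
  rw [E_apply, S.ci, LinearMap.smulRight_apply, map_smul, map_smul, LinearMap.smul_apply]

theorem IsOp.Δ (a : W) : S.IsOp (S.Δ a) := IsOp.E a a

theorem IsOp.add {X Y : Module.End F V} (hX : S.IsOp X) (hY : S.IsOp Y) : S.IsOp (X + Y) := by
  obtain ⟨T, hT⟩ := hX
  obtain ⟨T', hT'⟩ := hY
  exact ⟨T + T', fun w y => by rw [LinearMap.add_apply, hT, hT', LinearMap.add_apply, map_add, LinearMap.add_apply]⟩

theorem IsOp.smul (l : F) {X : Module.End F V} (hX : S.IsOp X) : S.IsOp (l • X) := by
  obtain ⟨T, hT⟩ := hX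
  exact ⟨l • T, fun w y => by rw [LinearMap.smul_apply, hT, LinearMap.smul_apply, map_smul, LinearMap.smul_apply]⟩

theorem IsOp.sub {X Y : Module.End F V} (hX : S.IsOp X) (hY : S.IsOp Y) : S.IsOp (X - Y) := by
  have h := hX.add (hY.smul (-1))
  rwa [neg_smul, one_smul, ← sub_eq_add_neg] at h

theorem IsOp.mul {X Y : Module.End F V} (hX : S.IsOp X) (hY : S.IsOp Y) : S.IsOp (X * Y) := by
  obtain ⟨T, hT⟩ := hX
  obtain ⟨T', hT'⟩ := hY
  exact ⟨T * T', fun w y => by rw [Module.End.mul_apply, hT', hT, Module.End.mul_apply]⟩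

theorem IsOp.one : S.IsOp 1 := ⟨1, fun w y => rfl⟩

theorem IsCo.add {X Y : Module.End F V} (hX : S.IsCo X) (hY : S.IsCo Y) : S.IsCo (X + Y) := by
  obtain ⟨T, hT⟩ := hX
  obtain ⟨T', hT'⟩ := hY
  exact ⟨T + T', fun w y => by rw [LinearMap.add_apply, hT, hT', LinearMap.add_apply, map_add]⟩

theorem IsCo.zero : S.IsCo 0 := ⟨0, fun w y => by rw [LinearMap.zero_apply, LinearMap.zero_apply, map_zero]⟩

theorem IsOp.comm {X Y : Module.End F V} (hX : S.IsOp X) (hY : S.IsCo Y) : X * Y = Y * X := by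
  obtain ⟨T, hT⟩ := hX
  obtain ⟨Z, hZ⟩ := hY
  refine S.ext_i fun w y => ?_
  rw [Module.End.mul_apply, Module.End.mul_apply, hZ, hT, hT, hZ]

theorem IsOp.tv (w : W) (l : F) : S.IsOp ((S.tv w l : (Module.End F V)ˣ) : Module.End F V) := by
  rw [S.coe_tv]
  exact IsOp.one.add ((IsOp.Δ w).smul l)

theorem IsOp.tv_inv (w : W) (l : F) : S.IsOp (((S.tv w l)⁻¹ : (Module.End F V)ˣ) : Module.End F V) := by
  rw [S.coe_tv_inv]
  exact IsOp.one.sub ((IsOp.Δ w).smul l)

section Two

variable {w u : W} (hwu : S.ω w u = 1) (hW : ∀ x, x = S.ω w x • u - S.ω u x • w)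

include hwu

theorem wu_ne : w ≠ 0 := by
  rintro rfl
  rw [map_zero, LinearMap.zero_apply] at hwu
  exact zero_ne_one hwu

theorem huw' : S.ω u w = -1 := by rw [S.skew, hwu]

include hW

/-- The decomposition of a vector. -/
theorem decomp (v : V) : v = S.i u (S.c w v) - S.i w (S.c u v) := by
  have huw := huw' hwu
  refine S.ext_c fun x => ?_
  nth_rewrite 2 [hW x]
  nth_rewrite 1 [hW x]
  simp only [map_sub, map_smul, LinearMap.sub_apply, LinearMap.smul_apply, S.ci, S.alt, hwu, huw, zero_smul, one_smul,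
    neg_smul, smul_neg, smul_zero, sub_zero, zero_sub, smul_sub, smul_smul, smul_eq_mul, sub_smul, mul_zero, mul_one,
    mul_neg, neg_neg]
  abel

theorem eq_op {X : Module.End F V} (hX : S.IsOp X) :
    ∃ α β γ κ : F, X = α • S.E w w + β • S.E w u + γ • S.E u w + κ • S.E u u := by
  have huw := huw' hwu
  obtain ⟨T, hT⟩ := hX
  -- `T w = - β w - κ u`, `T u = α w + γ u`
  refine ⟨- S.ω u (T u), S.ω u (T w), S.ω w (T u), - S.ω w (T w), ?_⟩
  ext x
  have h1 := decomp hwu hW x
  rw [h1]
  generalize S.c w x = y1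
  generalize S.c u x = y2
  simp only [LinearMap.add_apply, LinearMap.smul_apply, LinearMap.neg_apply, E_apply, map_sub, hT, S.ci, S.alt, hwu,
    huw, zero_smul, one_smul, neg_smul, map_zero, map_neg, smul_zero, sub_zero, zero_sub, smul_neg, neg_neg, add_zero,
    zero_add, smul_sub]
  rw [hW (T u), hW (T w)]
  simp only [map_sub, map_smul, LinearMap.sub_apply, LinearMap.smul_apply, S.alt, hwu, huw, smul_eq_mul, mul_one,
    mul_zero, sub_zero, zero_sub, mul_neg, neg_neg]
  abel

theorem isCo_one (Z : Module.End F W') : S.IsCo (S.i u ∘ₗ Z ∘ₗ S.c w - S.i w ∘ₗ Z ∘ₗ S.c u) := by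
  refine ⟨Z, fun x y => ?_⟩
  simp only [LinearMap.sub_apply, LinearMap.comp_apply, S.ci, map_smul]
  nth_rewrite 3 [hW x]
  rw [map_sub, map_smul, map_smul, LinearMap.sub_apply, LinearMap.smul_apply, LinearMap.smul_apply]

theorem ext_wu {X Y : Module.End F V} (h1 : ∀ y, X (S.i w y) = Y (S.i w y)) (h2 : ∀ y, X (S.i u y) = Y (S.i u y)) :
    X = Y := by
  refine S.ext_i fun x y => ?_
  rw [hW x, map_sub, map_smul, map_smul, LinearMap.sub_apply, LinearMap.smul_apply, LinearMap.smul_apply, map_sub,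
    map_sub, map_smul, map_smul, map_smul, map_smul, h1, h2]

/-- The commutant of the slot. -/
theorem isCo_of_comm {X : Module.End F V} (h1 : X * S.Δ w = S.Δ w * X) (h2 : X * S.Δ u = S.Δ u * X) : S.IsCo X := by
  have huw := huw' hwu
  have h1' : ∀ x, X (S.i w (S.c w x)) = S.i w (S.c w (X x)) := fun x => LinearMap.congr_fun h1 x
  have h2' : ∀ x, X (S.i u (S.c u x)) = S.i u (S.c u (X x)) := fun x => LinearMap.congr_fun h2 x
  have hw0 := wu_ne hwu
  let ζ : Module.End F W' := S.c w ∘ₗ X ∘ₗ S.i u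
  have a1 : ∀ y, X (S.i w y) = S.i w (ζ y) := by
    intro y
    have h3 := h1' (S.i u y)
    rwa [S.ci, hwu, one_smul] at h3
  have a2 : ∀ y, X (S.i u y) = S.i u (ζ y) := by
    intro y
    have h3 := h2' (S.i w y)
    rw [S.ci, huw, neg_smul, one_smul, map_neg, map_neg, neg_eq_iff_eq_neg, a1, S.ci, huw, neg_smul, one_smul, map_neg,
      neg_neg] at h3
    exact h3
  have h3 : X = S.i u ∘ₗ ζ ∘ₗ S.c w - S.i w ∘ₗ ζ ∘ₗ S.c u := by
    refine ext_wu hwu hW (fun y => ?_) (fun y => ?_)
    · rw [a1]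
      simp only [LinearMap.sub_apply, LinearMap.comp_apply, S.ci, S.alt, huw, zero_smul, map_zero, neg_smul, one_smul,
        map_neg, zero_sub, neg_neg]
    · rw [a2]
      simp only [LinearMap.sub_apply, LinearMap.comp_apply, S.ci, S.alt, hwu, zero_smul, map_zero, neg_smul, one_smul,
        map_neg, sub_zero, neg_neg]
  rw [h3]
  exact isCo_one hwu hW ζ

/-- A square-zero element of `A + C(A)` is in `A` or in `C(A)`. -/
theorem op_or_co [Nontrivial W'] (h2 : (2 : F) ≠ 0) {a y : Module.End F V} (ha : S.IsOp a) (hy : S.IsCo y)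
    (hsq : (a + y) * (a + y) = 0) : S.IsOp (a + y) ∨ S.IsCo (a + y) := by
  have huw := huw' hwu
  have hw0 := wu_ne hwu
  have hsq' : ∀ x, (a + y) ((a + y) x) = 0 := fun x => LinearMap.congr_fun hsq x
  obtain ⟨α, β, γ, κ, rfl⟩ := eq_op hwu hW ha
  obtain ⟨Z, hZ⟩ := hy
  -- the action on `w ⊗ y` and `u ⊗ y`
  have e1 : ∀ t, (α • S.E w w + β • S.E w u + γ • S.E u w + κ • S.E u u + y) (S.i w t)
      = S.i w (Z t - β • t) - κ • S.i u t := by
    intro t
    simp only [LinearMap.add_apply, LinearMap.smul_apply, E_apply, S.ci, S.alt, huw, hZ, zero_smul, map_zero, smul_zero,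
      neg_smul, one_smul, map_neg, smul_neg, map_sub, map_smul]
    abel
  have e2 : ∀ t, (α • S.E w w + β • S.E w u + γ • S.E u w + κ • S.E u u + y) (S.i u t)
      = α • S.i w t + S.i u (Z t + γ • t) := by
    intro t
    simp only [LinearMap.add_apply, LinearMap.smul_apply, E_apply, S.ci, S.alt, hwu, hZ, zero_smul, map_zero, smul_zero,
      neg_smul, one_smul, map_neg, smul_neg, map_add, map_smul]
    abel
  generalize hX : α • S.E w w + β • S.E w u + γ • S.E u w + κ • S.E u u + y = X at e1 e2 hsq'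
  -- `c` of the squares
  have f1 : ∀ t, κ • (Z t + Z t + (γ - β) • t) = 0 := by
    intro t
    have h3 := congrArg (S.c w) (hsq' (S.i w t))
    rw [e1, map_sub, map_smul, e1, e2] at h3
    simp only [map_sub, map_add, map_smul, S.ci, S.alt, hwu, zero_smul, one_smul, smul_zero, map_zero, zero_sub,
      sub_zero, zero_add, smul_add, smul_sub, sub_smul] at h3 ⊢
    rw [← neg_eq_zero, ← h3]
    abel
  have f2 : ∀ t, α • (Z t + Z t + (γ - β) • t) = 0 := by
    intro t
    have h3 := congrArg (S.c u) (hsq' (S.i u t))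
    rw [e2, map_add, map_smul, e1, e2] at h3
    simp only [map_sub, map_add, map_smul, S.ci, S.alt, huw, zero_smul, one_smul, smul_zero, map_zero, zero_sub,
      sub_zero, zero_add, smul_add, smul_sub, sub_smul, neg_smul, smul_neg, add_zero] at h3 ⊢
    rw [← neg_eq_zero, ← h3]
    abel
  have f3 : ∀ t, (γ + β) • (Z t + Z t + (γ - β) • t) = 0 := by
    intro t
    have h3 := congrArg (S.c u) (hsq' (S.i w t))
    have h4 := congrArg (S.c w) (hsq' (S.i u t))
    rw [e1, map_sub, map_smul, e1, e2] at h3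
    rw [e2, map_add, map_smul, e1, e2] at h4
    simp only [map_sub, map_add, map_smul, S.ci, S.alt, huw, hwu, zero_smul, one_smul, smul_zero, map_zero, zero_sub,
      sub_zero, zero_add, smul_add, smul_sub, sub_smul, neg_smul, smul_neg, add_zero, smul_smul] at h3 h4
    simp only [smul_add, smul_sub, sub_smul, add_smul, smul_smul, mul_add, mul_sub, add_mul]
    have h5 := congrArg₂ (fun a b => a + b) h3 h4
    simp only [add_zero] at h5
    rw [← h5]
    simp only [mul_comm]
    abel
  by_cases hz : ∀ t, Z t + Z t + (γ - β) • t = 0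
  · left
    have h5 : ∀ t, Z t = (2⁻¹ * (β - γ)) • t := by
      intro t
      have h6 := hz t
      rw [← two_smul F (Z t), add_eq_zero_iff_eq_neg, ← neg_smul, neg_sub] at h6
      rw [← smul_smul, ← h6, smul_smul, inv_mul_cancel₀ h2, one_smul]
    rw [← hX]
    refine IsOp.add ha ⟨(2⁻¹ * (β - γ)) • 1, fun x t => ?_⟩
    rw [hZ, h5, map_smul, LinearMap.smul_apply, Module.End.one_apply, map_smul, LinearMap.smul_apply]
  · right
    push Not at hz
    obtain ⟨t, ht⟩ := hz
    have hκ : κ = 0 := (smul_eq_zero.1 (f1 t)).resolve_right ht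
    have hα : α = 0 := (smul_eq_zero.1 (f2 t)).resolve_right ht
    have hγ : γ + β = 0 := (smul_eq_zero.1 (f3 t)).resolve_right ht
    have hγ' : γ = -β := eq_neg_of_add_eq_zero_left hγ
    have h6 : X = S.i u ∘ₗ (Z - β • 1) ∘ₗ S.c w - S.i w ∘ₗ (Z - β • 1) ∘ₗ S.c u := by
      refine ext_wu hwu hW (fun y => ?_) (fun y => ?_)
      · rw [e1, hκ]
        simp only [LinearMap.sub_apply, LinearMap.comp_apply, S.ci, S.alt, huw, zero_smul, map_zero, neg_smul, one_smul,
          map_neg, zero_sub, neg_neg, sub_zero, LinearMap.smul_apply, Module.End.one_apply]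
      · rw [e2, hα, hγ']
        simp only [LinearMap.sub_apply, LinearMap.comp_apply, S.ci, S.alt, hwu, zero_smul, map_zero, neg_smul, one_smul,
          map_neg, sub_zero, neg_neg, LinearMap.smul_apply, Module.End.one_apply, zero_add, map_add, map_sub, map_smul]
        abel
    rw [h6]
    exact isCo_one hwu hW _

/-- A square-zero element of `A` is a multiple of some `Δ b`. -/
theorem op_sq_zero {X : Module.End F V} [Nontrivial W'] (hX : S.IsOp X) (hsq : X * X = 0) :
    ∃ (b : W) (μ : F), b ≠ 0 ∧ X = μ • S.Δ b := by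
  have huw := huw' hwu
  have hw0 := wu_ne hwu
  have hu0 : u ≠ 0 := by
    rintro rfl
    rw [map_zero] at hwu
    exact zero_ne_one hwu
  obtain ⟨α, β, γ, κ, rfl⟩ := eq_op hwu hW hX
  obtain ⟨t, ht⟩ := exists_ne (0 : W')
  have e1 : ∀ t, (α • S.E w w + β • S.E w u + γ • S.E u w + κ • S.E u u) (S.i w t)
      = - (β • S.i w t) - κ • S.i u t := by
    intro t
    simp only [LinearMap.add_apply, LinearMap.smul_apply, E_apply, S.ci, S.alt, huw, zero_smul, map_zero, smul_zero,
      neg_smul, one_smul, map_neg, smul_neg, map_sub, map_smul]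
    abel
  have e2 : ∀ t, (α • S.E w w + β • S.E w u + γ • S.E u w + κ • S.E u u) (S.i u t)
      = α • S.i w t + γ • S.i u t := by
    intro t
    simp only [LinearMap.add_apply, LinearMap.smul_apply, E_apply, S.ci, S.alt, hwu, zero_smul, map_zero, smul_zero,
      neg_smul, one_smul, map_neg, smul_neg, map_add, map_smul]
    abel
  have hsq' : ∀ x, (α • S.E w w + β • S.E w u + γ • S.E u w + κ • S.E u u)
      ((α • S.E w w + β • S.E w u + γ • S.E u w + κ • S.E u u) x) = 0 := fun x => LinearMap.congr_fun hsq x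
  have hc : ∀ (a b : F), a • t = b • t → a = b := by
    intro a b h
    rw [← sub_eq_zero, ← sub_smul] at h
    exact sub_eq_zero.1 ((smul_eq_zero.1 h).resolve_right ht)
  have g1 : κ * β = κ * γ := by
    have h3 := congrArg (S.c w) (hsq' (S.i w t))
    rw [e1, map_sub, map_neg, map_smul, map_smul, e1, e2] at h3
    simp only [map_sub, map_add, map_smul, map_neg, S.ci, S.alt, hwu, zero_smul, one_smul, smul_zero, map_zero, zero_sub,
      sub_zero, zero_add, smul_add, smul_sub, sub_smul, smul_smul, neg_zero, smul_neg, neg_neg] at h3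
    apply hc
    rw [← sub_eq_zero, mul_comm]
    exact h3
  have g2 : α * β = α * γ := by
    have h3 := congrArg (S.c u) (hsq' (S.i u t))
    rw [e2, map_add, map_smul, map_smul, e1, e2] at h3
    simp only [map_sub, map_add, map_smul, map_neg, S.ci, S.alt, huw, zero_smul, one_smul, smul_zero, map_zero, zero_sub,
      sub_zero, zero_add, smul_add, smul_sub, sub_smul, smul_smul, neg_zero, smul_neg, neg_neg, neg_smul, add_zero] at h3
    apply hc
    rw [← sub_eq_zero, mul_comm α γ, sub_eq_add_neg]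
    exact h3
  have g3 : β * β = κ * α := by
    have h3 := congrArg (S.c u) (hsq' (S.i w t))
    rw [e1, map_sub, map_neg, map_smul, map_smul, e1, e2] at h3
    simp only [map_sub, map_add, map_smul, map_neg, S.ci, S.alt, huw, zero_smul, one_smul, smul_zero, map_zero, zero_sub,
      sub_zero, zero_add, smul_add, smul_sub, sub_smul, smul_smul, neg_zero, smul_neg, neg_neg, neg_smul, add_zero] at h3
    apply hc
    rw [← sub_eq_zero, ← neg_eq_zero, ← h3]
    abel
  have g4 : γ * γ = κ * α := by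
    have h3 := congrArg (S.c w) (hsq' (S.i u t))
    rw [e2, map_add, map_smul, map_smul, e1, e2] at h3
    simp only [map_sub, map_add, map_smul, map_neg, S.ci, S.alt, hwu, zero_smul, one_smul, smul_zero, map_zero, zero_sub,
      sub_zero, zero_add, smul_add, smul_sub, sub_smul, smul_smul, neg_zero, smul_neg, neg_neg, neg_smul, add_zero] at h3
    apply hc
    rw [← sub_eq_zero, ← h3, mul_comm κ α]
    abel
  by_cases hα : α = 0
  · subst hα
    rw [mul_zero] at g3 g4
    have hβ := mul_self_eq_zero.1 g3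
    have hγ := mul_self_eq_zero.1 g4
    subst hβ
    subst hγ
    exact ⟨u, κ, hu0, by rw [zero_smul, zero_smul, zero_smul, zero_add, zero_add, zero_add]; rfl⟩
  · have hβγ : β = γ := mul_left_cancel₀ hα g2
    subst hβγ
    refine ⟨w + (β * α⁻¹) • u, α, ?_, ?_⟩
    · intro h
      have h5 : S.ω (w + (β * α⁻¹) • u) u = 0 := by rw [h, map_zero, LinearMap.zero_apply]
      rw [map_add, LinearMap.add_apply, hwu, map_smul, LinearMap.smul_apply, S.alt, smul_zero, add_zero] at h5
      exact one_ne_zero h5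
    · have hκ : κ = β * β * α⁻¹ := by rw [g3, mul_assoc, mul_inv_cancel₀ hα, mul_one]
      ext x
      simp only [LinearMap.add_apply, LinearMap.smul_apply, E_apply, S.Δ_apply, map_add, map_smul, smul_add, smul_smul]
      rw [hκ]
      have h6 : α * (β * α⁻¹) = β := by field_simp
      have h7 : α * (β * α⁻¹ * (β * α⁻¹)) = β * β * α⁻¹ := by field_simp
      rw [h6, h7]
      abel

/-- A square-zero `ε` such that `1 + ε` normalises `A` is in `A` or in `C(A)`. -/
theorem norm_sq_zero [Nontrivial W'] (h2 : (2 : F) ≠ 0) {ε : Module.End F V} (hsq : ε * ε = 0)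
    (h3 : ∀ X, S.IsOp X → S.IsOp ((1 + ε) * X * (1 - ε))) (h4 : ∀ X, S.IsOp X → S.IsOp ((1 - ε) * X * (1 + ε))) :
    S.IsOp ε ∨ S.IsCo ε := by
  have huw := huw' hwu
  have hc : ∀ X, S.IsOp X → S.IsOp (X * ε - ε * X) := by
    intro X hX
    have h5 := ((h4 X hX).sub (h3 X hX)).smul (2⁻¹ : F)
    have h6 : (2⁻¹ : F) • ((1 - ε) * X * (1 + ε) - (1 + ε) * X * (1 - ε)) = X * ε - ε * X := by
      have h7 : (1 - ε) * X * (1 + ε) - (1 + ε) * X * (1 - ε) = (2 : F) • (X * ε - ε * X) := by
        rw [two_smul]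
        noncomm_ring
      rw [h7, smul_smul, inv_mul_cancel₀ h2, one_smul]
    rwa [h6] at h5
  let ζ : Module.End F W' := S.c w ∘ₗ ε ∘ₗ S.i u
  have hy := isCo_one hwu hW ζ
  have h7 : ε = (S.E u w * (S.E u w * ε - ε * S.E u w) - S.E w w * (S.E u u * ε - ε * S.E u u))
      + (S.i u ∘ₗ ζ ∘ₗ S.c w - S.i w ∘ₗ ζ ∘ₗ S.c u) := by
    ext x
    simp only [LinearMap.add_apply, LinearMap.sub_apply, Module.End.mul_apply, E_apply, map_sub, S.ci, hwu, huw, S.alt,
      one_smul, LinearMap.comp_apply, ζ, zero_smul, map_zero, neg_smul, map_neg, sub_neg_eq_add]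
    nth_rewrite 1 [decomp hwu hW (ε x)]
    abel
  have hop : S.IsOp (S.E u w * (S.E u w * ε - ε * S.E u w) - S.E w w * (S.E u u * ε - ε * S.E u u)) :=
    ((IsOp.E u w).mul (hc _ (IsOp.E u w))).sub ((IsOp.E w w).mul (hc _ (IsOp.E u u)))
  rw [h7] at hsq ⊢
  exact op_or_co hwu hW h2 hop hy hsq

end Two

end Slot

end Cfsg.Agent.H874
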