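import Cfsg.Agent.H874.SlotQ
import Cfsg.Agent.H874.SlotInv

/-!
# Conjugates of slot transvections generating a `p`-group commute

`DM M` : the `M`-conjugates of the transvections `tv w l`. `Good.comm_of_pgroup` : two members of `DM M` generating
a `p`-group commute.
-/

set_option autoImplicit false
set_option linter.unusedSimpArgs false
set_option linter.unusedVariables false

namespace Cfsg.Agent.H874

open Subgroup

namespace Slot

variable {F W W' V : Type*} [Field F] [AddCommGroup W] [Module F W] [AddCommGroup W'] [Module F W']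
    [AddCommGroup V] [Module F V] (S : Slot F W W' V)

/-- The `M`-conjugates of the slot transvections. -/
def DM (M : Subgroup (Module.End F V)ˣ) : Set (Module.End F V)ˣ :=
  {e | ∃ g ∈ M, ∃ w, w ≠ 0 ∧ ∃ l : F, l ≠ 0 ∧ e = g * S.tv w l * g⁻¹}

variable {S}

theorem conj_mem_DM {M : Subgroup (Module.End F V)ˣ} {g x : (Module.End F V)ˣ} (hg : g ∈ M) (hx : x ∈ S.DM M) :
    g * x * g⁻¹ ∈ S.DM M := by
  obtain ⟨h, hh, w, hw, l, hl, rfl⟩ := hx
  exact ⟨g * h, M.mul_mem hg hh, w, hw, l, hl, by group⟩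

theorem tv_mem_DM (M : Subgroup (Module.End F V)ˣ) {w : W} (hw : w ≠ 0) {l : F} (hl : l ≠ 0) : S.tv w l ∈ S.DM M :=
  ⟨1, M.one_mem, w, hw, l, hl, by group⟩

/-- A member of `DM M` in factored form. -/
theorem exists_factor {M : Subgroup (Module.End F V)ˣ} {e : (Module.End F V)ˣ} (he : e ∈ S.DM M) :
    ∃ (A : W' →ₗ[F] V) (B : V →ₗ[F] W'), (∀ x, (e : Module.End F V) x = x + A (B x)) ∧ (∀ y, B (A y) = 0) ∧
      Function.Injective A ∧ Function.Surjective B := by
  obtain ⟨g, hg, w, hw, l, hl, rfl⟩ := he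
  refine ⟨l • ((g : Module.End F V) ∘ₗ S.i w), S.c w ∘ₗ ((g⁻¹ : (Module.End F V)ˣ) : Module.End F V), ?_, ?_, ?_, ?_⟩
  · intro x
    simp only [Units.val_mul, Module.End.mul_apply, S.tv_apply, map_add, map_smul, apply_inv, LinearMap.smul_apply,
      LinearMap.comp_apply]
  · intro y
    simp only [LinearMap.smul_apply, LinearMap.comp_apply, map_smul, inv_apply, S.ci, S.alt, zero_smul, smul_zero]
  · intro y y' h
    have h1 := congrArg (fun z => (((g⁻¹ : (Module.End F V)ˣ) : Module.End F V) (l⁻¹ • z))) h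
    simp only [LinearMap.smul_apply, LinearMap.comp_apply, smul_smul, inv_mul_cancel₀ hl, one_smul, inv_apply] at h1
    exact S.i_injective hw h1
  · intro y
    obtain ⟨u, hu⟩ := S.exists_pair hw
    refine ⟨(g : Module.End F V) (S.i u y), ?_⟩
    rw [LinearMap.comp_apply, inv_apply, S.ci, hu, one_smul]

theorem DM_subset {M : Subgroup (Module.End F V)ˣ} (hM : ∀ w l, S.tv w l ∈ M) {e : (Module.End F V)ˣ}
    (he : e ∈ S.DM M) : e ∈ M := by
  obtain ⟨g, hg, w, hw, l, hl, rfl⟩ := he
  exact M.mul_mem (M.mul_mem hg (hM _ _)) (M.inv_mem hg)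

/-- The class two case. -/
theorem Good.class_two_false [FiniteDimensional F W] [Nontrivial W'] [FiniteDimensional F W'] [FiniteDimensional F V]
    {M : Subgroup (Module.End F V)ˣ} (hM : S.Good M) (h2 : (2 : F) ≠ 0) {w : W} (hw : w ≠ 0) {l : F} (hl : l ≠ 0)
    {e : (Module.End F V)ˣ} (he : e ∈ S.DM M)
    (c1 : Commute (S.tv w l * e * (S.tv w l)⁻¹ * e⁻¹) (S.tv w l))
    (c2 : Commute (S.tv w l * e * (S.tv w l)⁻¹ * e⁻¹) e) : S.tv w l * e = e * S.tv w l := by
  by_contra hne
  obtain ⟨A, B, heAB, hBA, hAi, hBs⟩ := exists_factor he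
  have heM := DM_subset hM.tv_mem he
  have ww := S.alt w
  let δ : Module.End F V := l • S.Δ w
  let ε : Module.End F V := A ∘ₗ B
  have hδa : ∀ x, δ x = l • S.i w (S.c w x) := fun x => rfl
  have hεa : ∀ x, ε x = A (B x) := fun x => rfl
  have hδ : δ * δ = 0 := by
    ext x
    rw [Module.End.mul_apply, hδa, hδa, map_smul, map_smul, S.ci, ww, zero_smul, map_zero, smul_zero, smul_zero,
      LinearMap.zero_apply]
  have hε : ε * ε = 0 := by
    ext x
    rw [Module.End.mul_apply, hεa, hεa, hBA, map_zero, LinearMap.zero_apply]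
  have hd1 : ((S.tv w l : (Module.End F V)ˣ) : Module.End F V) = 1 + δ := rfl
  have hd2 : (((S.tv w l)⁻¹ : (Module.End F V)ˣ) : Module.End F V) = 1 - δ := rfl
  have he1 : (e : Module.End F V) = 1 + ε := by ext x; exact heAB x
  have he2 : ((e⁻¹ : (Module.End F V)ˣ) : Module.End F V) = 1 - ε := by
    ext x
    exact inv_apply_of_sq heAB (by intro x; rw [map_sub, hBA, sub_zero]) x
  have hcoe : ((S.tv w l * e * (S.tv w l)⁻¹ * e⁻¹ : (Module.End F V)ˣ) : Module.End F V)
      = (1 + δ) * (1 + ε) * (1 - δ) * (1 - ε) := by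
    rw [Units.val_mul, Units.val_mul, Units.val_mul, hd1, hd2, he1, he2]
  have h2A : ∀ x : Module.End F V, x + x = 0 → x = 0 := by
    intro x hx
    rw [← two_smul F x] at hx
    exact (smul_eq_zero.1 hx).resolve_left h2
  have k1 : (1 + δ) * (1 + ε) * (1 - δ) * (1 - ε) * (1 + δ) = (1 + δ) * ((1 + δ) * (1 + ε) * (1 - δ) * (1 - ε)) := by
    have h5 := congrArg Units.val c1.eq
    rwa [Units.val_mul, Units.val_mul (S.tv w l), hcoe, hd1] at h5
  have k2 : (1 + δ) * (1 + ε) * (1 - δ) * (1 - ε) * (1 + ε) = (1 + ε) * ((1 + δ) * (1 + ε) * (1 - δ) * (1 - ε)) := by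
    have h5 := congrArg Units.val c2.eq
    rwa [Units.val_mul, Units.val_mul e, hcoe, he1] at h5
  have hcomm : ∀ a b : Module.End F V, a * (1 + b) = (1 + b) * a → a * b = b * a := by
    intro a b h
    rw [mul_add, add_mul, mul_one, one_mul] at h
    exact add_left_cancel h
  obtain ⟨hδεδ, hεδε⟩ := class_two h2A hδ hε (hcomm _ _ k1) (hcomm _ _ k2)
  have hδεδa : ∀ x, δ (ε (δ x)) = 0 := fun x => LinearMap.congr_fun hδεδ x
  have hεδεa : ∀ x, ε (δ (ε x)) = 0 := fun x => LinearMap.congr_fun hεδε x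
  have hεεa : ∀ x, ε (ε x) = 0 := fun x => by
    rw [← Module.End.mul_apply, hε, LinearMap.zero_apply]
  have hδδa : ∀ x, δ (δ x) = 0 := fun x => by
    rw [← Module.End.mul_apply, hδ, LinearMap.zero_apply]
  obtain ⟨u, hu⟩ := S.exists_pair hw
  have huw : S.ω u w = -1 := by rw [S.skew, hu]
  have hN : ∀ y, S.c w (ε (S.i w y)) = 0 := by
    intro y
    have h5 := hδεδa (S.i u y)
    rw [hδa (S.i u y), S.ci, hu, one_smul, map_smul, map_smul, hδa] at h5
    have h6 := (smul_eq_zero.1 ((smul_eq_zero.1 h5).resolve_left hl)).resolve_left hl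
    have h7 : S.i w (S.c w (ε (S.i w y))) = S.i w 0 := by rw [h6, map_zero]
    exact S.i_injective hw h7
  -- the commutator
  let g0 : (Module.End F V)ˣ := S.tv w l * e * (S.tv w l)⁻¹ * e⁻¹
  have hg0M : g0 ∈ M := M.mul_mem (M.mul_mem (M.mul_mem (hM.tv_mem _ _) heM) (M.inv_mem (hM.tv_mem _ _))) (M.inv_mem heM)
  have hg0 : ∀ x, (g0 : Module.End F V) x = x + (δ (ε x) - ε (δ x)) := by
    intro x
    show ((S.tv w l * e * (S.tv w l)⁻¹ * e⁻¹ : (Module.End F V)ˣ) : Module.End F V) x = _
    rw [hcoe]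
    simp only [Module.End.mul_apply, LinearMap.add_apply, LinearMap.sub_apply, Module.End.one_apply, map_sub, map_add,
      hδεδa, hεδεa, hεεa, hδδa, map_zero]
    abel
  obtain ⟨a, m, hwa, ham⟩ := hM.radical h2 hw hg0M
    (by
      intro y
      rw [hg0, hδa, hδa, hN, S.ci, ww, zero_smul, map_zero, smul_zero, map_zero, sub_zero, add_zero])
    (by
      intro x
      rw [hg0, hδa, hδa, map_add, map_sub, map_smul, map_smul, map_smul, S.ci, ww, zero_smul, smul_zero, hN, smul_zero,
        sub_zero, add_zero])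
    (by
      intro x hx
      refine ⟨l • S.c w (ε x), ?_⟩
      rw [hg0, hδa, hδa, hx, map_zero, smul_zero, map_zero, sub_zero, map_smul])
  have E : ∀ x, l • S.i w (S.c w (ε x)) - l • ε (S.i w (S.c w x))
      = S.i a (S.c w x) + S.i w (S.c a x) + m • S.i w (S.c w x) := by
    intro x
    have h5 := ham x
    rw [hg0, add_right_inj, S.Sv_apply, S.Δ_apply, hδa, hδa, map_smul] at h5
    exact h5
  by_cases hcase : ∃ t : F, a = t • w
  · -- `a ∈ ⟨w⟩`
    obtain ⟨t, rfl⟩ := hcase
    obtain ⟨μ, hμ⟩ : ∃ μ : F, μ = l⁻¹ * (2 * t + m) := ⟨_, rfl⟩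
    have E' : ∀ x, S.i w (S.c w (ε x)) - ε (S.i w (S.c w x)) = μ • S.i w (S.c w x) := by
      intro x
      have h5 := congrArg (fun z => l⁻¹ • z) (E x)
      simp only [smul_sub, smul_smul, inv_mul_cancel₀ hl, one_smul, map_smul, LinearMap.smul_apply, smul_add] at h5
      rw [h5, hμ]
      module
    let Bf : W' → W' := fun y => S.c w (ε (S.i u y)) - μ • y
    have hB : ∀ y, ε (S.i w y) = S.i w (Bf y) := by
      intro y
      have h5 := E' (S.i u y)
      rw [S.ci, hu, one_smul] at h5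
      show _ = S.i w (S.c w (ε (S.i u y)) - μ • y)
      rw [map_sub, map_smul, ← h5, sub_sub_cancel]
    have hBB : ∀ y, Bf (Bf y) = 0 := by
      intro y
      have h5 : S.i w (Bf (Bf y)) = S.i w 0 := by rw [← hB, ← hB, hεεa, map_zero]
      exact S.i_injective hw h5
    have hC : ∀ x, S.c w (ε x) = Bf (S.c w x) + μ • S.c w x := by
      intro x
      have h5 := E' x
      rw [hB, ← map_sub, ← map_smul] at h5
      have h6 := S.i_injective hw h5
      rw [← h6, add_sub_cancel]
    have hμ0 : μ = 0 := by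
      by_contra hμ0
      obtain ⟨z, hz⟩ := exists_ne (0 : W')
      have h5 := hC (ε (S.i u z))
      have h6 := hC (S.i u z)
      rw [S.ci, hu, one_smul] at h6
      rw [hεεa, map_zero, h6] at h5
      have hlin : ∀ y y', Bf (y + y') = Bf y + Bf y' := by
        intro y y'
        show S.c w (ε (S.i u (y + y'))) - μ • (y + y') = _
        rw [map_add, map_add, map_add, smul_add]
        show _ = (S.c w (ε (S.i u y)) - μ • y) + (S.c w (ε (S.i u y')) - μ • y')
        abel
      have hlin2 : ∀ (c : F) y, Bf (c • y) = c • Bf y := by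
        intro c y
        show S.c w (ε (S.i u (c • y))) - μ • (c • y) = c • (S.c w (ε (S.i u y)) - μ • y)
        rw [map_smul, map_smul, map_smul, smul_sub, smul_comm]
      rw [hlin, hBB, zero_add, hlin2, smul_add] at h5
      -- `0 = μ B z + (μ B z + μ² z)`
      have h7 : Bf z = (-(2⁻¹ * μ)) • z := by
        have h8 : (2 * μ) • Bf z = (2 * μ) • ((-(2⁻¹ * μ)) • z) := by
          rw [smul_smul]
          have h9 : 2 * μ * -(2⁻¹ * μ) = -(μ * μ) := by field_simp
          rw [h9, neg_smul, mul_smul, mul_smul, two_smul]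
          rw [← sub_eq_zero, sub_neg_eq_add, add_assoc]
          exact h5.symm
        exact smul_right_injective _ (mul_ne_zero h2 hμ0) h8
      have h8 := hBB z
      rw [h7, hlin2, h7, smul_smul] at h8
      rcases smul_eq_zero.1 h8 with h9 | h9
      · have : μ * μ = 0 := by
          have h10 : -(2⁻¹ * μ) * -(2⁻¹ * μ) = (2⁻¹ * 2⁻¹) * (μ * μ) := by ring
          rw [h10] at h9
          exact (mul_eq_zero.1 h9).resolve_left (mul_ne_zero (inv_ne_zero h2) (inv_ne_zero h2))
        exact hμ0 (mul_self_eq_zero.1 this)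
      · exact hz h9
    apply hne
    apply ext_unit
    intro x
    have h5 := E' x
    rw [hμ0, zero_smul, sub_eq_zero] at h5
    simp only [Units.val_mul, Module.End.mul_apply, S.tv_apply, he1, LinearMap.add_apply, Module.End.one_apply, map_add,
      map_smul, h5, smul_add, add_assoc]
  · push Not at hcase
    obtain ⟨x0, hx0, hx0a⟩ := S.exists_perp_pair hw hwa hcase
    have hx0w := S.perp_comm hx0
    have hinj : Function.Injective (ε ∘ₗ S.i w) := by
      rw [← LinearMap.ker_eq_bot, LinearMap.ker_eq_bot']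
      intro y hy
      rw [LinearMap.comp_apply] at hy
      have h5 := congrArg (S.c x0) (E (S.i u y))
      rw [S.ci w u, hu, one_smul, hy, smul_zero, sub_zero, map_smul, S.ci, hx0w, zero_smul, smul_zero, map_add, map_add,
        S.ci, S.ci, hx0w, zero_smul, map_smul, S.ci, hx0w, zero_smul, smul_zero, add_zero, add_zero, hx0a, one_smul] at h5
      exact h5.symm
    have hrange : LinearMap.range (ε ∘ₗ S.i w) = LinearMap.range ε := by
      apply Submodule.eq_of_le_of_finrank_le
      · rintro _ ⟨y, rfl⟩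
        exact ⟨_, rfl⟩
      · rw [LinearMap.finrank_range_of_inj hinj]
        calc Module.finrank F (LinearMap.range ε) ≤ Module.finrank F (LinearMap.range A) := by
              apply Submodule.finrank_mono
              rintro _ ⟨y, rfl⟩
              exact ⟨_, rfl⟩
          _ ≤ Module.finrank F W' := LinearMap.finrank_range_le A
    have hcε : ∀ x, S.c w (ε x) = 0 := by
      intro x
      have h5 : ε x ∈ LinearMap.range (ε ∘ₗ S.i w) := by rw [hrange]; exact ⟨x, rfl⟩
      obtain ⟨y, hy⟩ := h5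
      rw [← hy]
      exact hN y
    obtain ⟨z, hz⟩ := exists_ne (0 : W')
    have h5 := congrArg (S.c u) (E (S.i x0 z))
    simp only [hcε, S.ci, hx0, zero_smul, map_zero, smul_zero, sub_zero, zero_add, add_zero, huw, S.skew a x0, hx0a,
      neg_smul, one_smul, map_neg, neg_neg] at h5
    apply hz
    simpa using h5.symm

/-- Two members of `DM M` generating a `p`-group commute. -/
theorem Good.comm_of_pgroup [FiniteDimensional F W] [Nontrivial W'] [FiniteDimensional F W'] [FiniteDimensional F V]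
    {p : ℕ} [Fact p.Prime] {M : Subgroup (Module.End F V)ˣ} [Finite M] (hM : S.Good M) (h2 : (2 : F) ≠ 0)
    {x y : (Module.End F V)ˣ} (hx : x ∈ S.DM M) (hy : y ∈ S.DM M)
    (hp : IsPGroup p (closure ({x, y} : Set (Module.End F V)ˣ))) : x * y = y * x := by
  by_contra hne
  obtain ⟨x', hx', y', hy', hne', c1, c2⟩ := exists_class_two M (S.DM M) (fun _ h => DM_subset hM.tv_mem h)
    (fun _ hg _ h => conj_mem_DM hg h) _ x y hx hy le_rfl hp hne
  obtain ⟨g, hg, w, hw, l, hl, rfl⟩ := hx'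
  have hy1 : g⁻¹ * y' * g ∈ S.DM M := by
    have := conj_mem_DM (M.inv_mem hg) hy'
    rwa [inv_inv] at this
  have hy2 : y' = g * (g⁻¹ * y' * g) * g⁻¹ := by group
  generalize g⁻¹ * y' * g = e at hy1 hy2
  subst hy2
  have hcj : ∀ a b : (Module.End F V)ˣ, g * a * g⁻¹ * (g * b * g⁻¹) * (g * a * g⁻¹)⁻¹ * (g * b * g⁻¹)⁻¹
      = g * (a * b * a⁻¹ * b⁻¹) * g⁻¹ := by
    intro a b
    group
  have hcc : ∀ a b : (Module.End F V)ˣ, Commute (g * a * g⁻¹) (g * b * g⁻¹) → Commute a b := by
    intro a b h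
    have h1 : g⁻¹ * (g * a * g⁻¹ * (g * b * g⁻¹)) * g = g⁻¹ * (g * b * g⁻¹ * (g * a * g⁻¹)) * g := by rw [h.eq]
    have h2 : g⁻¹ * (g * a * g⁻¹ * (g * b * g⁻¹)) * g = a * b := by group
    have h3 : g⁻¹ * (g * b * g⁻¹ * (g * a * g⁻¹)) * g = b * a := by group
    rw [h2, h3] at h1
    exact h1
  rw [hcj] at c1 c2
  apply hne'
  have h5 := hM.class_two_false h2 hw hl hy1 (hcc _ _ c1) (hcc _ _ c2)
  have h6 : ∀ a b : (Module.End F V)ˣ, g * a * g⁻¹ * (g * b * g⁻¹) = g * (a * b) * g⁻¹ := by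
    intro a b
    group
  rw [h6, h6, h5]

end Slot

end Cfsg.Agent.H874
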