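import Cfsg.Agent.H874.SlotBasic

/-!
# The unipotent radical of the stabiliser of `w ⊗ W'`

`Good S M`: `M` contains all transvections `tv w l`; `1 + i w X c w ∈ M` only for scalar `X`;
`1 + (w ∧ b) ⊗ Z ∈ M` only for `Z = 0`.
`Good.radical`: an element of `M` acting trivially on `A = w ⊗ W'`, `A^⊥ / A`, `V / A^⊥` is `1 + S_{a,w} + l Δ w`.
-/

set_option autoImplicit false
set_option linter.unusedSimpArgs false
set_option linter.unusedVariables false

namespace Cfsg.Agent.H874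

namespace Slot

variable {F W W' V : Type*} [Field F] [AddCommGroup W] [Module F W] [AddCommGroup W'] [Module F W']
    [AddCommGroup V] [Module F V] (S : Slot F W W' V)

/-- The hypotheses on the group `M`. -/
structure Good (M : Subgroup (Module.End F V)ˣ) : Prop where
  tv_mem : ∀ w l, S.tv w l ∈ M
  h1 : ∀ w, w ≠ 0 → ∀ (X : Module.End F W') (g : (Module.End F V)ˣ), g ∈ M →
    (∀ x, (g : Module.End F V) x = x + S.i w (X (S.c w x))) → ∃ l : F, ∀ y, X y = l • y
  h2 : ∀ w b, w ≠ 0 → S.ω w b = 0 → (∀ a : F, b ≠ a • w) → ∀ (Z : Module.End F W') (g : (Module.End F V)ˣ),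
    g ∈ M → (∀ x, (g : Module.End F V) x = x + (S.i w (Z (S.c b x)) - S.i b (Z (S.c w x)))) → ∀ y, Z y = 0

variable {S}

theorem exists_perp_pair {w b : W} (hw : w ≠ 0) (hwb : S.ω w b = 0) (hb : ∀ a : F, b ≠ a • w) :
    ∃ b', S.ω w b' = 0 ∧ S.ω b' b = 1 := by
  obtain ⟨u, hu⟩ := S.exists_pair hw
  by_contra hcon
  push Not at hcon
  have h0 : ∀ x, S.ω w x = 0 → S.ω x b = 0 := by
    intro x hx
    by_contra hxb
    refine hcon ((S.ω x b)⁻¹ • x) ?_ ?_
    · rw [map_smul, hx, smul_zero]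
    · rw [map_smul, LinearMap.smul_apply, smul_eq_mul, inv_mul_cancel₀ hxb]
  refine hb (- S.ω u b) ?_
  rw [← sub_eq_zero]
  refine S.nondeg _ fun x => ?_
  have h1 := h0 (x - S.ω w x • u) (by rw [map_sub, map_smul, hu, smul_eq_mul, mul_one, sub_self])
  rw [map_sub, LinearMap.sub_apply, map_smul, LinearMap.smul_apply, smul_eq_mul] at h1
  rw [map_sub, LinearMap.sub_apply, map_smul, LinearMap.smul_apply, smul_eq_mul, S.skew b x]
  linear_combination -h1

theorem apply_inv (g : (Module.End F V)ˣ) (x : V) :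
    (g : Module.End F V) (((g⁻¹ : (Module.End F V)ˣ) : Module.End F V) x) = x := by
  rw [← Module.End.mul_apply, ← Units.val_mul, mul_inv_cancel, Units.val_one, Module.End.one_apply]

theorem inv_apply (g : (Module.End F V)ˣ) (x : V) :
    ((g⁻¹ : (Module.End F V)ˣ) : Module.End F V) ((g : Module.End F V) x) = x := by
  rw [← Module.End.mul_apply, ← Units.val_mul, inv_mul_cancel, Units.val_one, Module.End.one_apply]

theorem ext_unit {g h : (Module.End F V)ˣ} (H : ∀ x, (g : Module.End F V) x = (h : Module.End F V) x) : g = h :=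
  Units.ext (LinearMap.ext H)

/-- The inverse of a unit acting as `x + A x` with `A A = 0`. -/
theorem inv_apply_of_sq {g : (Module.End F V)ˣ} {A : V → V} (hg : ∀ x, (g : Module.End F V) x = x + A x)
    (hA : ∀ x, A (x - A x) = A x) (x : V) : ((g⁻¹ : (Module.End F V)ˣ) : Module.End F V) x = x - A x := by
  have h : (g : Module.End F V) (x - A x) = x := by rw [hg, hA, sub_add_cancel]
  rw [← h, inv_apply, h]

/-- Step 4 of the computation of the radical. -/
theorem Good.step {M : Subgroup (Module.End F V)ˣ} (hM : S.Good M) (h2 : (2 : F) ≠ 0) {w : W} (hw : w ≠ 0)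
    {g : (Module.End F V)ˣ} (hg : g ∈ M) (ha : ∀ y, (g : Module.End F V) (S.i w y) = S.i w y)
    (hb : ∀ x, S.c w ((g : Module.End F V) x) = S.c w x) {b : W} (hwb : S.ω w b = 0)
    (hbw : ∀ a : F, b ≠ a • w) (Z : Module.End F W')
    (h3 : ∀ y, (g : Module.End F V) (S.i b y) = S.i b y + S.i w (Z y))
    (h4 : ∀ x, S.c b ((g : Module.End F V) x) = S.c b x + Z (S.c w x)) : ∀ y, Z y = 0 := by
  obtain ⟨b', hwb', hb'b⟩ := S.exists_perp_pair hw hwb hbw
  have hbw0 := S.perp_comm hwb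
  have hb'w0 := S.perp_comm hwb'
  have hbb' : S.ω b b' = -1 := by rw [S.skew, hb'b]
  have ww := S.alt w
  have bb := S.alt b
  have b'b' := S.alt b'
  have ia : ∀ y, ((g⁻¹ : (Module.End F V)ˣ) : Module.End F V) (S.i w y) = S.i w y := by
    intro y
    conv_lhs => rw [← ha y]
    rw [inv_apply]
  have ib : ∀ x, S.c w (((g⁻¹ : (Module.End F V)ˣ) : Module.End F V) x) = S.c w x := by
    intro x
    conv_rhs => rw [← apply_inv g x, hb]
  have i4 : ∀ x, S.c b (((g⁻¹ : (Module.End F V)ˣ) : Module.End F V) x) = S.c b x - Z (S.c w x) := by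
    intro x
    have := h4 (((g⁻¹ : (Module.End F V)ˣ) : Module.End F V) x)
    rw [apply_inv, ib] at this
    rw [this, add_sub_cancel_right]
  -- the first commutator
  let g2 : (Module.End F V)ˣ := S.tv b 1 * g * (S.tv b 1)⁻¹ * g⁻¹
  have g2M : g2 ∈ M := M.mul_mem (M.mul_mem (M.mul_mem (hM.tv_mem _ _) hg) (M.inv_mem (hM.tv_mem _ _))) (M.inv_mem hg)
  have e2 : ∀ x, (g2 : Module.End F V) x
      = x + (S.i b (Z (S.c w x)) - S.i w (Z (S.c b x)) + S.i w (Z (Z (S.c w x)))) := by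
    intro x
    simp only [g2, Units.val_mul, Module.End.mul_apply, S.tv_apply, S.tv_inv_apply, one_smul, map_sub, map_add,
      apply_inv, i4, h3, S.ci, bb, hbw0, hwb, ww, zero_smul, map_zero]
    abel
  have hsq2 : ∀ x, (fun x => S.i b (Z (S.c w x)) - S.i w (Z (S.c b x)) + S.i w (Z (Z (S.c w x))))
      (x - (fun x => S.i b (Z (S.c w x)) - S.i w (Z (S.c b x)) + S.i w (Z (Z (S.c w x)))) x)
      = (fun x => S.i b (Z (S.c w x)) - S.i w (Z (S.c b x)) + S.i w (Z (Z (S.c w x)))) x := by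
    intro x
    simp only [map_sub, map_add, S.ci, bb, hbw0, hwb, ww, zero_smul, map_zero]
    abel
  have e2i := inv_apply_of_sq e2 hsq2
  -- the second commutator, for `b'` and `b' + b`
  have key : ∀ v, S.ω w v = 0 → S.ω v b = 1 →
      (∀ x, ((S.tv v 1 * g2 * (S.tv v 1)⁻¹ * g2⁻¹ : (Module.End F V)ˣ) : Module.End F V) x
      = x + (S.i v (Z (S.c w x)) - S.i w (Z (S.c v x)) + S.i w (Z (Z (S.c w x))))) := by
    intro v hwv hvb x
    have hvw := S.perp_comm hwv
    have hbv : S.ω b v = -1 := by rw [S.skew, hvb]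
    have vv := S.alt v
    simp only [Units.val_mul, Module.End.mul_apply, S.tv_apply, S.tv_inv_apply, one_smul, map_sub, map_add,
      e2, e2i, S.ci, bb, hbw0, hwb, ww, hwv, hvw, hvb, hbv, vv, zero_smul, map_zero, neg_smul, map_neg, sub_neg_eq_add]
    abel
  have hb''w : S.ω w (b' + b) = 0 := by rw [map_add, hwb', hwb, add_zero]
  have hb''b : S.ω (b' + b) b = 1 := by rw [map_add, LinearMap.add_apply, hb'b, bb, add_zero]
  let g3 : (Module.End F V)ˣ := S.tv b' 1 * g2 * (S.tv b' 1)⁻¹ * g2⁻¹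
  let g3' : (Module.End F V)ˣ := S.tv (b' + b) 1 * g2 * (S.tv (b' + b) 1)⁻¹ * g2⁻¹
  have g3M : g3 ∈ M := M.mul_mem (M.mul_mem (M.mul_mem (hM.tv_mem _ _) g2M) (M.inv_mem (hM.tv_mem _ _))) (M.inv_mem g2M)
  have g3'M : g3' ∈ M :=
    M.mul_mem (M.mul_mem (M.mul_mem (hM.tv_mem _ _) g2M) (M.inv_mem (hM.tv_mem _ _))) (M.inv_mem g2M)
  have e3 : ∀ x, (g3 : Module.End F V) x
      = x + (S.i b' (Z (S.c w x)) - S.i w (Z (S.c b' x)) + S.i w (Z (Z (S.c w x)))) := key b' hwb' hb'b
  have e3' : ∀ x, (g3' : Module.End F V) x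
      = x + (S.i (b' + b) (Z (S.c w x)) - S.i w (Z (S.c (b' + b) x)) + S.i w (Z (Z (S.c w x)))) :=
    key (b' + b) hb''w hb''b
  have hsq3 : ∀ x, (fun x => S.i b' (Z (S.c w x)) - S.i w (Z (S.c b' x)) + S.i w (Z (Z (S.c w x))))
      (x - (fun x => S.i b' (Z (S.c w x)) - S.i w (Z (S.c b' x)) + S.i w (Z (Z (S.c w x)))) x)
      = (fun x => S.i b' (Z (S.c w x)) - S.i w (Z (S.c b' x)) + S.i w (Z (Z (S.c w x)))) x := by
    intro x
    simp only [map_sub, map_add, S.ci, b'b', hb'w0, hwb', ww, zero_smul, map_zero]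
    abel
  have e3i := inv_apply_of_sq e3 hsq3
  let g4 : (Module.End F V)ˣ := g3' * g3⁻¹
  have e4 : ∀ x, (g4 : Module.End F V) x
      = x + (S.i b (Z (S.c w x)) - S.i w (Z (S.c b x)) - S.i w (Z (Z (S.c w x)))) := by
    intro x
    simp only [g4, Units.val_mul, Module.End.mul_apply, e3', e3i, map_sub, map_add, LinearMap.add_apply,
      S.ci, hbw0, hwb, ww, hwb', hb'w0, b'b', hb'b, hbb', one_smul, zero_smul, map_zero, neg_smul, map_neg]
    abel
  have hsq4 : ∀ x, (fun x => S.i b (Z (S.c w x)) - S.i w (Z (S.c b x)) - S.i w (Z (Z (S.c w x))))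
      (x - (fun x => S.i b (Z (S.c w x)) - S.i w (Z (S.c b x)) - S.i w (Z (Z (S.c w x)))) x)
      = (fun x => S.i b (Z (S.c w x)) - S.i w (Z (S.c b x)) - S.i w (Z (Z (S.c w x)))) x := by
    intro x
    simp only [map_sub, S.ci, bb, hbw0, hwb, ww, zero_smul, map_zero]
    abel
  have e4i := inv_apply_of_sq e4 hsq4
  -- `1 + 2 P`
  have e5 : ∀ x, ((g2 * g4⁻¹ : (Module.End F V)ˣ) : Module.End F V) x
      = x + S.i w (((2 : F) • (Z * Z)) (S.c w x)) := by
    intro x
    simp only [Units.val_mul, Module.End.mul_apply, e2, e4i, map_sub, LinearMap.smul_apply,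
      S.ci, bb, hbw0, hwb, ww, zero_smul, map_zero, two_smul, map_add, LinearMap.add_apply]
    abel
  obtain ⟨l, hl⟩ := hM.h1 w hw _ _ (M.mul_mem g2M (M.inv_mem (M.mul_mem g3'M (M.inv_mem g3M)))) e5
  have hZZ : ∀ y, Z (Z y) = (2⁻¹ * l) • y := by
    intro y
    have h5 := hl y
    rw [LinearMap.smul_apply, Module.End.mul_apply] at h5
    rw [mul_smul, ← h5, smul_smul, inv_mul_cancel₀ h2, one_smul]
  have e6 : ∀ x, ((g2 * S.tv w (- (2⁻¹ * l)) : (Module.End F V)ˣ) : Module.End F V) x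
      = x + (S.i w ((-Z) (S.c b x)) - S.i b ((-Z) (S.c w x))) := by
    intro x
    simp only [Units.val_mul, Module.End.mul_apply, e2, S.tv_apply, map_add, map_smul, neg_smul,
      S.ci, hbw0, ww, zero_smul, map_zero, hZZ, LinearMap.neg_apply, map_neg, smul_zero, neg_zero, add_zero]
    abel
  have h7 := hM.h2 w b hw hwb hbw (-Z) _ (M.mul_mem g2M (hM.tv_mem _ _)) e6
  intro y
  have := h7 y
  rwa [LinearMap.neg_apply, neg_eq_zero] at this

/-- Step 5: no part in `w^⊥ / w`. -/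
theorem Good.step5 {M : Subgroup (Module.End F V)ˣ} (hM : S.Good M) (h2 : (2 : F) ≠ 0) {w : W} (hw : w ≠ 0)
    {g : (Module.End F V)ˣ} (hg : g ∈ M) (ha : ∀ y, (g : Module.End F V) (S.i w y) = S.i w y)
    (hb : ∀ x, S.c w ((g : Module.End F V) x) = S.c w x) (Z : W → Module.End F W')
    (h3 : ∀ v, S.ω w v = 0 → ∀ y, (g : Module.End F V) (S.i v y) = S.i v y + S.i w (Z v y))
    (h4 : ∀ v, S.ω w v = 0 → ∀ x, S.c v ((g : Module.End F V) x) = S.c v x + Z v (S.c w x)) :
    ∃ l : F, g = S.tv w l := by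
  obtain ⟨u, hu⟩ := S.exists_pair hw
  have hZ : ∀ v, S.ω w v = 0 → ∀ y, Z v y = 0 := by
    intro v hv
    by_cases hvw : ∃ a : F, v = a • w
    · obtain ⟨a, rfl⟩ := hvw
      intro y
      have h5 := h3 (a • w) hv y
      rw [map_smul, LinearMap.smul_apply, map_smul, ha] at h5
      have h6 : S.i w (Z (a • w) y) = S.i w 0 := by rw [map_zero]; exact (left_eq_add.1 h5)
      exact S.i_injective hw h6
    · push Not at hvw
      exact hM.step h2 hw hg ha hb hv hvw (Z v) (h3 v hv) (h4 v hv)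
  let η : V →ₗ[F] V := (g : Module.End F V) - 1
  have hη : ∀ x, η x = (g : Module.End F V) x - x := fun x => rfl
  have k1 : ∀ v, S.ω w v = 0 → ∀ y, η (S.i v y) = 0 := by
    intro v hv y
    rw [hη, h3 v hv, hZ v hv, map_zero, add_zero, sub_self]
  have k2 : ∀ v, S.ω w v = 0 → ∀ x, S.c v (η x) = 0 := by
    intro v hv x
    rw [hη, map_sub, h4 v hv, hZ v hv, add_zero, sub_self]
  have k3 : ∀ x, (g : Module.End F V) x = x + S.i w ((-(S.c u ∘ₗ η ∘ₗ S.i u)) (S.c w x)) := by
    intro x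
    have h5 := S.eq_i_of_perp hu (x := η x) (fun v hv => k2 v hv x)
    have h6 := S.eq_comp_c hu (g := η) k1 x
    rw [LinearMap.neg_apply, LinearMap.comp_apply, LinearMap.comp_apply, ← h6, map_neg, ← h5, hη,
      add_sub_cancel]
  obtain ⟨l, hl⟩ := hM.h1 w hw _ g hg k3
  refine ⟨l, ext_unit fun x => ?_⟩
  rw [k3, hl, S.tv_apply, map_smul]

theorem exists_repr [FiniteDimensional F W] (φ : W →ₗ[F] F) : ∃ a, ∀ v, S.ω a v = φ v := by
  have hinj : Function.Injective S.ω := by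
    rw [injective_iff_map_eq_zero]
    intro a h
    exact S.nondeg a fun x => by rw [h, LinearMap.zero_apply]
  have hsur : Function.Surjective (S.ω : W →ₗ[F] Module.Dual F W) :=
    (LinearMap.injective_iff_surjective_of_finrank_eq_finrank (Subspace.dual_finrank_eq (K := F) (V := W)).symm).1 hinj
  obtain ⟨a, ha⟩ := hsur φ
  exact ⟨a, fun v => by rw [ha]⟩

/-- An element of `M` acting trivially on `w ⊗ W'`, on `V / (w ⊗ W')^⊥` and on the middle section. -/
theorem Good.radical [FiniteDimensional F W] [Nontrivial W'] {M : Subgroup (Module.End F V)ˣ} (hM : S.Good M)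
    (h2 : (2 : F) ≠ 0) {w : W} (hw : w ≠ 0)
    {g : (Module.End F V)ˣ} (hg : g ∈ M) (ha : ∀ y, (g : Module.End F V) (S.i w y) = S.i w y)
    (hb : ∀ x, S.c w ((g : Module.End F V) x) = S.c w x)
    (hc : ∀ x, S.c w x = 0 → ∃ y, (g : Module.End F V) x = x + S.i w y) :
    ∃ (a : W) (l : F), S.ω w a = 0 ∧ ∀ x, (g : Module.End F V) x = x + (S.Sv w a x + l • S.Δ w x) := by
  obtain ⟨u, hu⟩ := S.exists_pair hw
  have huw : S.ω u w = -1 := by rw [S.skew, hu]
  have ww := S.alt w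
  let Y : W → Module.End F W' := fun v => -(S.c u ∘ₗ ((g : Module.End F V) - 1) ∘ₗ S.i v)
  let Y' : W → Module.End F W' := fun v => S.c v ∘ₗ ((g : Module.End F V) - 1) ∘ₗ S.i u
  have hY : ∀ v y, Y v y = -(S.c u ((g : Module.End F V) (S.i v y) - S.i v y)) := fun v y => rfl
  have hY' : ∀ v y, Y' v y = S.c v ((g : Module.End F V) (S.i u y) - S.i u y) := fun v y => rfl
  have f1 : ∀ v, S.ω w v = 0 → ∀ y, (g : Module.End F V) (S.i v y) = S.i v y + S.i w (Y v y) := by
    intro v hv y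
    obtain ⟨y', hy'⟩ := hc (S.i v y) (by rw [S.ci, hv, zero_smul])
    have h5 : y' = Y v y := by
      rw [hY, hy', add_sub_cancel_left, S.ci, huw, neg_smul, one_smul, neg_neg]
    rw [hy', h5]
  have f2 : ∀ v, S.ω w v = 0 → ∀ x, S.c v ((g : Module.End F V) x) = S.c v x + Y' v (S.c w x) := by
    intro v hv x
    have h5 := S.eq_comp_c hu (g := S.c v ∘ₗ ((g : Module.End F V) - 1)) (x := x) ?_
    · have h6 : S.c v ((g : Module.End F V) x - x) = Y' v (S.c w x) := h5
      rw [← h6, map_sub, add_sub_cancel]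
    · intro v' hv' y
      show S.c v ((g : Module.End F V) (S.i v' y) - S.i v' y) = 0
      rw [f1 v' hv', add_sub_cancel_left, S.ci, S.perp_comm hv, zero_smul]
  have ia : ∀ y, ((g⁻¹ : (Module.End F V)ˣ) : Module.End F V) (S.i w y) = S.i w y := by
    intro y
    conv_lhs => rw [← ha y]
    rw [inv_apply]
  have ib : ∀ x, S.c w (((g⁻¹ : (Module.End F V)ˣ) : Module.End F V) x) = S.c w x := by
    intro x
    conv_rhs => rw [← apply_inv g x, hb]
  have f3 : ∀ v, S.ω w v = 0 → ∀ x, S.c v (((g⁻¹ : (Module.End F V)ˣ) : Module.End F V) x)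
      = S.c v x - Y' v (S.c w x) := by
    intro v hv x
    have := f2 v hv (((g⁻¹ : (Module.End F V)ˣ) : Module.End F V) x)
    rw [apply_inv, ib] at this
    rw [this, add_sub_cancel_right]
  have sgM : ∀ v (hv : S.ω w v = 0), S.sg w v hv ∈ M := by
    intro v hv
    rw [S.sg_eq]
    exact M.mul_mem (M.mul_mem (hM.tv_mem _ _) (hM.tv_mem _ _)) (hM.tv_mem _ _)
  have sg_apply : ∀ v (hv : S.ω w v = 0) (x : V), ((S.sg w v hv : (Module.End F V)ˣ) : Module.End F V) x
      = x + (S.i v (S.c w x) + S.i w (S.c v x)) := fun v hv x => rfl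
  have sg_inv_apply : ∀ v (hv : S.ω w v = 0) (x : V), (((S.sg w v hv)⁻¹ : (Module.End F V)ˣ) : Module.End F V) x
      = x - (S.i v (S.c w x) + S.i w (S.c v x)) := fun v hv x => rfl
  have s1 : ∀ v, S.ω w v = 0 → ∃ l : F, ∀ y, Y v y - Y' v y = l • y := by
    intro v hv
    have hvw := S.perp_comm hv
    have vv := S.alt v
    have e : ∀ x, ((g * S.sg w v hv * g⁻¹ * (S.sg w v hv)⁻¹ : (Module.End F V)ˣ) : Module.End F V) x
        = x + S.i w ((Y v - Y' v) (S.c w x)) := by
      intro x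
      simp only [Units.val_mul, Module.End.mul_apply, sg_apply, sg_inv_apply, map_sub, map_add, apply_inv, ia, ib,
        f3 v hv, f1 v hv, ha, S.ci, vv, hvw, hv, ww, zero_smul, map_zero, LinearMap.sub_apply]
      abel
    obtain ⟨l, hl⟩ := hM.h1 w hw _ _ (M.mul_mem (M.mul_mem (M.mul_mem hg (sgM v hv)) (M.inv_mem hg))
      (M.inv_mem (sgM v hv))) e
    exact ⟨l, hl⟩
  -- the functional `α`
  obtain ⟨y0, hy0⟩ := exists_ne (0 : W')
  obtain ⟨f0, hf0⟩ : ∃ f0 : Module.Dual F W', f0 y0 ≠ 0 := by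
    by_contra hcon
    push Not at hcon
    exact hy0 ((Module.forall_dual_apply_eq_zero_iff F y0).1 hcon)
  let α : W →ₗ[F] F := ((2 : F)⁻¹ * (f0 y0)⁻¹) • (f0 ∘ₗ
    (-(S.c u ∘ₗ ((g : Module.End F V) - 1) ∘ₗ S.i.flip y0) - S.c.flip ((g : Module.End F V) (S.i u y0) - S.i u y0)))
  have hα : ∀ v, α v = ((2 : F)⁻¹ * (f0 y0)⁻¹) * f0 (Y v y0 - Y' v y0) := fun v => rfl
  obtain ⟨a, haα⟩ := S.exists_repr α
  have s2 : ∀ v, S.ω w v = 0 → ∀ y, Y' v y = Y v y - (2 * S.ω a v) • y := by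
    intro v hv y
    obtain ⟨l, hl⟩ := s1 v hv
    have h5 : S.ω a v = 2⁻¹ * l := by
      rw [haα, hα, hl, map_smul, smul_eq_mul]
      field_simp
    rw [h5, ← mul_assoc, mul_inv_cancel₀ h2, one_mul, ← hl, sub_sub_cancel]
  have haw : S.ω a w = 0 := by
    have h5 : Y w y0 = 0 := by rw [hY, ha, sub_self, map_zero, neg_zero]
    have h6 : Y' w y0 = 0 := by rw [hY', map_sub, hb, sub_self]
    rw [haα, hα, h5, h6, sub_zero, map_zero, mul_zero]
  have hwa : S.ω w a = 0 := S.perp_comm haw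
  have aa := S.alt a
  have hg1 : g * (S.sg w a hwa)⁻¹ ∈ M := M.mul_mem hg (M.inv_mem (sgM a hwa))
  obtain ⟨l, hl⟩ := hM.step5 h2 hw hg1
    (by
      intro y
      simp only [Units.val_mul, Module.End.mul_apply, sg_inv_apply, map_sub, map_add, ha, S.ci, ww, haw, zero_smul,
        map_zero, add_zero, sub_zero])
    (by
      intro x
      simp only [Units.val_mul, Module.End.mul_apply, sg_inv_apply, map_add, hb, S.ci, ww, hwa, zero_smul,
        map_sub, add_zero, sub_zero])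
    (fun v => Y v - S.ω a v • 1)
    (by
      intro v hv y
      have hvw := S.perp_comm hv
      simp only [Units.val_mul, Module.End.mul_apply, sg_inv_apply, map_sub, map_add, f1 v hv, ha, S.ci, hv,
        zero_smul, map_zero, zero_add, LinearMap.sub_apply, LinearMap.smul_apply, Module.End.one_apply, map_smul]
      abel)
    (by
      intro v hv x
      have hvw := S.perp_comm hv
      simp only [Units.val_mul, Module.End.mul_apply, sg_inv_apply, map_sub, map_add, f2 v hv, ha, S.ci, hv,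
        zero_smul, map_zero, LinearMap.sub_apply, LinearMap.smul_apply, Module.End.one_apply, s2 v hv, ww, hwa, hvw,
        S.skew v a, neg_smul, two_mul, add_smul, smul_zero]
      abel)
  refine ⟨a, l, hwa, fun x => ?_⟩
  have h7 : g = S.tv w l * S.sg w a hwa := by rw [← hl, inv_mul_cancel_right]
  rw [h7]
  simp only [Units.val_mul, Module.End.mul_apply, S.tv_apply, sg_apply, S.Sv_apply, S.Δ_apply, map_add, S.ci, hwa, ww,
    zero_smul, map_zero, add_zero]
  abel

end Slot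

end Cfsg.Agent.H874
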