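import Cfsg.Agent.H874.SlotZ

/-!
# The slot lemma for `dim W ≥ 4`

`S.Good M`, `M` finite, characteristic not two, `dim W ≥ 4`: a member of `DM M` commutes with all `tv w l` or is a
slot transvection.
-/

set_option autoImplicit false
set_option linter.unusedSimpArgs false
set_option linter.unusedVariables false

namespace Cfsg.Agent.H874

open Subgroup

namespace Slot

variable {F W W' V : Type*} [Field F] [AddCommGroup W] [Module F W] [AddCommGroup W'] [Module F W']
    [AddCommGroup V] [Module F V] {S : Slot F W W' V}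

theorem add_self_zero {X : Type*} [AddCommGroup X] [Module F X] (h2 : (2 : F) ≠ 0) {x : X} (h : x + x = 0) : x = 0 := by
  rw [← two_smul F x] at h
  exact (smul_eq_zero.1 h).resolve_left h2

theorem eq_zero_of_eq_neg {X : Type*} [AddCommGroup X] [Module F X] (h2 : (2 : F) ≠ 0) {x : X} (h : x = -x) : x = 0 := by
  refine add_self_zero h2 ?_
  nth_rewrite 1 [h]
  rw [neg_add_cancel]

/-- Elements of `⟨d, e⟩` fix the vectors killed by `d - 1` and `e - 1`. -/
theorem fix_of_closure {d e z : (Module.End F V)ˣ} (hz : z ∈ closure ({d, e} : Set (Module.End F V)ˣ)) {y : V}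
    (hd : (d : Module.End F V) y = y) (he : (e : Module.End F V) y = y) : (z : Module.End F V) y = y := by
  induction hz using closure_induction with
  | mem x hx =>
    rcases hx with rfl | rfl
    · exact hd
    · exact he
  | one => rfl
  | mul a b _ _ ha hb => rw [Units.val_mul, Module.End.mul_apply, hb, ha]
  | inv a _ ha =>
    have h1 := inv_apply a y
    rwa [ha] at h1

/-- `T = δ ε + ε δ` is injective on `ker (z + 1)`. -/
theorem T_inj (h2 : (2 : F) ≠ 0) {δ ε : Module.End F V} (hδ : δ * δ = 0) (hε : ε * ε = 0)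
    {d e z : (Module.End F V)ˣ} (hd : (d : Module.End F V) = 1 + δ) (he : (e : Module.End F V) = 1 + ε)
    (hz : z ∈ closure ({d, e} : Set (Module.End F V)ˣ)) (zδ : (z : Module.End F V) * δ = δ * z)
    (zε : (z : Module.End F V) * ε = ε * z) {x : V} (hx : (z : Module.End F V) x = -x)
    (hT : δ (ε x) + ε (δ x) = 0) : x = 0 := by
  have δδ : ∀ x, δ (δ x) = 0 := fun x => LinearMap.congr_fun hδ x
  have εε : ∀ x, ε (ε x) = 0 := fun x => LinearMap.congr_fun hε x
  have zδ' : ∀ x, (z : Module.End F V) (δ x) = δ ((z : Module.End F V) x) := fun x => LinearMap.congr_fun zδ x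
  have zε' : ∀ x, (z : Module.End F V) (ε x) = ε ((z : Module.End F V) x) := fun x => LinearMap.congr_fun zε x
  -- killed by both
  have key : ∀ y, (z : Module.End F V) y = -y → δ y = 0 → ε y = 0 → y = 0 := by
    intro y h1 h3 h4
    have h5 : (z : Module.End F V) y = y := fix_of_closure hz
      (by rw [hd, LinearMap.add_apply, Module.End.one_apply, h3, add_zero])
      (by rw [he, LinearMap.add_apply, Module.End.one_apply, h4, add_zero])
    rw [h5] at h1
    exact eq_zero_of_eq_neg h2 h1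
  -- killed by `δ`
  have key2 : ∀ y, (z : Module.End F V) y = -y → δ y = 0 → δ (ε y) = 0 → y = 0 := by
    intro y h1 h3 h4
    refine key y h1 h3 ?_
    exact key _ (by rw [zε', h1, map_neg]) h4 (εε y)
  have h3 : δ x = 0 := by
    refine key2 _ (by rw [zδ', hx, map_neg]) (δδ x) ?_
    have h4 := congrArg δ hT
    rwa [map_add, δδ, zero_add, map_zero] at h4
  refine key2 x hx h3 ?_
  rwa [h3, map_zero, add_zero] at hT

/-- Exactness of `δ` on `ker (z + 1)`. -/
theorem exact_of_inv [FiniteDimensional F V] (h2 : (2 : F) ≠ 0) {δ ε : Module.End F V} (hδ : δ * δ = 0)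
    (hε : ε * ε = 0) {d e z : (Module.End F V)ˣ} (hd : (d : Module.End F V) = 1 + δ)
    (he : (e : Module.End F V) = 1 + ε) (hz : z ∈ closure ({d, e} : Set (Module.End F V)ˣ))
    (zδ : (z : Module.End F V) * δ = δ * z) (zε : (z : Module.End F V) * ε = ε * z) {x : V}
    (hx : (z : Module.End F V) x = -x) (hδx : δ x = 0) : ∃ y, x = δ y := by
  have δδ : ∀ x, δ (δ x) = 0 := fun x => LinearMap.congr_fun hδ x
  have zδ' : ∀ x, (z : Module.End F V) (δ x) = δ ((z : Module.End F V) x) := fun x => LinearMap.congr_fun zδ x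
  have zε' : ∀ x, (z : Module.End F V) (ε x) = ε ((z : Module.End F V) x) := fun x => LinearMap.congr_fun zε x
  let K : Submodule F V := LinearMap.ker ((z : Module.End F V) + 1) ⊓ LinearMap.ker δ
  have hK : ∀ y, y ∈ K ↔ ((z : Module.End F V) y = -y ∧ δ y = 0) := by
    intro y
    rw [Submodule.mem_inf, LinearMap.mem_ker, LinearMap.mem_ker, LinearMap.add_apply, Module.End.one_apply,
      add_eq_zero_iff_eq_neg]
  let T : Module.End F V := δ * ε
  have hTK : ∀ y ∈ K, T y ∈ K := by
    intro y hy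
    obtain ⟨h1, h3⟩ := (hK y).1 hy
    refine (hK _).2 ⟨?_, ?_⟩
    · show (z : Module.End F V) (δ (ε y)) = -(δ (ε y))
      rw [zδ', zε', h1, map_neg, map_neg]
    · exact δδ _
  have hinj : Function.Injective (T.restrict hTK) := by
    rw [injective_iff_map_eq_zero]
    intro y hy
    obtain ⟨h1, h3⟩ := (hK y).1 y.2
    have h4 : δ (ε (y : V)) = 0 := congrArg Subtype.val hy
    apply Subtype.ext
    refine T_inj h2 hδ hε hd he hz zδ zε h1 ?_
    rw [h4, h3, map_zero, add_zero]
  obtain ⟨y, hy⟩ := (LinearMap.injective_iff_surjective.1 hinj) ⟨x, (hK x).2 ⟨hx, hδx⟩⟩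
  exact ⟨ε y, (congrArg Subtype.val hy).symm⟩

/-- The involution `(tv w 1 * tv u 1 * tv w 1) ^ 2` for `ω w u = 1`. -/
theorem exists_z0 {M : Subgroup (Module.End F V)ˣ} (htv : ∀ w l, S.tv w l ∈ M) {w u : W} (hwu : S.ω w u = 1) :
    ∃ z ∈ M, ∀ x, (z : Module.End F V) x = x + ((2 : F) • S.i w (S.c u x) - (2 : F) • S.i u (S.c w x)) := by
  refine ⟨(S.tv w 1 * S.tv u 1 * S.tv w 1) * (S.tv w 1 * S.tv u 1 * S.tv w 1), ?_, ?_⟩
  · have h : S.tv w 1 * S.tv u 1 * S.tv w 1 ∈ M := M.mul_mem (M.mul_mem (htv _ _) (htv _ _)) (htv _ _)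
    exact M.mul_mem h h
  · have huw : S.ω u w = -1 := by rw [S.skew, hwu]
    have hP : ∀ x, ((S.tv w 1 * S.tv u 1 * S.tv w 1 : (Module.End F V)ˣ) : Module.End F V) x
        = x + S.i w (S.c w x) + S.i w (S.c u x) + S.i u (S.c u x) - S.i u (S.c w x) := by
      intro x
      simp only [Units.val_mul, Module.End.mul_apply, S.tv_apply, map_add, S.ci, S.alt, hwu, huw, one_smul, zero_smul,
        neg_smul, map_neg, map_zero, add_zero, zero_add]
      abel
    intro x
    rw [Units.val_mul, Module.End.mul_apply, hP x, hP]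
    simp only [map_add, map_sub, S.ci, S.alt, hwu, huw, one_smul, zero_smul, neg_smul, map_neg, map_zero, add_zero,
      zero_add, two_smul]
    abel

/-- An involution of `M` commuting with `Δ w` and exact with respect to it is the involution of a hyperbolic pair. -/
theorem Good.invol [FiniteDimensional F W] [Nontrivial W'] {M : Subgroup (Module.End F V)ˣ} (hM : S.Good M)
    (h2 : (2 : F) ≠ 0) {w : W} (hw : w ≠ 0) (hdim : ∃ v, S.ω w v = 0 ∧ ∀ a : F, v ≠ a • w)
    {z : (Module.End F V)ˣ} (hzM : z ∈ M) (hzz : z * z = 1) (hz1 : z ≠ 1)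
    (zΔ : ∀ x, (z : Module.End F V) (S.i w (S.c w x)) = S.i w (S.c w ((z : Module.End F V) x)))
    (hex : ∀ x, (z : Module.End F V) x = -x → S.c w x = 0 → ∃ y, x = S.i w y) :
    ∃ u, S.ω w u = 1 ∧
      ∀ x, (z : Module.End F V) x = x + ((2 : F) • S.i w (S.c u x) - (2 : F) • S.i u (S.c w x)) := by
  have ww := S.alt w
  have zz : ∀ x, (z : Module.End F V) ((z : Module.End F V) x) = x := by
    intro x
    rw [← Module.End.mul_apply, ← Units.val_mul, hzz, Units.val_one, Module.End.one_apply]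
  obtain ⟨u, hu⟩ := S.exists_pair hw
  have huw : S.ω u w = -1 := by rw [S.skew, hu]
  let ζ : Module.End F W' := S.c w ∘ₗ (z : Module.End F V) ∘ₗ S.i u
  have hζi : ∀ y, (z : Module.End F V) (S.i w y) = S.i w (ζ y) := by
    intro y
    have h3 := zΔ (S.i u y)
    rwa [S.ci, hu, one_smul] at h3
  have hζc : ∀ x, S.c w ((z : Module.End F V) x) = ζ (S.c w x) := by
    intro x
    have h3 := zΔ x
    rw [hζi] at h3
    exact (S.i_injective hw h3).symm
  have hζζ : ∀ y, ζ (ζ y) = y := by
    intro y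
    refine S.i_injective hw ?_
    rw [← hζi, ← hζi, zz]
  -- `z` is trivial on `ker c w / range i w`
  have hker : ∀ x, S.c w x = 0 → ∃ y, (z : Module.End F V) x = x + S.i w y := by
    intro x hx
    obtain ⟨y, hy⟩ := hex ((z : Module.End F V) x - x) (by rw [map_sub, zz, neg_sub])
      (by rw [map_sub, hζc, hx, map_zero, sub_zero])
    exact ⟨y, by rw [← hy]; abel⟩
  -- `ζ` is scalar
  obtain ⟨v, hwv, hv⟩ := hdim
  have hvw := S.perp_comm hwv
  obtain ⟨b, hwb, hbv⟩ := exists_perp_pair hw hwv hv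
  have hvb : S.ω v b = -1 := by rw [S.skew, hbv]
  have hsg : ∀ x, ((S.sg w v hwv : (Module.End F V)ˣ) : Module.End F V) x = x + (S.i v (S.c w x) + S.i w (S.c v x)) :=
    fun x => rfl
  have hsgM : S.sg w v hwv ∈ M := by
    rw [S.sg_eq]
    exact M.mul_mem (M.mul_mem (hM.tv_mem _ _) (hM.tv_mem _ _)) (hM.tv_mem _ _)
  obtain ⟨a, m, hwa, ham⟩ := hM.radical h2 hw (M.mul_mem (M.mul_mem hzM hsgM) hzM)
    (by
      intro y
      rw [Units.val_mul, Module.End.mul_apply, Units.val_mul, Module.End.mul_apply, hζi, hsg]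
      simp only [S.ci, ww, hvw, zero_smul, map_zero, add_zero]
      rw [hζi, hζζ])
    (by
      intro x
      rw [Units.val_mul, Module.End.mul_apply, Units.val_mul, Module.End.mul_apply, hζc, hsg]
      simp only [map_add, S.ci, hwv, ww, zero_smul, add_zero, map_zero]
      rw [hζc, hζζ])
    (by
      intro x hx
      obtain ⟨y, hy⟩ := hker x hx
      obtain ⟨y', hy'⟩ := hker (x + S.i w y + (S.i v (S.c w (x + S.i w y)) + S.i w (S.c v (x + S.i w y)))) (by
        simp only [map_add, S.ci, ww, hwv, hx, zero_smul, map_zero, add_zero])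
      refine ⟨y + S.c v x + y', ?_⟩
      rw [Units.val_mul, Module.End.mul_apply, Units.val_mul, Module.End.mul_apply, hy, hsg, hy']
      simp only [map_add, S.ci, ww, hwv, hvw, hx, zero_smul, map_zero, add_zero, zero_add]
      abel)
  have hζs : ∀ x, S.c w x = 0 → ζ (S.c v x) = S.c a x := by
    intro x hx
    have h3 := ham x
    rw [S.Sv_apply, S.Δ_apply, hx, map_zero, map_zero, smul_zero, zero_add, add_zero, Units.val_mul,
      Module.End.mul_apply, Units.val_mul, Module.End.mul_apply, hsg, map_add, zz, hζc, hx, map_zero, map_zero,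
      zero_add, hζi, add_right_inj] at h3
    obtain ⟨y, hy⟩ := hker x hx
    rw [hy, map_add, S.ci, hvw, zero_smul, add_zero] at h3
    exact S.i_injective hw h3
  obtain ⟨μ, hμ⟩ : ∃ μ : F, ∀ y, ζ y = μ • y := by
    refine ⟨- S.ω a b, fun y => ?_⟩
    have h3 := hζs (S.i b y) (by rw [S.ci, hwb, zero_smul])
    rw [S.ci, S.ci, hvb, neg_smul, one_smul, map_neg] at h3
    rw [neg_smul, ← h3, neg_neg]
  obtain ⟨y0, hy0⟩ := exists_ne (0 : W')
  have hμμ : μ * μ = 1 := by
    have h3 := hζζ y0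
    rw [hμ, hμ, smul_smul] at h3
    have h4 : (μ * μ - 1) • y0 = 0 := by rw [sub_smul, one_smul, h3, sub_self]
    exact sub_eq_zero.1 ((smul_eq_zero.1 h4).resolve_right hy0)
  have hμ1 : μ ≠ 1 := by
    intro h
    apply hz1
    refine ext_unit fun x => ?_
    rw [Units.val_one, Module.End.one_apply, ← sub_eq_zero]
    obtain ⟨y, hy⟩ := hex ((z : Module.End F V) x - x) (by rw [map_sub, zz, neg_sub])
      (by rw [map_sub, hζc, hμ, h, one_smul, sub_self])
    have h3 : (z : Module.End F V) ((z : Module.End F V) x - x) = (z : Module.End F V) x - x := by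
      rw [hy, hζi, hμ, h, one_smul]
    rw [map_sub, zz, ← neg_sub] at h3
    exact eq_zero_of_eq_neg h2 h3.symm
  have hμ' : μ = -1 := by
    have h3 : (μ - 1) * (μ + 1) = 0 := by ring_nf; rw [pow_two, hμμ]; ring
    rcases mul_eq_zero.1 h3 with h | h
    · exact absurd (sub_eq_zero.1 h) hμ1
    · exact eq_neg_of_add_eq_zero_left h
  have hzi : ∀ y, (z : Module.End F V) (S.i w y) = - S.i w y := by
    intro y
    rw [hζi, hμ, hμ', neg_smul, one_smul, map_neg]
  have hzc : ∀ x, S.c w ((z : Module.End F V) x) = - S.c w x := by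
    intro x
    rw [hζc, hμ, hμ', neg_smul, one_smul]
  -- compare with `z0`
  obtain ⟨z0, hz0M, hz0⟩ := exists_z0 hM.tv_mem hu
  obtain ⟨a', m', hwa', ham'⟩ := hM.radical h2 hw (M.mul_mem hzM hz0M)
    (by
      intro y
      rw [Units.val_mul, Module.End.mul_apply, hz0, S.ci, S.ci, ww, huw, zero_smul, map_zero, smul_zero, sub_zero,
        neg_smul, one_smul, map_neg, smul_neg, two_smul, map_add, map_neg, map_add, hzi]
      abel)
    (by
      intro x
      rw [Units.val_mul, Module.End.mul_apply, hzc, hz0, map_add, map_sub, map_smul, map_smul, S.ci, S.ci, ww, hu,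
        zero_smul, smul_zero, one_smul, two_smul]
      abel)
    (by
      intro x hx
      obtain ⟨y, hy⟩ := hker (x + (2 : F) • S.i w (S.c u x)) (by rw [map_add, map_smul, S.ci, ww, hx, zero_smul, smul_zero, add_zero])
      refine ⟨(2 : F) • S.c u x + y, ?_⟩
      rw [Units.val_mul, Module.End.mul_apply, hz0, hx, map_zero, smul_zero, sub_zero, hy, map_add, map_smul, add_assoc])
  have haw' := S.perp_comm hwa'
  have z0z0 : ∀ x, (z0 : Module.End F V) ((z0 : Module.End F V) x) = x := by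
    intro x
    rw [hz0 x, hz0]
    simp only [map_add, map_sub, map_smul, S.ci, S.alt, hu, huw, one_smul, zero_smul, neg_smul, map_neg, map_zero,
      add_zero, zero_add, two_smul, smul_neg, smul_zero]
    abel
  have hform : ∀ x, (z : Module.End F V) x
      = x + ((2 : F) • S.i w (S.c (u + (2⁻¹ : F) • a') x) - (2 : F) • S.i (u + (2⁻¹ : F) • a') (S.c w x))
        - (m' + 2 * S.ω a' u) • S.i w (S.c w x) := by
    intro x
    have h3 := ham' ((z0 : Module.End F V) x)
    rw [Units.val_mul, Module.End.mul_apply, z0z0] at h3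
    rw [h3, hz0, S.Sv_apply, S.Δ_apply]
    simp only [map_add, map_sub, map_smul, LinearMap.add_apply, LinearMap.smul_apply, S.ci, ww, hu, haw', hwa',
      smul_add, smul_sub, smul_smul, mul_inv_cancel₀ h2, one_smul, zero_smul, smul_zero, map_zero, add_zero, zero_add,
      add_smul, two_smul, neg_smul, two_mul]
    abel
  refine ⟨u + (2⁻¹ : F) • a', by rw [map_add, map_smul, hu, hwa', smul_zero, add_zero], fun x => ?_⟩
  have hu' : S.ω w (u + (2⁻¹ : F) • a') = 1 := by rw [map_add, map_smul, hu, hwa', smul_zero, add_zero]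
  generalize u + (2⁻¹ : F) • a' = u' at hform hu'
  generalize m' + 2 * S.ω a' u = m at hform
  have huw' : S.ω u' w = -1 := by rw [S.skew, hu']
  have hm : m = 0 := by
    have h3 := zz (S.i u' y0)
    rw [hform (S.i u' y0), hform] at h3
    simp only [map_add, map_sub, map_smul, S.ci, S.alt, hu', huw', one_smul, zero_smul, neg_smul, map_neg, map_zero,
      add_zero, zero_add, two_smul, smul_neg, smul_zero, sub_zero, zero_sub, smul_sub, smul_add] at h3
    have h4 : (2 * m) • S.i w y0 = 0 := by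
      rw [two_mul, add_smul, ← sub_eq_zero.2 h3]
      abel
    have h5 : S.i w y0 ≠ 0 := by
      intro h
      exact hy0 (S.i_injective hw (by rw [h, map_zero]))
    exact (mul_eq_zero.1 ((smul_eq_zero.1 h4).resolve_right h5)).resolve_left h2
  rw [hform, hm, zero_smul, sub_zero]

/-- The shape of a member of `DM M` not commuting with `tv w l`. -/
theorem Good.local_form [FiniteDimensional F W] [FiniteDimensional F W'] [Nontrivial W'] [Finite V] {p : ℕ}
    [Fact p.Prime] [CharP F p]
    {M : Subgroup (Module.End F V)ˣ} [Finite M] (hM : S.Good M) (h2 : (2 : F) ≠ 0)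
    (hdim : ∀ w, w ≠ 0 → ∃ v, S.ω w v = 0 ∧ ∀ a : F, v ≠ a • w) {w : W} (hw : w ≠ 0) {l : F} (hl : l ≠ 0)
    {e : (Module.End F V)ˣ} (he : e ∈ S.DM M) (hne : S.tv w l * e ≠ e * S.tv w l) :
    ∃ u, S.ω w u = 1 ∧
      (∀ v, S.ω w v = 0 → S.ω u v = 0 → (∀ y, (e : Module.End F V) (S.i v y) = S.i v y) ∧
        ∀ x, S.c v ((e : Module.End F V) x) = S.c v x) ∧
      ∀ y, S.c w ((e : Module.End F V) (S.i w y)) = 0 → y = 0 := by
  have hp2 : p ≠ 2 := by
    rintro rfl
    exact h2 (by exact_mod_cast CharP.cast_eq_zero F 2)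
  have h2A : ∀ x : Module.End F V, x + x = 0 → x = 0 := fun x hx => add_self_zero h2 hx
  have heM := DM_subset hM.tv_mem he
  have hnp : ¬ IsPGroup p (closure ({S.tv w l, e} : Set (Module.End F V)ˣ)) := fun h =>
    hne (hM.comm_of_pgroup h2 (tv_mem_DM M hw hl) he h)
  obtain ⟨g, hg, w0, hw0, l0, hl0, heq⟩ := he
  obtain ⟨δ, hδ⟩ : ∃ δ : Module.End F V, δ = l • S.Δ w := ⟨_, rfl⟩
  obtain ⟨ε, hε⟩ : ∃ ε : Module.End F V, ε = l0 • ((g : Module.End F V) * S.Δ w0 * ((g⁻¹ : (Module.End F V)ˣ) : Module.End F V)) :=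
    ⟨_, rfl⟩
  have hδa : ∀ x, δ x = l • S.i w (S.c w x) := fun x => by rw [hδ]; rfl
  have hεa : ∀ x, ε x = l0 • (g : Module.End F V) (S.i w0 (S.c w0 (((g⁻¹ : (Module.End F V)ˣ) : Module.End F V) x))) :=
    fun x => by rw [hε]; rfl
  have hδδ : δ * δ = 0 := by rw [hδ, smul_mul_smul_comm, S.Δ_mul_Δ_of_perp (S.alt w), smul_zero]
  have hεε : ε * ε = 0 := by
    ext x
    rw [Module.End.mul_apply, hεa, hεa, map_smul, inv_apply, map_smul, S.ci, S.alt, zero_smul, smul_zero, map_zero,
      map_zero, smul_zero, LinearMap.zero_apply]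
  have hd : ((S.tv w l : (Module.End F V)ˣ) : Module.End F V) = 1 + δ := by rw [hδ]; rfl
  have hdi : (((S.tv w l)⁻¹ : (Module.End F V)ˣ) : Module.End F V) = 1 - δ := by rw [hδ]; rfl
  have he1 : (e : Module.End F V) = 1 + ε := by
    ext x
    rw [heq, LinearMap.add_apply, hεa, Module.End.one_apply]
    simp only [Units.val_mul, Module.End.mul_apply, S.tv_apply, map_add, map_smul, apply_inv]
  have hei : ((e⁻¹ : (Module.End F V)ˣ) : Module.End F V) = 1 - ε := by
    ext x
    refine inv_apply_of_sq (A := fun x => ε x) (fun x => by rw [he1]; rfl) (fun x => ?_) x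
    have h5 : ε (ε x) = 0 := LinearMap.congr_fun hεε x
    simp only [map_sub, h5, sub_zero]
  obtain ⟨z, hz, hz1, hzz⟩ := exists_involution (F := F) hp2 (d := S.tv w l) (e := e)
    (fun x => by
      have h5 : δ (δ x) = 0 := LinearMap.congr_fun hδδ x
      rw [hd, LinearMap.add_apply, LinearMap.add_apply, Module.End.one_apply, Module.End.one_apply, add_sub_cancel_left,
        h5, add_zero])
    (fun x => by
      have h5 : ε (ε x) = 0 := LinearMap.congr_fun hεε x
      rw [he1, LinearMap.add_apply, LinearMap.add_apply, Module.End.one_apply, Module.End.one_apply,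
        add_sub_cancel_left, h5, add_zero]) hnp
  obtain ⟨zδ, zε⟩ := involution_comm h2A hδδ hεε hd hdi he1 hei hz hzz
  have zδ' : ∀ x, (z : Module.End F V) (δ x) = δ ((z : Module.End F V) x) := fun x => LinearMap.congr_fun zδ x
  have zε' : ∀ x, (z : Module.End F V) (ε x) = ε ((z : Module.End F V) x) := fun x => LinearMap.congr_fun zε x
  have hzM : z ∈ M := by
    have h5 : closure ({S.tv w l, e} : Set (Module.End F V)ˣ) ≤ M := by
      rw [closure_le]
      rintro x (rfl | rfl)
      · exact hM.tv_mem _ _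
      · exact heM
    exact h5 hz
  obtain ⟨u, hu, hform⟩ := hM.invol h2 hw (hdim w hw) hzM hzz hz1
    (by
      intro x
      have h5 := zδ' x
      rw [hδa, hδa, map_smul] at h5
      exact smul_right_injective V hl h5)
    (by
      intro x hx hx'
      obtain ⟨y, hy⟩ := exact_of_inv h2 hδδ hεε hd he1 hz zδ zε hx (by rw [hδa, hx', map_zero, smul_zero])
      exact ⟨l • S.c w y, by rw [hy, hδa, map_smul]⟩)
  have hzM' : g⁻¹ * z * g ∈ M := M.mul_mem (M.mul_mem (M.inv_mem hg) hzM) hg
  have hz' : ∀ x, ((g⁻¹ * z * g : (Module.End F V)ˣ) : Module.End F V) x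
      = ((g⁻¹ : (Module.End F V)ˣ) : Module.End F V) ((z : Module.End F V) ((g : Module.End F V) x)) := by
    intro x
    simp only [Units.val_mul, Module.End.mul_apply]
  have hεg : ∀ x, ε ((g : Module.End F V) x) = l0 • (g : Module.End F V) (S.i w0 (S.c w0 x)) := by
    intro x
    rw [hεa, inv_apply]
  have hz2 : z ∈ closure ({e, S.tv w l} : Set (Module.End F V)ˣ) := by rwa [Set.pair_comm]
  obtain ⟨u0, hu0, hform0⟩ := hM.invol h2 hw0 (hdim w0 hw0) hzM'
    (by
      have h5 : g⁻¹ * z * g * (g⁻¹ * z * g) = g⁻¹ * (z * z) * g := by group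
      rw [h5, hzz, mul_one, inv_mul_cancel])
    (by
      intro h5
      apply hz1
      have h6 : z = g * (g⁻¹ * z * g) * g⁻¹ := by group
      rw [h6, h5, mul_one, mul_inv_cancel])
    (by
      intro x
      have h5 := zε' ((g : Module.End F V) x)
      rw [hεg, hεa, map_smul] at h5
      have h6 := smul_right_injective V hl0 h5
      rw [hz', hz', h6, inv_apply])
    (by
      intro x hx hx'
      rw [hz'] at hx
      have hx2 : (z : Module.End F V) ((g : Module.End F V) x) = - (g : Module.End F V) x := by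
        rw [← map_neg, ← hx, apply_inv]
      obtain ⟨y, hy⟩ := exact_of_inv h2 hεε hδδ he1 hd hz2 zε zδ hx2 (by rw [hεg, hx', map_zero, map_zero, smul_zero])
      refine ⟨l0 • S.c w0 (((g⁻¹ : (Module.End F V)ˣ) : Module.End F V) y), ?_⟩
      rw [hεa, ← map_smul] at hy
      have h6 := congrArg (((g⁻¹ : (Module.End F V)ˣ) : Module.End F V)) hy
      rw [inv_apply, inv_apply, ← map_smul] at h6
      exact h6)
  have hu0w0 : S.ω u0 w0 = -1 := by rw [S.skew, hu0]
  -- `z x = x` implies `ε x = 0`; `z (ε x) = - ε x`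
  have hεz : ∀ x, (z : Module.End F V) (ε x) = - ε x := by
    intro x
    rw [hεa]
    generalize S.c w0 (((g⁻¹ : (Module.End F V)ˣ) : Module.End F V) x) = y
    have h5 := hform0 (S.i w0 y)
    rw [hz', S.ci, S.ci, S.alt, hu0w0, zero_smul, map_zero, smul_zero, sub_zero, neg_smul, one_smul, map_neg, smul_neg,
      two_smul] at h5
    have h6 := congrArg (g : Module.End F V) h5
    rw [apply_inv] at h6
    rw [map_smul, h6, ← smul_neg, ← map_neg]
    congr 2
    abel
  have hzε : ∀ x, (z : Module.End F V) x = x → ε x = 0 := by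
    intro x hx
    refine eq_zero_of_eq_neg h2 ?_
    nth_rewrite 1 [← hx]
    rw [← zε', hεz]
  have he2 : ∀ x, (e : Module.End F V) x = x + ε x := fun x => by rw [he1]; rfl
  have huw : S.ω u w = -1 := by rw [S.skew, hu]
  refine ⟨u, hu, fun v hwv huv => ⟨fun y => ?_, fun x => ?_⟩, fun y hy => ?_⟩
  · rw [he2, hzε, add_zero]
    rw [hform, S.ci, S.ci, hwv, huv, zero_smul, map_zero, map_zero, smul_zero, sub_zero, add_zero]
  · have h5 : S.c v (ε x) = 0 := by
      refine eq_zero_of_eq_neg h2 ?_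
      have h6 := hεz x
      rw [hform] at h6
      rw [← map_neg, ← h6, map_add, map_sub, map_smul, map_smul, S.ci, S.ci, S.perp_comm hwv, S.perp_comm huv,
        zero_smul, zero_smul, smul_zero, sub_zero, add_zero]
    rw [he2, map_add, h5, add_zero]
  · rw [he2, map_add, S.ci, S.alt, zero_smul, zero_add] at hy
    have h5 : S.i w y = 0 := by
      refine T_inj h2 hδδ hεε hd he1 hz zδ zε ?_ ?_
      · rw [hform, S.ci, S.ci, S.alt, huw, zero_smul, map_zero, smul_zero, sub_zero, neg_smul, one_smul, map_neg,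
          smul_neg, two_smul]
        abel
      · rw [hδa (S.i w y), S.ci, S.alt, zero_smul, map_zero, smul_zero, map_zero, add_zero, hδa, hy, map_zero,
          smul_zero]
    exact S.i_injective hw (by rw [h5, map_zero])

/-- **The slot lemma**, `dim W ≥ 4`. -/
theorem Good.slot_lemma [FiniteDimensional F W] [FiniteDimensional F W'] [Nontrivial W'] [Finite V] {p : ℕ}
    [Fact p.Prime] [CharP F p]
    {M : Subgroup (Module.End F V)ˣ} [Finite M] (hM : S.Good M) (h2 : (2 : F) ≠ 0)
    (hdim : ∀ w, w ≠ 0 → ∃ v, S.ω w v = 0 ∧ ∀ a : F, v ≠ a • w)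
    {e : (Module.End F V)ˣ} (he : e ∈ S.DM M) :
    (∀ w l, S.tv w l * e = e * S.tv w l) ∨ ∃ b l, b ≠ 0 ∧ e = S.tv b l := by
  classical
  by_cases hall : ∀ w l, S.tv w l * e = e * S.tv w l
  · exact Or.inl hall
  right
  push Not at hall
  obtain ⟨w, l, hne⟩ := hall
  have hl : l ≠ 0 := by
    rintro rfl
    apply hne
    have : S.tv w 0 = 1 := by
      refine ext_unit fun x => ?_
      rw [S.tv_apply, zero_smul, add_zero]
      rfl
    rw [this, one_mul, mul_one]
  have hw : w ≠ 0 := by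
    rintro rfl
    apply hne
    have : S.tv 0 l = 1 := by
      refine ext_unit fun x => ?_
      rw [S.tv_apply, map_zero, LinearMap.zero_apply, smul_zero, add_zero]
      rfl
    rw [this, one_mul, mul_one]
  have heM := DM_subset hM.tv_mem he
  obtain ⟨u, hu, hK, hinj⟩ := hM.local_form h2 hdim hw hl he hne (p := p)
  have huw : S.ω u w = -1 := by rw [S.skew, hu]
  obtain ⟨v, hwv, hv⟩ := hdim w hw
  obtain ⟨v0, hv0, hwv0, huv0⟩ : ∃ v0, v0 ≠ 0 ∧ S.ω w v0 = 0 ∧ S.ω u v0 = 0 := by
    refine ⟨v + S.ω u v • w, fun h => ?_, ?_, ?_⟩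
    · exact hv (- S.ω u v) (by rw [neg_smul]; exact eq_neg_of_add_eq_zero_left h)
    · rw [map_add, map_smul, hwv, S.alt, smul_zero, add_zero]
    · rw [map_add, map_smul, huw, smul_eq_mul, mul_neg, mul_one, add_neg_cancel]
  have hv0w := S.perp_comm hwv0
  have hv0u := S.perp_comm huv0
  have hw1 : w + v0 ≠ 0 := by
    intro h
    have h5 : S.ω (w + v0) u = 0 := by rw [h, map_zero, LinearMap.zero_apply]
    rw [map_add, LinearMap.add_apply, hu, hv0u, add_zero] at h5
    exact one_ne_zero h5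
  have hv0K := hK v0 hwv0 huv0
  obtain ⟨y0, hy0⟩ := exists_ne (0 : W')
  have hne1 : S.tv (w + v0) 1 * e ≠ e * S.tv (w + v0) 1 := by
    intro h
    apply hy0
    apply hinj
    have h5 := congrArg (fun t : (Module.End F V)ˣ => (t : Module.End F V) (S.i (w + v0) y0)) h
    simp only [Units.val_mul, Module.End.mul_apply] at h5
    rw [S.tv_apply, S.tv_apply, S.ci, S.alt, zero_smul, map_zero, smul_zero, add_zero, one_smul, add_eq_left] at h5
    have h6 : S.c (w + v0) ((e : Module.End F V) (S.i (w + v0) y0)) = 0 := S.i_injective hw1 (by rw [h5, map_zero])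
    have h7 : S.c (w + v0) ((e : Module.End F V) (S.i (w + v0) y0)) = S.c w ((e : Module.End F V) (S.i w y0)) := by
      rw [map_add S.c, LinearMap.add_apply, hv0K.2, map_add S.i, LinearMap.add_apply, map_add, hv0K.1, map_add, map_add,
        S.ci, S.ci, S.ci, hwv0, hv0w, S.alt, zero_smul, add_zero, add_zero, add_zero]
    rw [← h7, h6]
  obtain ⟨u1, hu1, hK1, -⟩ := hM.local_form h2 hdim hw1 one_ne_zero he hne1 (p := p)
  have hu1w1 : S.ω u1 (w + v0) = -1 := by rw [S.skew, hu1]
  -- the subspace of the `v` such that `e` is trivial on `v`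
  let K : Set W := {v | (∀ y, (e : Module.End F V) (S.i v y) = S.i v y) ∧
    ∀ x, S.c v ((e : Module.End F V) x) = S.c v x}
  have hKadd : ∀ a b, a ∈ K → b ∈ K → a + b ∈ K := by
    rintro a b ⟨ha1, ha2⟩ ⟨hb1, hb2⟩
    refine ⟨fun y => ?_, fun x => ?_⟩
    · rw [map_add, LinearMap.add_apply, map_add, ha1, hb1]
    · rw [map_add, LinearMap.add_apply, LinearMap.add_apply, ha2, hb2]
  have hKsmul : ∀ (t : F) a, a ∈ K → t • a ∈ K := by
    rintro t a ⟨ha1, ha2⟩
    refine ⟨fun y => ?_, fun x => ?_⟩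
    · rw [map_smul, LinearMap.smul_apply, map_smul, ha1]
    · rw [map_smul, LinearMap.smul_apply, LinearMap.smul_apply, ha2]
  obtain ⟨v1, hv11, hv12, hv13⟩ : ∃ v1, S.ω (w + v0) v1 = 0 ∧ S.ω u1 v1 = 0 ∧ ¬ (S.ω w v1 = 0 ∧ S.ω u v1 = 0) := by
    by_contra hcon
    push Not at hcon
    have h5 : ∀ x, S.ω w (x + S.ω u1 x • (w + v0) - S.ω (w + v0) x • u1) = 0 := by
      intro x
      refine (hcon _ ?_ ?_).1
      · rw [map_sub, map_add, map_smul, map_smul, S.alt, hu1, smul_zero, add_zero, smul_eq_mul, mul_one, sub_self]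
      · rw [map_sub, map_add, map_smul, map_smul, S.alt, hu1w1, smul_zero, sub_zero, smul_eq_mul, mul_neg, mul_one,
          add_neg_cancel]
    have h6 : w - S.ω w u1 • (w + v0) = 0 := by
      refine S.nondeg _ fun x => ?_
      have h7 := h5 x
      rw [map_sub, map_add, map_smul, map_smul, map_add, S.alt, hwv0, add_zero, smul_zero, add_zero, smul_eq_mul] at h7
      rw [map_sub, LinearMap.sub_apply, map_smul, LinearMap.smul_apply, smul_eq_mul, mul_comm]
      exact h7
    have h8 : S.ω (w - S.ω w u1 • (w + v0)) u = 0 := by rw [h6, map_zero, LinearMap.zero_apply]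
    rw [map_sub, LinearMap.sub_apply, map_smul, LinearMap.smul_apply, map_add, LinearMap.add_apply, hu, hv0u, add_zero,
      smul_eq_mul, mul_one, sub_eq_zero] at h8
    rw [← h8, one_smul, sub_add_cancel_left] at h6
    exact hv0 (neg_eq_zero.1 h6)
  -- `b`
  have hdec : ∀ x, x + S.ω u x • w - S.ω w x • u ∈ K := by
    intro x
    refine hK _ ?_ ?_
    · rw [map_sub, map_add, map_smul, map_smul, S.alt, hu, smul_zero, add_zero, smul_eq_mul, mul_one, sub_self]
    · rw [map_sub, map_add, map_smul, map_smul, S.alt, huw, smul_zero, sub_zero, smul_eq_mul, mul_neg, mul_one,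
        add_neg_cancel]
  have hv1K : v1 ∈ K := hK1 v1 hv11 hv12
  obtain ⟨b, hb⟩ : ∃ b, b = (- S.ω u v1) • w + S.ω w v1 • u := ⟨_, rfl⟩
  have hbK : b ∈ K := by
    have h5 := hKadd _ _ hv1K (hKsmul (-1) _ (hdec v1))
    have h6 : v1 + (-1 : F) • (v1 + S.ω u v1 • w - S.ω w v1 • u) = b := by
      rw [hb, neg_smul, neg_smul, one_smul]
      abel
    rwa [h6] at h5
  have hwb : S.ω w b = S.ω w v1 := by
    rw [hb, map_add, map_smul, map_smul, S.alt, hu, smul_zero, zero_add, smul_eq_mul, mul_one]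
  have hub : S.ω u b = S.ω u v1 := by
    rw [hb, map_add, map_smul, map_smul, S.alt, huw, smul_zero, add_zero, smul_eq_mul, mul_neg, mul_one, neg_neg]
  have hb0 : b ≠ 0 := by
    rintro rfl
    apply hv13
    rw [map_zero] at hwb hub
    exact ⟨hwb.symm, hub.symm⟩
  have hKperp : ∀ x, S.ω b x = 0 → x ∈ K := by
    intro x hx
    have hx1 : S.ω w v1 * S.ω u x = S.ω u v1 * S.ω w x := by
      rw [hb, map_add, LinearMap.add_apply, map_smul, map_smul, LinearMap.smul_apply, LinearMap.smul_apply,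
        smul_eq_mul, smul_eq_mul, neg_mul, neg_add_eq_zero] at hx
      exact hx.symm
    obtain ⟨t, ht1, ht2⟩ : ∃ t : F, S.ω w x = t * S.ω w v1 ∧ S.ω u x = t * S.ω u v1 := by
      by_cases h5 : S.ω w v1 = 0
      · have h6 : S.ω u v1 ≠ 0 := fun h => hv13 ⟨h5, h⟩
        refine ⟨S.ω u x * (S.ω u v1)⁻¹, ?_, by rw [mul_assoc, inv_mul_cancel₀ h6, mul_one]⟩
        rw [h5, zero_mul] at hx1
        rw [h5, mul_zero]
        exact (mul_eq_zero.1 hx1.symm).resolve_left h6
      · refine ⟨S.ω w x * (S.ω w v1)⁻¹, by rw [mul_assoc, inv_mul_cancel₀ h5, mul_one], ?_⟩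
        field_simp
        rw [mul_comm, hx1, mul_comm]
    have h6 := hKadd _ _ (hdec x) (hKsmul t _ hbK)
    have h7 : x + S.ω u x • w - S.ω w x • u + t • b = x := by
      rw [hb, ht1, ht2, smul_add, smul_smul, smul_smul, mul_neg, neg_smul]
      abel
    rwa [h7] at h6
  -- `ε = i b X c b`
  obtain ⟨b', hbb'⟩ := S.exists_pair hb0
  let ε : Module.End F V := (e : Module.End F V) - 1
  have hεa : ∀ x, ε x = (e : Module.End F V) x - x := fun x => rfl
  have h5 : ∀ x, ε x = ε (S.i b' (S.c b x)) :=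
    S.eq_comp_c hbb' fun v hv y => by rw [hεa, (hKperp v hv).1, sub_self]
  have h6 : ∀ x, ε x = - S.i b (S.c b' (ε x)) := fun x =>
    S.eq_i_of_perp hbb' fun v hv => by rw [hεa, map_sub, (hKperp v hv).2, sub_self]
  let X : Module.End F W' := -(S.c b' ∘ₗ ε ∘ₗ S.i b')
  have h7 : ∀ x, (e : Module.End F V) x = x + S.i b (X (S.c b x)) := by
    intro x
    have h8 : (e : Module.End F V) x = x + ε x := by rw [hεa]; abel
    rw [h8, h5, h6]
    show x + -S.i b (S.c b' (ε (S.i b' (S.c b x)))) = x + S.i b (-(S.c b' (ε (S.i b' (S.c b x)))))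
    rw [map_neg]
  obtain ⟨m, hm⟩ := hM.h1 b hb0 X e heM h7
  refine ⟨b, m, hb0, ext_unit fun x => ?_⟩
  rw [h7, S.tv_apply, hm, map_smul]

end Slot

end Cfsg.Agent.H874
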