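import Cfsg.Agent.H874.SlotP

/-!
# The involution of `⟨d, e⟩`

`d = tv w l`, `e ∈ DM M`, `z` an involution of `⟨d, e⟩`: `z` commutes with `d` and `e`, and, if `dim W ≥ 4`, it is
`-1` on `⟨w, u⟩ ⊗ W'` and `1` on `⟨w, u⟩^⊥ ⊗ W'` for some `u`.
-/

set_option autoImplicit false
set_option linter.unusedSimpArgs false
set_option linter.unusedVariables false

namespace Cfsg.Agent.H874

open Subgroup

section Ring

variable {A : Type*} [Ring A]

/-- The shape of the elements of `⟨1 + δ, 1 + ε⟩`. -/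
theorem mem_shape {δ ε : A} (hδ : δ * δ = 0) (hε : ε * ε = 0) {d e : Aˣ} (hd : (d : A) = 1 + δ)
    (hdi : ((d⁻¹ : Aˣ) : A) = 1 - δ) (he : (e : A) = 1 + ε) (hei : ((e⁻¹ : Aˣ) : A) = 1 - ε) {g : Aˣ}
    (hg : g ∈ closure ({d, e} : Set Aˣ)) :
    ∃ α β γ κ : A, (α * δ = δ * α ∧ α * ε = ε * α) ∧ (β * δ = δ * β ∧ β * ε = ε * β) ∧
      (γ * δ = δ * γ ∧ γ * ε = ε * γ) ∧ (κ * δ = δ * κ ∧ κ * ε = ε * κ) ∧
      (g : A) = α + β * δ + γ * ε + κ * (δ * ε) ∧ ((g⁻¹ : Aˣ) : A) = α - β * δ - γ * ε + κ * (ε * δ) := by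
  have hδ' : ∀ x, δ * (δ * x) = 0 := fun x => by rw [← mul_assoc, hδ, zero_mul]
  have hε' : ∀ x, ε * (ε * x) = 0 := fun x => by rw [← mul_assoc, hε, zero_mul]
  obtain ⟨T, hT⟩ : ∃ T, T = δ * ε + ε * δ := ⟨_, rfl⟩
  have hTδ : T * δ = δ * T := by
    simp only [hT, mul_add, add_mul, mul_assoc, hδ, hδ', mul_zero, zero_add, add_zero]
  have hTε : T * ε = ε * T := by
    simp only [hT, mul_add, add_mul, mul_assoc, hε, hε', mul_zero, zero_add, add_zero]
  -- the step for `1 + a δ`, `a = ± 1`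
  have stepδ : ∀ (a : A) (x x' : A), a * δ = δ * a → a * ε = ε * a → (∀ y, a * y = y * a) →
      (∃ α β γ κ : A, (α * δ = δ * α ∧ α * ε = ε * α) ∧ (β * δ = δ * β ∧ β * ε = ε * β) ∧
      (γ * δ = δ * γ ∧ γ * ε = ε * γ) ∧ (κ * δ = δ * κ ∧ κ * ε = ε * κ) ∧
      x = α + β * δ + γ * ε + κ * (δ * ε) ∧ x' = α - β * δ - γ * ε + κ * (ε * δ)) →
      (∃ α β γ κ : A, (α * δ = δ * α ∧ α * ε = ε * α) ∧ (β * δ = δ * β ∧ β * ε = ε * β) ∧
      (γ * δ = δ * γ ∧ γ * ε = ε * γ) ∧ (κ * δ = δ * κ ∧ κ * ε = ε * κ) ∧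
      (1 + a * δ) * x = α + β * δ + γ * ε + κ * (δ * ε) ∧
      x' * (1 - a * δ) = α - β * δ - γ * ε + κ * (ε * δ)) := by
    rintro a x x' ha1 ha2 ha3 ⟨α, β, γ, κ, ⟨a1, a2⟩, ⟨b1, b2⟩, ⟨c1, c2⟩, ⟨d1, d2⟩, rfl, rfl⟩
    refine ⟨α, β + a * α, γ, κ + a * γ, ⟨a1, a2⟩, ⟨?_, ?_⟩, ⟨c1, c2⟩, ⟨?_, ?_⟩, ?_, ?_⟩
    · rw [add_mul, mul_add, b1, mul_assoc, a1, ← mul_assoc, ha1, mul_assoc]
    · rw [add_mul, mul_add, b2, mul_assoc, a2, ← mul_assoc, ha2, mul_assoc]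
    · rw [add_mul, mul_add, d1, mul_assoc, c1, ← mul_assoc, ha1, mul_assoc]
    · rw [add_mul, mul_add, d2, mul_assoc, c2, ← mul_assoc, ha2, mul_assoc]
    · have e1 : δ * α = α * δ := a1.symm
      have e2 : δ * (β * δ) = 0 := by rw [← mul_assoc, ← b1, mul_assoc, hδ, mul_zero]
      have e3 : δ * (γ * ε) = γ * (δ * ε) := by rw [← mul_assoc, ← c1, mul_assoc]
      have e4 : δ * (κ * (δ * ε)) = 0 := by rw [← mul_assoc, ← d1, mul_assoc, hδ', mul_zero]
      have e5 : δ * (α + β * δ + γ * ε + κ * (δ * ε)) = α * δ + γ * (δ * ε) := by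
        simp only [mul_add, e1, e2, e3, e4, add_zero]
      rw [add_mul, one_mul, mul_assoc, e5]
      simp only [mul_add, add_mul, mul_zero, add_zero, mul_assoc]
      abel
    · have e1 : ∀ y, y * (a * δ) = a * (y * δ) := by
        intro y
        rw [← mul_assoc, ← ha3, mul_assoc]
      have e2 : β * δ * (a * δ) = 0 := by rw [e1, mul_assoc, hδ, mul_zero, mul_zero]
      have e3 : κ * (ε * δ) * (a * δ) = 0 := by rw [e1, mul_assoc, mul_assoc, hδ, mul_zero, mul_zero, mul_zero]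
      rw [mul_sub, mul_one, add_mul, sub_mul, sub_mul, e2, e3, e1 α, e1 (γ * ε)]
      simp only [mul_add, add_mul, mul_zero, add_zero, sub_zero, mul_assoc]
      abel
  have stepε : ∀ (a : A) (x x' : A), a * δ = δ * a → a * ε = ε * a → (∀ y, a * y = y * a) →
      (∃ α β γ κ : A, (α * δ = δ * α ∧ α * ε = ε * α) ∧ (β * δ = δ * β ∧ β * ε = ε * β) ∧
      (γ * δ = δ * γ ∧ γ * ε = ε * γ) ∧ (κ * δ = δ * κ ∧ κ * ε = ε * κ) ∧
      x = α + β * δ + γ * ε + κ * (δ * ε) ∧ x' = α - β * δ - γ * ε + κ * (ε * δ)) →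
      (∃ α β γ κ : A, (α * δ = δ * α ∧ α * ε = ε * α) ∧ (β * δ = δ * β ∧ β * ε = ε * β) ∧
      (γ * δ = δ * γ ∧ γ * ε = ε * γ) ∧ (κ * δ = δ * κ ∧ κ * ε = ε * κ) ∧
      (1 + a * ε) * x = α + β * δ + γ * ε + κ * (δ * ε) ∧
      x' * (1 - a * ε) = α - β * δ - γ * ε + κ * (ε * δ)) := by
    rintro a x x' ha1 ha2 ha3 ⟨α, β, γ, κ, ⟨a1, a2⟩, ⟨b1, b2⟩, ⟨c1, c2⟩, ⟨d1, d2⟩, rfl, rfl⟩
    have hmul : ∀ y y' t : A, y * t = t * y → y' * t = t * y' → y * y' * t = t * (y * y') := by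
      intro y y' t h1 h2
      rw [mul_assoc, h2, ← mul_assoc, h1, mul_assoc]
    refine ⟨α + a * (β * T), β, γ + a * α + a * (κ * T), κ - a * β, ⟨?_, ?_⟩, ⟨b1, b2⟩, ⟨?_, ?_⟩, ⟨?_, ?_⟩, ?_, ?_⟩
    · rw [add_mul α, mul_add δ, a1, hmul _ _ _ ha1 (hmul _ _ _ b1 hTδ)]
    · rw [add_mul α, mul_add ε, a2, hmul _ _ _ ha2 (hmul _ _ _ b2 hTε)]
    · rw [add_mul (γ + a * α), add_mul γ, mul_add δ, mul_add δ, c1, hmul _ _ _ ha1 a1,
        hmul _ _ _ ha1 (hmul _ _ _ d1 hTδ)]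
    · rw [add_mul (γ + a * α), add_mul γ, mul_add ε, mul_add ε, c2, hmul _ _ _ ha2 a2,
        hmul _ _ _ ha2 (hmul _ _ _ d2 hTε)]
    · rw [sub_mul, mul_sub, d1, hmul _ _ _ ha1 b1]
    · rw [sub_mul, mul_sub, d2, hmul _ _ _ ha2 b2]
    · have e1 : ε * α = α * ε := a2.symm
      have e2 : ε * (β * δ) = β * T - β * (δ * ε) := by
        rw [← mul_assoc, ← b2, mul_assoc, ← mul_sub, hT, add_sub_cancel_left]
      have e3 : ε * (γ * ε) = 0 := by rw [← mul_assoc, ← c2, mul_assoc, hε, mul_zero]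
      have e4 : ε * (κ * (δ * ε)) = κ * T * ε := by
        rw [← mul_assoc, ← d2, mul_assoc, mul_assoc, hT]
        simp only [add_mul, mul_assoc, hε, mul_zero, zero_add]
      have e5 : ε * (α + β * δ + γ * ε + κ * (δ * ε)) = α * ε + (β * T - β * (δ * ε)) + κ * T * ε := by
        simp only [mul_add, e1, e2, e3, e4, add_zero]
      rw [add_mul, one_mul, mul_assoc, e5]
      simp only [mul_add, add_mul, sub_mul, mul_sub, mul_zero, add_zero, mul_assoc]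
      abel
    · have e1 : ∀ y, y * (a * ε) = a * (y * ε) := by
        intro y
        rw [← mul_assoc, ← ha3, mul_assoc]
      have e2 : γ * ε * (a * ε) = 0 := by rw [e1, mul_assoc, hε, mul_zero, mul_zero]
      have e3 : κ * (ε * δ) * (a * ε) = a * (κ * T * ε) := by
        rw [e1, hT]
        simp only [add_mul, mul_add, mul_assoc, hε, mul_zero, zero_add, add_zero]
      have e4 : β * δ * (a * ε) = a * (β * T - β * (ε * δ)) := by
        rw [e1, ← mul_sub, hT, add_sub_cancel_right, mul_assoc]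
      rw [mul_sub, mul_one, add_mul, sub_mul, sub_mul, e2, e3, e4, e1 α]
      simp only [mul_add, add_mul, sub_mul, mul_sub, mul_zero, add_zero, sub_zero, mul_assoc]
      abel
  induction hg using closure_induction_left with
  | one =>
    refine ⟨1, 0, 0, 0, ?_, ?_, ?_, ?_, ?_, ?_⟩ <;> simp
  | mul_left x hx y hy ih =>
    rcases hx with rfl | rfl
    · have h1 := stepδ 1 _ _ (by rw [one_mul, mul_one]) (by rw [one_mul, mul_one]) (fun y => by rw [one_mul, mul_one]) ih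
      rw [one_mul] at h1
      rw [mul_inv_rev, Units.val_mul, Units.val_mul, hd, hdi]
      exact h1
    · have h1 := stepε 1 _ _ (by rw [one_mul, mul_one]) (by rw [one_mul, mul_one]) (fun y => by rw [one_mul, mul_one]) ih
      rw [one_mul] at h1
      rw [mul_inv_rev, Units.val_mul, Units.val_mul, he, hei]
      exact h1
  | inv_mul_cancel x hx y hy ih =>
    rcases hx with rfl | rfl
    · have h1 := stepδ (-1) _ _ (by rw [neg_one_mul, mul_neg_one]) (by rw [neg_one_mul, mul_neg_one])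
        (fun y => by rw [neg_one_mul, mul_neg_one]) ih
      rw [neg_one_mul, ← sub_eq_add_neg, sub_neg_eq_add] at h1
      rw [mul_inv_rev, Units.val_mul, Units.val_mul, inv_inv, hd, hdi]
      exact h1
    · have h1 := stepε (-1) _ _ (by rw [neg_one_mul, mul_neg_one]) (by rw [neg_one_mul, mul_neg_one])
        (fun y => by rw [neg_one_mul, mul_neg_one]) ih
      rw [neg_one_mul, ← sub_eq_add_neg, sub_neg_eq_add] at h1
      rw [mul_inv_rev, Units.val_mul, Units.val_mul, inv_inv, he, hei]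
      exact h1

/-- An involution of `⟨1 + δ, 1 + ε⟩` commutes with `δ` and `ε`. -/
theorem involution_comm {δ ε : A} (h2 : ∀ x : A, x + x = 0 → x = 0) (hδ : δ * δ = 0) (hε : ε * ε = 0) {d e : Aˣ}
    (hd : (d : A) = 1 + δ) (hdi : ((d⁻¹ : Aˣ) : A) = 1 - δ) (he : (e : A) = 1 + ε)
    (hei : ((e⁻¹ : Aˣ) : A) = 1 - ε) {z : Aˣ} (hz : z ∈ closure ({d, e} : Set Aˣ)) (hzz : z * z = 1) :
    (z : A) * δ = δ * z ∧ (z : A) * ε = ε * z := by
  have hδ' : ∀ x, δ * (δ * x) = 0 := fun x => by rw [← mul_assoc, hδ, zero_mul]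
  have hε' : ∀ x, ε * (ε * x) = 0 := fun x => by rw [← mul_assoc, hε, zero_mul]
  obtain ⟨α, β, γ, κ, ⟨a1, a2⟩, ⟨b1, b2⟩, ⟨c1, c2⟩, ⟨d1, d2⟩, h1, h3⟩ := mem_shape hδ hε hd hdi he hei hz
  have hinv : z⁻¹ = z := inv_eq_of_mul_eq_one_left hzz
  rw [hinv] at h3
  obtain ⟨T, hT⟩ : ∃ T, T = δ * ε + ε * δ := ⟨_, rfl⟩
  have hsum : (z : A) + z = (α + α) + κ * T := by
    rw [hT, mul_add]
    nth_rewrite 1 [h1]
    rw [h3]
    abel
  have hTδ : T * δ = δ * T := by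
    simp only [hT, mul_add, add_mul, mul_assoc, hδ, hδ', mul_zero, zero_add, add_zero]
  have hTε : T * ε = ε * T := by
    simp only [hT, mul_add, add_mul, mul_assoc, hε, hε', mul_zero, zero_add, add_zero]
  have hmul : ∀ y y' t : A, y * t = t * y → y' * t = t * y' → y * y' * t = t * (y * y') := by
    intro y y' t h1 h2
    rw [mul_assoc, h2, ← mul_assoc, h1, mul_assoc]
  constructor
  · rw [← sub_eq_zero]
    apply h2
    have : (z : A) * δ - δ * z + (z * δ - δ * z) = (z + z) * δ - δ * (z + z) := by rw [add_mul, mul_add]; abel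
    rw [this, hsum, add_mul (α + α), mul_add δ (α + α), add_mul α, mul_add δ α, a1, hmul _ _ _ d1 hTδ, sub_self]
  · rw [← sub_eq_zero]
    apply h2
    have : (z : A) * ε - ε * z + (z * ε - ε * z) = (z + z) * ε - ε * (z + z) := by rw [add_mul, mul_add]; abel
    rw [this, hsum, add_mul (α + α), mul_add ε (α + α), add_mul α, mul_add ε α, a2, hmul _ _ _ d2 hTε, sub_self]

end Ring

end Cfsg.Agent.H874
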