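import Cfsg.Agent.H520.CcpBasic

/-!
# `CCP` automorphisms and 2-transitive actions (helper874, for S4114)

`fix_trans` : `G` acts 2-transitively on `D`, `a : D → D` with `a (m • d) = α m • a d`, `CCP α`. If `a` has a number of fixed
points different from one then `C_G(α)` is transitive on `D`.
-/

set_option autoImplicit false
set_option linter.unusedSectionVars false

namespace Cfsg.Agent.H874.Stein

open Subgroup Cfsg.Agent.H520

variable {G D : Type*} [Group G] [MulAction G D]

/-- The Latin square property in terms of sums. -/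
theorem sum_latin [Fintype G] {α : MulAut G} (h : CCP α) (f : G → ℤ) (hf : ∀ c x : G, α c = c → f (c * x) = f x) :
    ∑ g : G, f (g⁻¹ * α g) = ∑ x : G, f x := by
  classical
  choose c g hc hx using h
  let C := fixA α
  have hC : ∀ x, c x ∈ C := hc
  -- the bijection `G × C → C × G`
  have key : ∀ k ∈ C, ∀ z : G, (k * z)⁻¹ * α (k * z) = z⁻¹ * α z := by
    intro k hk z
    rw [map_mul, mem_fixA.1 hk]
    group
  have h1 : ∑ p : C × G, f (p.1.1 * (p.2⁻¹ * α p.2)) = ∑ p : G × C, f p.1 := by
    symm
    refine Fintype.sum_bijective (fun p : G × C => ((⟨c p.1, hC p.1⟩ : C), p.2.1 * g p.1)) ?_ _ _ ?_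
    · rw [Fintype.bijective_iff_injective_and_card]
      refine ⟨?_, ?_⟩
      · rintro ⟨x, k⟩ ⟨y, l⟩ e
        have e1 : c x = c y := congrArg (fun p : C × G => (p.1 : G)) e
        have e2 : k.1 * g x = l.1 * g y := congrArg (fun p : C × G => p.2) e
        have e3 : x = y := by
          rw [hx x, hx y, e1, ← key k.1 k.2 (g x), e2, key l.1 l.2 (g y)]
        subst e3
        rw [Prod.mk.injEq]
        exact ⟨rfl, Subtype.ext (mul_right_cancel e2)⟩
      · rw [Fintype.card_prod, Fintype.card_prod, mul_comm]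
    · rintro ⟨x, k⟩
      show f x = f (c x * ((k.1 * g x)⁻¹ * α (k.1 * g x)))
      rw [key k.1 k.2, ← hx x]
  rw [Fintype.sum_prod_type, Fintype.sum_prod_type] at h1
  have h2 : ∀ k : C, ∑ z : G, f (k.1 * (z⁻¹ * α z)) = ∑ z : G, f (z⁻¹ * α z) := by
    intro k
    refine Finset.sum_congr rfl fun z _ => hf _ _ k.2
  simp only [h2, Finset.sum_const, Finset.card_univ, nsmul_eq_mul] at h1
  rw [← Finset.mul_sum] at h1
  have h3 : (Fintype.card C : ℤ) ≠ 0 := by
    exact_mod_cast (Fintype.card_pos).ne'
  exact mul_left_cancel₀ h3 h1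

theorem fix_trans [Finite G] [Finite D] (h2 : ∀ {a b c d : D}, a ≠ b → c ≠ d → ∃ g : G, g • a = c ∧ g • b = d)
    {α : MulAut G} (h : CCP α) (a : D → D) (ha : ∀ (m : G) (d : D), a (m • d) = α m • a d)
    (hn : (∃ d e : D, d ≠ e ∧ a d = d ∧ a e = e) ∨ (∀ d, a d ≠ d)) (x y : D) : ∃ c : G, α c = c ∧ c • x = y := by
  classical
  have : Fintype G := Fintype.ofFinite G
  have : Fintype D := Fintype.ofFinite D
  by_contra hcon
  push Not at hcon
  have hxy : x ≠ y := fun e => hcon 1 (map_one α) (by rw [one_smul, e])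
  have htr : ∀ d e : D, ∃ g : G, g • d = e := by
    intro d e
    have hd : ∃ d' : D, d ≠ d' := by
      by_cases e1 : d = x
      · exact ⟨y, by rw [e1]; exact hxy⟩
      · exact ⟨x, e1⟩
    have he : ∃ e' : D, e ≠ e' := by
      by_cases e1 : e = x
      · exact ⟨y, by rw [e1]; exact hxy⟩
      · exact ⟨x, e1⟩
    obtain ⟨d', hd⟩ := hd
    obtain ⟨e', he⟩ := he
    obtain ⟨g, hg, -⟩ := h2 hd he
    exact ⟨g, hg⟩
  -- `n d e` : number of `g` with `g⁻¹ a(g d) = e`
  let n : D → D → ℤ := fun d e => ∑ g : G, if g⁻¹ • a (g • d) = e then 1 else 0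
  have hninv : ∀ (k : G) (d e : D), n (k • d) (k • e) = n d e := by
    intro k d e
    refine Fintype.sum_bijective (fun g => g * k) (Group.mulRight_bijective k) _ _ ?_
    intro g
    have h3 : (g * k)⁻¹ • a ((g * k) • d) = k⁻¹ • (g⁻¹ • a (g • k • d)) := by
      rw [mul_smul, mul_inv_rev, mul_smul]
    show (if g⁻¹ • a (g • k • d) = k • e then (1 : ℤ) else 0) = if (g * k)⁻¹ • a ((g * k) • d) = e then 1 else 0
    rw [h3]
    congr 1
    rw [eq_iff_iff]
    exact inv_smul_eq_iff.symm
  have hn1 : ∀ {d e d' e' : D}, d ≠ e → d' ≠ e' → n d e = n d' e' := by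
    intro d e d' e' h3 h4
    obtain ⟨k, rfl, rfl⟩ := h2 h3 h4
    rw [hninv]
  have hn0 : ∀ d e : D, n d d = n e e := by
    intro d e
    obtain ⟨k, rfl⟩ := htr d e
    rw [hninv]
  -- the `C`-orbit of `x`
  let f : D → ℤ := fun d => if ∃ c : G, α c = c ∧ c • x = d then 1 else 0
  have hfC : ∀ (c : G) (d : D), α c = c → f (c • d) = f d := by
    intro c d hc
    show (if _ then (1 : ℤ) else 0) = if _ then 1 else 0
    congr 1
    rw [eq_iff_iff]
    constructor
    · rintro ⟨k, hk, e⟩
      exact ⟨c⁻¹ * k, by rw [map_mul, map_inv, hc, hk], by rw [mul_smul, e, inv_smul_smul]⟩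
    · rintro ⟨k, hk, e⟩
      exact ⟨c * k, by rw [map_mul, hc, hk], by rw [mul_smul, e]⟩
  have hfx : f x = 1 := if_pos ⟨1, map_one α, one_smul G x⟩
  have hfy : f y = 0 := if_neg (by
    rintro ⟨c, hc, e⟩
    exact hcon c hc e)
  -- the sum is constant
  have hsum : ∀ d : D, ∑ g : G, f (g⁻¹ • a (g • d)) = ∑ z : G, f (a (z • d)) := by
    intro d
    have h3 : ∑ g : G, f (a ((g⁻¹ * α g) • d)) = ∑ z : G, f (a (z • d)) := by
      refine sum_latin h (fun z => f (a (z • d))) ?_
      intro c z hc
      show f (a ((c * z) • d)) = f (a (z • d))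
      rw [mul_smul, ha, hc, hfC _ _ hc]
    rw [← h3]
    symm
    refine Fintype.sum_bijective (fun g => α g) α.bijective _ _ ?_
    intro g
    show f (a ((g⁻¹ * α g) • d)) = f ((α g)⁻¹ • a (α g • d))
    rw [mul_smul, ha, map_inv]
  have hconst : ∀ d e : D, ∑ g : G, f (g⁻¹ • a (g • d)) = ∑ g : G, f (g⁻¹ • a (g • e)) := by
    intro d e
    obtain ⟨k, rfl⟩ := htr d e
    rw [hsum, hsum]
    symm
    refine Fintype.sum_bijective (fun g => g * k) (Group.mulRight_bijective k) _ _ ?_
    intro g
    show f (a (g • k • d)) = f (a ((g * k) • d))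
    rw [mul_smul]
  have hexp : ∀ d : D, ∑ g : G, f (g⁻¹ • a (g • d)) = ∑ e : D, n d e * f e := by
    intro d
    calc ∑ g : G, f (g⁻¹ • a (g • d)) = ∑ g : G, ∑ e : D, (if g⁻¹ • a (g • d) = e then 1 else 0) * f e := by
          refine Finset.sum_congr rfl fun g _ => ?_
          simp
      _ = ∑ e : D, ∑ g : G, (if g⁻¹ • a (g • d) = e then 1 else 0) * f e := Finset.sum_comm
      _ = ∑ e : D, n d e * f e := by
          refine Finset.sum_congr rfl fun e _ => ?_
          rw [← Finset.sum_mul]
  have hexp2 : ∀ d : D, ∑ e : D, n d e * f e = (n x x - n x y) * f d + n x y * ∑ e : D, f e := by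
    intro d
    rw [Finset.mul_sum, ← Finset.add_sum_erase _ _ (Finset.mem_univ d), ← Finset.add_sum_erase (a := d) _ (fun e => n x y * f e)
      (Finset.mem_univ d), hn0 d x]
    have h3 : ∑ e ∈ Finset.univ.erase d, n d e * f e = ∑ e ∈ Finset.univ.erase d, n x y * f e := by
      refine Finset.sum_congr rfl fun e he => ?_
      rw [hn1 (Finset.ne_of_mem_erase he).symm hxy]
    rw [h3]
    ring
  have h3 := hconst x y
  rw [hexp, hexp, hexp2, hexp2, hfx, hfy] at h3
  have h4 : n x x = n x y := by linarith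
  -- `n x x · |D| = |G|`
  have h5 : ∑ e : D, n x e = Fintype.card G := by
    show ∑ e : D, ∑ g : G, (if g⁻¹ • a (g • x) = e then (1 : ℤ) else 0) = _
    rw [Finset.sum_comm]
    simp
  have h6 : ∀ e : D, n x e = n x x := by
    intro e
    by_cases h7 : x = e
    · rw [← h7]
    · rw [hn1 h7 hxy, h4]
  rw [Finset.sum_congr rfl (fun e _ => h6 e), Finset.sum_const, Finset.card_univ, nsmul_eq_mul] at h5
  -- `n x x = |Fix a| |G_x|`
  let s : D → ℤ := fun e => ∑ g : G, if g • x = e then 1 else 0
  have hs : ∀ e e' : D, s e = s e' := by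
    intro e e'
    obtain ⟨k, rfl⟩ := htr e e'
    refine Fintype.sum_bijective (fun g => k * g) (Group.mulLeft_bijective k) _ _ ?_
    intro g
    show (if g • x = e then (1 : ℤ) else 0) = if (k * g) • x = k • e then 1 else 0
    congr 1
    rw [eq_iff_iff, mul_smul, smul_left_cancel_iff]
  have h7 : n x x = ∑ e : D, (if a e = e then s e else 0) := by
    calc n x x = ∑ g : G, if a (g • x) = g • x then (1 : ℤ) else 0 := by
          refine Finset.sum_congr rfl fun g _ => ?_
          congr 1
          rw [eq_iff_iff, inv_smul_eq_iff]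
      _ = ∑ g : G, ∑ e : D, (if a e = e then (if g • x = e then (1 : ℤ) else 0) else 0) := by
          refine Finset.sum_congr rfl fun g _ => ?_
          rw [Finset.sum_eq_single (g • x)]
          · simp
          · intro b _ hb
            rw [if_neg hb.symm, ite_self]
          · intro hb
            exact absurd (Finset.mem_univ _) hb
      _ = ∑ e : D, (if a e = e then s e else 0) := by
          rw [Finset.sum_comm]
          refine Finset.sum_congr rfl fun e _ => ?_
          split_ifs
          · rfl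
          · simp
  have h8 : ∑ e : D, s e = Fintype.card G := by
    show ∑ e : D, ∑ g : G, (if g • x = e then (1 : ℤ) else 0) = _
    rw [Finset.sum_comm]
    simp
  rw [Finset.sum_congr rfl (fun e _ => hs e x), Finset.sum_const, Finset.card_univ, nsmul_eq_mul] at h8
  have hD : (0 : ℤ) < Fintype.card D := by
    have : Nonempty D := ⟨x⟩
    exact_mod_cast Fintype.card_pos
  have h9 : n x x = s x := by
    have := h5.trans h8.symm
    exact mul_left_cancel₀ hD.ne' this
  have hsx : 0 < s x := by
    by_contra h10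
    have h11 : (Fintype.card D : ℤ) * s x ≤ 0 := mul_nonpos_of_nonneg_of_nonpos hD.le (not_lt.1 h10)
    rw [h8] at h11
    have h12 : (0 : ℤ) < Fintype.card G := by exact_mod_cast Fintype.card_pos
    omega
  rw [h9] at h7
  rcases hn with ⟨d, e, hde, hd, he⟩ | hn
  · have h10 : (∑ u ∈ ({d, e} : Finset D), if a u = u then s u else 0) ≤ ∑ u : D, (if a u = u then s u else 0) := by
      refine Finset.sum_le_sum_of_subset_of_nonneg (Finset.subset_univ _) fun u _ _ => ?_
      split_ifs
      · rw [hs u x]; exact hsx.le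
      · exact le_refl _
    rw [Finset.sum_pair hde, if_pos hd, if_pos he, hs d x, hs e x, ← h7] at h10
    omega
  · rw [Finset.sum_eq_zero (fun e _ => if_neg (hn e))] at h7
    omega

end Cfsg.Agent.H874.Stein
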