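import Cfsg.Agent.H889.TensorPow
import Cfsg.Agent.H874.SlotOp

/-!
# The slots of a tensor power

`tslot ω hω hn j` : the `j`-th slot of `(F ^ k) ^ (⊗ t)` in the coordinates `(Fin t → Fin k) → F` as a `Slot`.
`PM A` : the endomorphism `⊗ A i`. `sl j B` : `B` in the `j`-th slot.
-/

set_option autoImplicit false
set_option linter.unusedSimpArgs false
set_option linter.unusedVariables false
set_option linter.unusedSectionVars false

namespace Cfsg.Agent.H874

open Matrix Cfsg.Agent.H889

variable {F : Type*} [Field F] {k t : ℕ}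

/-- Insert `p` at position `j`. -/
def ins (j : Fin t) (p : Fin k) (b : {i : Fin t // i ≠ j} → Fin k) : Fin t → Fin k :=
  fun i => if h : i = j then p else b ⟨i, h⟩

/-- Forget position `j`. -/
def res (j : Fin t) (a : Fin t → Fin k) : {i : Fin t // i ≠ j} → Fin k := fun i => a i

theorem ins_self (j : Fin t) (p : Fin k) (b : {i : Fin t // i ≠ j} → Fin k) : ins j p b j = p := by
  simp [ins]

theorem res_ins (j : Fin t) (p : Fin k) (b : {i : Fin t // i ≠ j} → Fin k) : res j (ins j p b) = b := by
  funext i
  simp [res, ins, i.2]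

theorem ins_res (j : Fin t) (p : Fin k) (a : Fin t → Fin k) : ins j p (res j a) = Function.update a j p := by
  funext i
  by_cases h : i = j
  · subst h; simp [ins]
  · simp [ins, res, h]

theorem ins_res_self (j : Fin t) (a : Fin t → Fin k) : ins j (a j) (res j a) = a := by
  rw [ins_res, Function.update_eq_self]

/-- The functional `ω w`, in coordinates. -/
theorem omega_eq_sum (ω : (Fin k → F) →ₗ[F] (Fin k → F) →ₗ[F] F) (w x : Fin k → F) :
    ω w x = ∑ p, ω w (Pi.single p 1) * x p := by
  conv_lhs => rw [pi_eq_sum_univ' x]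
  rw [map_sum]
  refine Finset.sum_congr rfl fun p _ => ?_
  rw [map_smul, smul_eq_mul, mul_comm]

/-- The `j`-th slot. -/
def tslot (ω : (Fin k → F) →ₗ[F] (Fin k → F) →ₗ[F] F) (hω : ∀ w, ω w w = 0)
    (hn : ∀ w, (∀ x, ω w x = 0) → w = 0) (j : Fin t) :
    Slot F (Fin k → F) (({i : Fin t // i ≠ j} → Fin k) → F) ((Fin t → Fin k) → F) where
  ω := ω
  alt := hω
  nondeg := hn
  i := LinearMap.mk₂ F (fun w y a => w (a j) * y (res j a))
    (fun w w' y => by funext a; simp only [Pi.add_apply, add_mul])
    (fun l w y => by funext a; simp only [Pi.smul_apply, smul_eq_mul, mul_assoc])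
    (fun w y y' => by funext a; simp only [Pi.add_apply, mul_add])
    (fun l w y => by funext a; simp only [Pi.smul_apply, smul_eq_mul]; ring)
  c := LinearMap.mk₂ F (fun w x b => ∑ p, ω w (Pi.single p 1) * x (ins j p b))
    (fun w w' x => by
      funext b
      simp only [Pi.add_apply, map_add, LinearMap.add_apply, add_mul, Finset.sum_add_distrib])
    (fun l w x => by
      funext b
      simp only [Pi.smul_apply, map_smul, LinearMap.smul_apply, smul_eq_mul, Finset.mul_sum, mul_assoc])
    (fun w x x' => by funext b; simp only [Pi.add_apply, mul_add, Finset.sum_add_distrib])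
    (fun l w x => by
      funext b
      simp only [Pi.smul_apply, smul_eq_mul, Finset.mul_sum]
      exact Finset.sum_congr rfl fun p _ => by ring)
  ci := by
    intro w x y
    funext b
    simp only [LinearMap.mk₂_apply, ins_self, res_ins, Pi.smul_apply, smul_eq_mul]
    rw [omega_eq_sum ω w x, Finset.sum_mul]
    exact Finset.sum_congr rfl fun p _ => by ring
  c_inj := by
    intro v hv
    funext a
    -- the functional `coordinate a j` is `ω w` for some `w`
    have hsurj : Function.Surjective (ω : (Fin k → F) →ₗ[F] Module.Dual F (Fin k → F)) := by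
      refine (LinearMap.injective_iff_surjective_of_finrank_eq_finrank
        (Subspace.dual_finrank_eq (K := F) (V := Fin k → F)).symm).1 ?_
      rw [injective_iff_map_eq_zero]
      intro w hw
      exact hn w fun x => by rw [hw, LinearMap.zero_apply]
    obtain ⟨w, hw⟩ := hsurj (LinearMap.proj (a j))
    have h1 := congrFun (hv w) (res j a)
    simp only [LinearMap.mk₂_apply, Pi.zero_apply] at h1
    rw [Finset.sum_eq_single (a j)] at h1
    · rw [hw, LinearMap.proj_apply, Pi.single_eq_same, one_mul, ins_res_self] at h1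
      rw [h1, Pi.zero_apply]
    · intro p _ hp
      rw [hw, LinearMap.proj_apply, Pi.single_eq_of_ne (Ne.symm hp), zero_mul]
    · intro h
      exact absurd (Finset.mem_univ _) h
  i_span := by
    intro v
    have h1 : v = ∑ p, (fun a : Fin t → Fin k => (Pi.single p (1 : F) : Fin k → F) (a j) * v (ins j p (res j a))) := by
      funext a
      rw [Finset.sum_apply, Finset.sum_eq_single (a j)]
      · rw [Pi.single_eq_same, one_mul, ins_res_self]
      · intro p _ hp
        rw [Pi.single_eq_of_ne (Ne.symm hp), zero_mul]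
      · intro h
        exact absurd (Finset.mem_univ _) h
    rw [h1]
    refine Submodule.sum_mem _ fun p _ => Submodule.subset_span ⟨Pi.single p 1, fun b => v (ins j p b), ?_⟩
    funext a
    rfl

/-- The endomorphism `⊗ A i`. -/
def PM (A : Fin t → Matrix (Fin k) (Fin k) F) : Module.End F ((Fin t → Fin k) → F) := Matrix.toLin' (pm A)

theorem PM_apply (A : Fin t → Matrix (Fin k) (Fin k) F) (x : (Fin t → Fin k) → F) : PM A x = pm A *ᵥ x := rfl

theorem PM_tp (A : Fin t → Matrix (Fin k) (Fin k) F) (xs : Fin t → (Fin k → F)) :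
    PM A (tp xs) = tp fun i => A i *ᵥ xs i := by rw [PM_apply, pm_mulVec]

theorem PM_mul (A B : Fin t → Matrix (Fin k) (Fin k) F) : PM A * PM B = PM fun i => A i * B i := by
  rw [PM, PM, PM, Module.End.mul_eq_comp, ← Matrix.toLin'_mul, pm_mul]

theorem PM_one : PM (fun _ : Fin t => (1 : Matrix (Fin k) (Fin k) F)) = 1 := by
  rw [PM, pm_one, Matrix.toLin'_one]
  rfl

/-- Endomorphisms agreeing on the pure tensors are equal. -/
theorem end_ext_tp {X Y : Module.End F ((Fin t → Fin k) → F)} (h : ∀ xs : Fin t → (Fin k → F), X (tp xs) = Y (tp xs)) :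
    X = Y := by
  refine (Pi.basisFun F (Fin t → Fin k)).ext fun b => ?_
  rw [Pi.basisFun_apply, single_eq_tp]
  exact h _

/-- `B` in the `j`-th slot. -/
def sl (j : Fin t) (B : Matrix (Fin k) (Fin k) F) : Module.End F ((Fin t → Fin k) → F) :=
  PM (Function.update (fun _ => 1) j B)

theorem sl_eq (j : Fin t) (B : Matrix (Fin k) (Fin k) F) : sl j B = Matrix.toLin' (slot j B) := rfl

theorem sl_tp (j : Fin t) (B : Matrix (Fin k) (Fin k) F) (xs : Fin t → (Fin k → F)) :
    sl j B (tp xs) = tp (Function.update xs j (B *ᵥ xs j)) := by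
  rw [sl_eq, Matrix.toLin'_apply, slot_mulVec_tp]

theorem sl_add (j : Fin t) (A B : Matrix (Fin k) (Fin k) F) : sl j (A + B) = sl j A + sl j B := by
  rw [sl_eq, sl_eq, sl_eq, slot_add, map_add]

theorem sl_smul (j : Fin t) (c : F) (A : Matrix (Fin k) (Fin k) F) : sl j (c • A) = c • sl j A := by
  rw [sl_eq, sl_eq, slot_smul, map_smul]

theorem sl_one (j : Fin t) : sl j (1 : Matrix (Fin k) (Fin k) F) = 1 := by
  rw [sl, Function.update_eq_self, PM_one]

theorem sl_zero (j : Fin t) : sl j (0 : Matrix (Fin k) (Fin k) F) = 0 := by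
  have h := sl_smul j (0 : F) (0 : Matrix (Fin k) (Fin k) F)
  rwa [zero_smul, zero_smul] at h

theorem sl_mul (j : Fin t) (A B : Matrix (Fin k) (Fin k) F) : sl j A * sl j B = sl j (A * B) := by
  rw [sl_eq, sl_eq, sl_eq, Module.End.mul_eq_comp, ← Matrix.toLin'_mul, slot_mul]

theorem sl_comm {i j : Fin t} (hij : i ≠ j) (A B : Matrix (Fin k) (Fin k) F) : sl i A * sl j B = sl j B * sl i A := by
  rw [sl_eq, sl_eq, Module.End.mul_eq_comp, Module.End.mul_eq_comp, ← Matrix.toLin'_mul, ← Matrix.toLin'_mul,
    slot_comm hij]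

/-- `tp` with a prescribed `j`-th factor. -/
theorem tp_ins (ω : (Fin k → F) →ₗ[F] (Fin k → F) →ₗ[F] F) (hω : ∀ w, ω w w = 0)
    (hn : ∀ w, (∀ x, ω w x = 0) → w = 0) (j : Fin t) (xs : Fin t → (Fin k → F)) :
    tp xs = (tslot ω hω hn j).i (xs j) (fun b => ∏ i, xs i.1 (b i)) := by
  funext a
  show ∏ i, xs i (a i) = xs j (a j) * ∏ i : {i : Fin t // i ≠ j}, xs i.1 (a i.1)
  rw [← Finset.mul_prod_erase Finset.univ _ (Finset.mem_univ j)]
  congr 1
  refine Finset.prod_bij' (fun i hi => ⟨i, (Finset.mem_erase.1 hi).1⟩) (fun i _ => i.1) ?_ ?_ ?_ ?_ ?_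
  · intro i _; exact Finset.mem_univ _
  · intro i _; exact Finset.mem_erase.2 ⟨i.2, Finset.mem_univ _⟩
  · intro i _; rfl
  · intro i _; rfl
  · intro i _; rfl

section Slots

variable (ω : (Fin k → F) →ₗ[F] (Fin k → F) →ₗ[F] F) (hω : ∀ w, ω w w = 0)
    (hn : ∀ w, (∀ x, ω w x = 0) → w = 0)

theorem tslot_ω (j : Fin t) : (tslot ω hω hn j).ω = ω := rfl

theorem tslot_i_apply (j : Fin t) (w : Fin k → F) (y : ({i : Fin t // i ≠ j} → Fin k) → F) (a : Fin t → Fin k) :
    (tslot ω hω hn j).i w y a = w (a j) * y (res j a) := rfl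

theorem tslot_c_apply (j : Fin t) (w : Fin k → F) (x : (Fin t → Fin k) → F) (b : {i : Fin t // i ≠ j} → Fin k) :
    (tslot ω hω hn j).c w x b = ∑ p, ω w (Pi.single p 1) * x (ins j p b) := rfl

/-- The matrix of `x ↦ ω b x • a`. -/
def eM (a b : Fin k → F) : Matrix (Fin k) (Fin k) F := fun p q => a p * ω b (Pi.single q 1)

theorem eM_mulVec (a b x : Fin k → F) : eM ω a b *ᵥ x = ω b x • a := by
  funext p
  rw [omega_eq_sum ω b x]
  simp only [Matrix.mulVec, dotProduct, eM, Pi.smul_apply, smul_eq_mul, Finset.sum_mul]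
  exact Finset.sum_congr rfl fun q _ => by ring

theorem mat_ext {A B : Matrix (Fin k) (Fin k) F} (h : ∀ x, A *ᵥ x = B *ᵥ x) : A = B := by
  ext p q
  have h1 := congrFun (h (Pi.single q 1)) p
  rwa [Matrix.mulVec_single_one, Matrix.mulVec_single_one] at h1

theorem eM_mul (a b c d : Fin k → F) : eM ω a b * eM ω c d = ω b c • eM ω a d := by
  refine mat_ext fun x => ?_
  rw [← Matrix.mulVec_mulVec, eM_mulVec, eM_mulVec, map_smul, smul_eq_mul, Matrix.smul_mulVec, eM_mulVec, smul_smul,
    mul_comm]

theorem mul_eM (A : Matrix (Fin k) (Fin k) F) (a b : Fin k → F) : A * eM ω a b = eM ω (A *ᵥ a) b := by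
  refine mat_ext fun x => ?_
  rw [← Matrix.mulVec_mulVec, eM_mulVec, Matrix.mulVec_smul, eM_mulVec]

theorem E_eq_sl (j : Fin t) (a b : Fin k → F) : (tslot ω hω hn j).E a b = sl j (eM ω a b) := by
  refine end_ext_tp fun xs => ?_
  rw [sl_tp, eM_mulVec, Slot.E_apply, tp_ins ω hω hn j xs, Slot.ci,
    tp_ins ω hω hn j (Function.update xs j ((ω b) (xs j) • a)), Function.update_self, map_smul, map_smul,
    LinearMap.smul_apply, tslot_ω]
  congr 2
  funext c
  refine Finset.prod_congr rfl fun i _ => ?_
  rw [Function.update_of_ne i.2]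

theorem Δ_eq_sl (j : Fin t) (a : Fin k → F) : (tslot ω hω hn j).Δ a = sl j (eM ω a a) := E_eq_sl ω hω hn j a a

/-- The action of a slot matrix in coordinates. -/
theorem sl_apply (i : Fin t) (B : Matrix (Fin k) (Fin k) F) (x : (Fin t → Fin k) → F) (a : Fin t → Fin k) :
    sl i B x a = ∑ p, B (a i) p * x (Function.update a i p) := by
  have h : sl i B = (⟨⟨fun x a => ∑ p, B (a i) p * x (Function.update a i p), fun x y => by
      funext a
      simp only [Pi.add_apply, mul_add, Finset.sum_add_distrib]⟩, fun c x => by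
      funext a
      simp only [Pi.smul_apply, smul_eq_mul, Finset.mul_sum, RingHom.id_apply]
      exact Finset.sum_congr rfl fun p _ => by ring⟩ : Module.End F ((Fin t → Fin k) → F)) := by
    refine end_ext_tp fun xs => ?_
    rw [sl_tp]
    funext a
    show tp (Function.update xs i (B *ᵥ xs i)) a = ∑ p, B (a i) p * tp xs (Function.update a i p)
    have h1 : ∀ (z : Fin k → F) (a : Fin t → Fin k), tp (Function.update xs i z) a
        = z (a i) * ∏ j ∈ Finset.univ.erase i, xs j (a j) := by
      intro z a
      rw [tp_apply, ← Finset.mul_prod_erase Finset.univ _ (Finset.mem_univ i), Function.update_self]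
      congr 1
      refine Finset.prod_congr rfl fun j hj => ?_
      rw [Function.update_of_ne (Finset.ne_of_mem_erase hj)]
    rw [h1, Matrix.mulVec, dotProduct, Finset.sum_mul]
    refine Finset.sum_congr rfl fun p _ => ?_
    have h2 : tp xs (Function.update a i p) = xs i p * ∏ j ∈ Finset.univ.erase i, xs j (a j) := by
      have h3 := h1 (xs i) (Function.update a i p)
      rw [Function.update_eq_self, Function.update_self] at h3
      rw [h3]
      congr 1
      refine Finset.prod_congr rfl fun j hj => ?_
      rw [Function.update_of_ne (Finset.ne_of_mem_erase hj)]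
    rw [h2, mul_assoc]
  exact congrFun (LinearMap.congr_fun h x) a

theorem isOp_sl (j : Fin t) (B : Matrix (Fin k) (Fin k) F) : (tslot ω hω hn j).IsOp (sl j B) := by
  refine ⟨Matrix.toLin' B, fun w y => ?_⟩
  funext a
  rw [sl_apply, tslot_i_apply, Matrix.toLin'_apply, Matrix.mulVec, dotProduct, Finset.sum_mul]
  refine Finset.sum_congr rfl fun p _ => ?_
  rw [tslot_i_apply, Function.update_self, ← ins_res, res_ins, mul_assoc]

theorem isCo_sl {i j : Fin t} (hij : i ≠ j) (B : Matrix (Fin k) (Fin k) F) : (tslot ω hω hn j).IsCo (sl i B) := by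
  refine ⟨⟨⟨fun y b => ∑ p, B (b ⟨i, hij⟩) p * y (Function.update b ⟨i, hij⟩ p), fun x y => by
      funext a
      simp only [Pi.add_apply, mul_add, Finset.sum_add_distrib]⟩, fun c x => by
      funext a
      simp only [Pi.smul_apply, smul_eq_mul, Finset.mul_sum, RingHom.id_apply]
      exact Finset.sum_congr rfl fun p _ => by ring⟩, fun w y => ?_⟩
  funext a
  rw [sl_apply, tslot_i_apply]
  show _ = w (a j) * ∑ p, B (a i) p * y (Function.update (res j a) ⟨i, hij⟩ p)
  rw [Finset.mul_sum]
  refine Finset.sum_congr rfl fun p _ => ?_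
  rw [tslot_i_apply, Function.update_of_ne (Ne.symm hij)]
  have h1 : res j (Function.update a i p) = Function.update (res j a) ⟨i, hij⟩ p := by
    funext l
    by_cases h : l = ⟨i, hij⟩
    · subst h; simp [res]
    · have h2 : l.1 ≠ i := fun h3 => h (Subtype.ext h3)
      rw [Function.update_of_ne h]
      show Function.update a i p l.1 = a l.1
      rw [Function.update_of_ne h2]
  rw [h1]
  ring

/-- A product matrix as a product over the slots. -/
theorem comm_PM {X : Module.End F ((Fin t → Fin k) → F)} (h : ∀ j B, X * sl j B = sl j B * X)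
    (A : Fin t → Matrix (Fin k) (Fin k) F) : X * PM A = PM A * X := by
  classical
  have key : ∀ s : Finset (Fin t), X * PM (fun i => if i ∈ s then A i else 1)
      = PM (fun i => if i ∈ s then A i else 1) * X := by
    intro s
    induction s using Finset.induction_on with
    | empty => simp only [Finset.notMem_empty, if_false, PM_one, mul_one, one_mul]
    | insert j s hj ih =>
      have h1 : PM (fun i => if i ∈ insert j s then A i else 1)
          = sl j (A j) * PM (fun i => if i ∈ s then A i else 1) := by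
        rw [sl, PM_mul]
        congr 1
        funext i
        by_cases hi : i = j
        · subst hi
          rw [if_pos (Finset.mem_insert_self _ _), if_neg hj, Function.update_self, mul_one]
        · rw [Function.update_of_ne hi, one_mul]
          simp only [Finset.mem_insert, hi, false_or]
      rw [h1, ← mul_assoc, h, mul_assoc, ih, mul_assoc]
  have h2 := key Finset.univ
  simpa using h2

/-- The commutant of all slots consists of the scalars. -/
theorem scalar_of_comm [NeZero k] {X : Module.End F ((Fin t → Fin k) → F)} (h : ∀ j B, X * sl j B = sl j B * X) :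
    ∃ c : F, ∀ x, X x = c • x := by
  -- the vector `e_0 ⊗ ⋯ ⊗ e_0`
  let a0 : Fin t → Fin k := fun _ => 0
  let A : (Fin t → (Fin k → F)) → Fin t → Matrix (Fin k) (Fin k) F := fun xs i => fun p q => if q = 0 then xs i p else 0
  have hA : ∀ xs i, A xs i *ᵥ (Pi.single 0 1) = xs i := by
    intro xs i
    funext p
    rw [Matrix.mulVec_single_one]
    show (if (0 : Fin k) = 0 then xs i p else 0) = xs i p
    rw [if_pos rfl]
  have h0 : ∃ c : F, X (Pi.single a0 1) = c • Pi.single a0 1 := by
    refine ⟨X (Pi.single a0 1) a0, ?_⟩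
    have h1 := comm_PM h (A fun _ => Pi.single 0 1)
    have h2 := LinearMap.congr_fun h1 (Pi.single a0 1)
    rw [Module.End.mul_apply, Module.End.mul_apply] at h2
    have h3 : PM (A fun _ => Pi.single 0 1) (Pi.single a0 1) = (Pi.single a0 1 : (Fin t → Fin k) → F) := by
      rw [single_eq_tp, PM_tp]
      congr 1
      funext i
      exact hA (fun _ => Pi.single 0 1) i
    rw [h3] at h2
    conv_lhs => rw [h2]
    funext a
    rw [Pi.smul_apply, smul_eq_mul, PM_apply, Matrix.mulVec, dotProduct]
    by_cases ha : a = a0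
    · subst ha
      rw [Finset.sum_eq_single a0]
      · rw [pm_apply, Pi.single_eq_same, mul_one]
        have : ∏ i : Fin t, A (fun _ => Pi.single 0 1) i (a0 i) (a0 i) = 1 := by
          refine Finset.prod_eq_one fun i _ => ?_
          simp [A, a0]
        rw [this, one_mul]
      · intro b _ hb
        obtain ⟨i, hi⟩ := Function.ne_iff.1 hb
        rw [pm_apply, Finset.prod_eq_zero (Finset.mem_univ i), zero_mul]
        simp only [A]
        rw [if_neg hi]
      · intro h
        exact absurd (Finset.mem_univ _) h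
    · rw [Pi.single_eq_of_ne ha, mul_zero]
      refine Finset.sum_eq_zero fun b _ => ?_
      obtain ⟨i, hi⟩ := Function.ne_iff.1 ha
      rw [pm_apply, Finset.prod_eq_zero (Finset.mem_univ i), zero_mul]
      simp only [A]
      split_ifs
      · exact Pi.single_eq_of_ne hi _
      · rfl
  obtain ⟨c, hc⟩ := h0
  refine ⟨c, fun x => ?_⟩
  have h4 : X = c • 1 := by
    refine end_ext_tp fun xs => ?_
    have h5 : tp xs = PM (A xs) (Pi.single a0 1) := by
      rw [single_eq_tp, PM_tp]
      congr 1
      funext i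
      exact (hA xs i).symm
    rw [h5, ← Module.End.mul_apply, comm_PM h, Module.End.mul_apply, hc, map_smul]
    rfl
  rw [h4]
  rfl

end Slots

end Cfsg.Agent.H874
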